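import Mathlib
import Cfsg.Agent.Lib.Helper49.HypSub
import Cfsg.Agent.Lib.Helper49.WittUse

set_option autoImplicit false

namespace Cfsg.Agent.Lib.Helper49

open QuadraticMap Module

section

variable {F V : Type*} [Field F] [AddCommGroup V] [Module F V] (Q : QuadraticForm F V)

/-- a subspace invariant under a reflection contains the root or is orthogonal to it -/
theorem mem_or_ortho_of_refl_invariant (S : Submodule F V) {a : V} (ha : Q a ≠ 0)
    (h : ∀ s ∈ S, reflLin Q a s ∈ S) : a ∈ S ∨ ∀ s ∈ S, polar Q a s = 0 := by
  by_contra hcon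
  push Not at hcon
  obtain ⟨h1, s, hs, h2⟩ := hcon
  apply h1
  have h3 := h s hs
  rw [reflLin_apply] at h3
  have h4 : ((Q a)⁻¹ * polar Q a s) • a ∈ S := by
    have := S.sub_mem hs h3
    rwa [sub_sub_cancel] at this
  have h5 : (Q a)⁻¹ * polar Q a s ≠ 0 := mul_ne_zero (inv_ne_zero ha) h2
  have := S.smul_mem ((Q a)⁻¹ * polar Q a s)⁻¹ h4
  rwa [smul_smul, inv_mul_cancel₀ h5, one_smul] at this

/-- in odd characteristic a subspace all of whose nonzero vectors have the same nonzero norm is at
most a line -/
theorem le_span_of_const_norm (h2 : (2 : F) ≠ 0) (S : Submodule F V) {α : F} (hα : α ≠ 0)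
    (h : ∀ a ∈ S, a ≠ 0 → Q a = α) {a₀ : V} (ha₀ : a₀ ∈ S) (h0 : a₀ ≠ 0) :
    S ≤ Submodule.span F {a₀} := by
  intro a ha
  by_cases h1 : a - a₀ = 0
  · rw [sub_eq_zero.1 h1]
    exact Submodule.mem_span_singleton_self _
  by_cases h3 : a + a₀ = 0
  · rw [eq_neg_of_add_eq_zero_left h3]
    exact Submodule.neg_mem _ (Submodule.mem_span_singleton_self _)
  by_cases h4 : a = 0
  · rw [h4]; exact Submodule.zero_mem _
  exfalso
  have e := Q_sub_add_Q_add Q a a₀
  rw [h _ (S.sub_mem ha ha₀) h1, h _ (S.add_mem ha ha₀) h3, h _ ha h4, h _ ha₀ h0] at e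
  have : (2 : F) * α = 0 := by linear_combination -e
  rcases mul_eq_zero.1 this with h | h
  · exact h2 h
  · exact hα h

end

section

variable {F V : Type*} [Field F] [Fintype F] [AddCommGroup V] [Module F V] [FiniteDimensional F V]
  (Q : QuadraticForm F V)

/-- the orthogonal group of a nondegenerate quadratic space over a finite field acts irreducibly,
except on isotropic planes over fields with at most three elements -/
theorem eq_top_of_OG_invariant (hQ : (polarBilin Q).Nondegenerate) (S : Submodule F V)
    (hS0 : S ≠ ⊥) (hinv : ∀ g : OG Q, ∀ s ∈ S, g.1 s ∈ S)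
    (hex : ¬ (Fintype.card F ≤ 3 ∧ finrank F V = 2 ∧ ∃ e : V, e ≠ 0 ∧ Q e = 0)) : S = ⊤ := by
  classical
  by_contra hne
  have hfin := LinearMap.BilinForm.finrank_orthogonal hQ S
  set S' := LinearMap.BilinForm.orthogonal (polarBilin Q) S with hS'
  have memS' : ∀ y, y ∈ S' ↔ ∀ s ∈ S, polar Q s y = 0 := fun y => Iff.rfl
  have hlt : finrank F S < finrank F V := Submodule.finrank_lt hne
  have hS'0 : S' ≠ ⊥ := by
    intro h
    rw [h, finrank_bot] at hfin
    omega
  have hN : ∀ a, Q a ≠ 0 → a ∈ S ∨ a ∈ S' := by
    intro a ha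
    rcases mem_or_ortho_of_refl_invariant Q S ha (fun s hs => hinv (refl Q a) s hs) with h | h
    · exact Or.inl h
    · right
      intro s hs
      change polar Q s a = 0
      rw [polar_comm]; exact h s hs
  have hinv' : ∀ g : OG Q, ∀ y ∈ S', g.1 y ∈ S' := by
    intro g y hy s hs
    change polar Q s (g.1 y) = 0
    have h1 := OG_polar Q g (g⁻¹.1 s) y
    have h2 : g.1 (g⁻¹.1 s) = s := by
      change (g * g⁻¹).1 s = s
      rw [mul_inv_cancel]; rfl
    rw [h2] at h1
    rw [h1]
    exact hy _ (hinv g⁻¹ s hs)
  by_cases hT : ∃ t, t ∈ S ∧ t ∈ S' ∧ t ≠ 0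
  · obtain ⟨t, htS, htS', ht0⟩ := hT
    by_cases hQt : Q t = 0
    · obtain ⟨z, hz⟩ := exists_polar_eq_one Q hQ ht0
      obtain ⟨f, -, hQf, htf⟩ := exists_hyp_partner Q ⊤ (e := t) (f₀ := z) trivial trivial hQt
        (by rw [hz]; exact one_ne_zero)
      have h1 : Q (t - f) ≠ 0 := by
        have := Q_sub_smul Q t f 1
        simp only [one_smul, one_pow, one_mul] at this
        rw [this, hQt, hQf, polar_comm, htf]; simp
      have h2 := reflLin_sub_apply Q t f (by rw [hQt, hQf]) h1
      have h3 : f ∈ S := by
        rw [← h2]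
        exact hinv (refl Q (t - f)) t htS
      have h4 := htS' f h3
      change polar Q f t = 0 at h4
      rw [polar_comm, htf] at h4
      exact one_ne_zero h4
    · have htt : polar Q t t = 0 := htS' t htS
      have h2 : (2 : F) = 0 := by
        rw [polar_self, nsmul_eq_mul] at htt
        rcases mul_eq_zero.1 htt with h | h
        · exact_mod_cast h
        · exact absurd h hQt
      have hNt : ∀ a, Q a ≠ 0 → polar Q a t = 0 := by
        intro a ha
        have h3 : reflLin Q a t ∈ S := hinv (refl Q a) t htS
        have h4 : polar Q (reflLin Q a t) t = 0 := htS' _ h3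
        have h5 : Q (reflLin Q a t - t) = 0 := by
          have := Q_sub_smul Q (reflLin Q a t) t 1
          simp only [one_smul, one_pow, one_mul] at this
          rw [this, Q_reflLin, polar_comm, h4]
          linear_combination Q t * h2
        rw [reflLin_apply, sub_sub_cancel_left, QuadraticMap.map_neg, QuadraticMap.map_smul,
          smul_eq_mul] at h5
        by_contra h6
        exact (mul_ne_zero (mul_ne_zero (mul_ne_zero (inv_ne_zero ha) h6)
          (mul_ne_zero (inv_ne_zero ha) h6)) ha) h5
      obtain ⟨y, hy⟩ := exists_polar_eq_one Q hQ ht0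
      have hsing : ∀ v, polar Q v t = 1 → Q v = 0 := by
        intro v hv
        by_contra h
        have := hNt v h
        rw [hv] at this
        exact one_ne_zero this
      have hyt : polar Q y t = 1 := by rw [polar_comm]; exact hy
      have hQy : Q y = 0 := hsing y hyt
      have hc : ∀ c : F, c ^ 2 * Q t + c = 0 := by
        intro c
        have h3 := hsing (y + c • t) (by
          rw [polar_add_left, polar_smul_left, htt, hyt]; simp)
        rw [Q_add_eq, QuadraticMap.map_smul, polar_smul_right, hQy, hyt] at h3
        simp only [smul_eq_mul] at h3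
        linear_combination h3
      have hQt1 : Q t = -1 := by
        have := hc 1
        linear_combination this
      have hF : ∀ c : F, c = 0 ∨ c = 1 := by
        intro c
        have h3 := hc c
        rw [hQt1] at h3
        have : c * (1 - c) = 0 := by linear_combination h3
        rcases mul_eq_zero.1 this with h | h
        · exact Or.inl h
        · right; linear_combination -h
      apply hex
      refine ⟨?_, ?_, y, ?_, hQy⟩
      · have : (Finset.univ : Finset F) ⊆ {0, 1} := by
          intro c _
          rcases hF c with h | h <;> simp [h]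
        have h3 := Finset.card_le_card this
        have h4 : ({0, 1} : Finset F).card ≤ 2 := Finset.card_le_two
        rw [Finset.card_univ] at h3
        omega
      · have h3 := finrank_inf_ker_add_one (⊤ : Submodule F V) (polarBilin Q t)
          ⟨y, trivial, by simp [hy]⟩
        rw [finrank_top] at h3
        have hX : ∀ s ∈ (⊤ : Submodule F V) ⊓ LinearMap.ker (polarBilin Q t), Q s = - polar Q y s := by
          intro s hs
          have hs' : polar Q t s = 0 := by simpa using hs
          have h4 := hsing (y + s) (by
            rw [polar_add_left, hyt, polar_comm Q s t, hs']; simp)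
          rw [Q_add_eq, hQy] at h4
          linear_combination h4
        have h4 := two_mul_finrank_le_of_le_orthogonal Q hQ
          ((⊤ : Submodule F V) ⊓ LinearMap.ker (polarBilin Q t)) (by
            intro s hs s' hs'
            have e : polar Q s s' = Q (s + s') - Q s - Q s' := rfl
            rw [e, hX s hs, hX s' hs', hX _ (Submodule.add_mem _ hs hs'), polar_add_right]
            ring)
        have h5 : 0 < finrank F ↥((⊤ : Submodule F V) ⊓ LinearMap.ker (polarBilin Q t)) := by
          rw [Module.finrank_pos_iff_exists_ne_zero]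
          exact ⟨⟨t, by simp [htt]⟩, by simpa [Subtype.ext_iff] using ht0⟩
        omega
      · rintro rfl
        simp at hy
  · push Not at hT
    obtain ⟨a₀, ha₀, ha₀0⟩ := Submodule.exists_mem_ne_zero_of_ne_bot hS0
    obtain ⟨b₀, hb₀, hb₀0⟩ := Submodule.exists_mem_ne_zero_of_ne_bot hS'0
    have hB1 : ∀ a ∈ S, a ≠ 0 → ∀ b ∈ S', b ≠ 0 → Q a = - Q b := by
      intro a ha ha0 b hb hb0
      have h1 : Q (a + b) = 0 := by
        by_contra h
        rcases hN _ h with h | h
        · have : b ∈ S := by
            have := S.sub_mem h ha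
            rwa [add_sub_cancel_left] at this
          exact hb0 (hT b this hb)
        · have : a ∈ S' := by
            have := S'.sub_mem h hb
            rwa [add_sub_cancel_right] at this
          exact ha0 (hT a ha this)
      rw [Q_add_eq, (memS' b).1 hb a ha] at h1
      linear_combination h1
    obtain ⟨α, hα⟩ : ∃ α, α = Q a₀ := ⟨_, rfl⟩
    have hb : ∀ b ∈ S', b ≠ 0 → Q b = -α := by
      intro b hb hb0
      rw [hα, hB1 a₀ ha₀ ha₀0 b hb hb0]; ring
    have ha : ∀ a ∈ S, a ≠ 0 → Q a = α := by
      intro a ha ha0
      rw [hB1 a ha ha0 b₀ hb₀ hb₀0, hb b₀ hb₀ hb₀0]; ring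
    have hα0 : α ≠ 0 := by
      intro h0
      have hz : ∀ s ∈ S, Q s = 0 := by
        intro s hs
        by_cases h : s = 0
        · rw [h]; simp
        · rw [ha s hs h, h0]
      apply ha₀0
      apply hT a₀ ha₀
      intro s hs
      change polar Q s a₀ = 0
      have e : polar Q s a₀ = Q (s + a₀) - Q s - Q a₀ := rfl
      rw [e, hz _ (S.add_mem hs ha₀), hz s hs, hz a₀ ha₀]; ring
    have hsq : ∀ c : F, c ≠ 0 → c ^ 2 = 1 := by
      intro c hc
      have h1 := ha (c • a₀) (S.smul_mem _ ha₀) (smul_ne_zero hc ha₀0)
      rw [QuadraticMap.map_smul, ← hα, smul_eq_mul] at h1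
      have : (c ^ 2 - 1) * α = 0 := by linear_combination h1
      rcases mul_eq_zero.1 this with h | h
      · linear_combination h
      · exact absurd h hα0
    by_cases h2 : (2 : F) = 0
    · have h1 : Q a₀ = Q b₀ := by
        rw [← hα, hb b₀ hb₀ hb₀0]
        linear_combination α * h2
      obtain ⟨g, hg⟩ := exists_OG_map_vec Q hQ a₀ b₀ ha₀0 hb₀0 h1
      apply hb₀0
      apply hT b₀ _ hb₀
      rw [← hg]
      exact hinv g a₀ ha₀
    · apply hex
      refine ⟨?_, ?_, a₀ + b₀, ?_, ?_⟩
      · have : (Finset.univ : Finset F) ⊆ {0, 1, -1} := by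
          intro c _
          by_cases hc : c = 0
          · simp [hc]
          · have h1 := hsq c hc
            have : (c - 1) * (c + 1) = 0 := by linear_combination h1
            rcases mul_eq_zero.1 this with h | h
            · have : c = 1 := by linear_combination h
              simp [this]
            · have : c = -1 := by linear_combination h
              simp [this]
        have h3 := Finset.card_le_card this
        have h4 : ({0, 1, -1} : Finset F).card ≤ 3 := Finset.card_le_three
        rw [Finset.card_univ] at h3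
        omega
      · have h1 := Submodule.finrank_mono (le_span_of_const_norm Q h2 S hα0 ha ha₀ ha₀0)
        have h3 := Submodule.finrank_mono (le_span_of_const_norm Q h2 S' (neg_ne_zero.2 hα0) hb
          hb₀ hb₀0)
        rw [finrank_span_singleton ha₀0] at h1
        rw [finrank_span_singleton hb₀0] at h3
        have h4 : 0 < finrank F S := by
          rw [Module.finrank_pos_iff_exists_ne_zero]
          exact ⟨⟨a₀, ha₀⟩, by simpa [Subtype.ext_iff] using ha₀0⟩
        have h5 : 0 < finrank F S' := by
          rw [Module.finrank_pos_iff_exists_ne_zero]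
          exact ⟨⟨b₀, hb₀⟩, by simpa [Subtype.ext_iff] using hb₀0⟩
        omega
      · intro h
        apply hb₀0
        apply hT b₀ _ hb₀
        rw [eq_neg_of_add_eq_zero_right h]
        exact S.neg_mem ha₀
      · rw [Q_add_eq, (memS' b₀).1 hb₀ a₀ ha₀, hB1 a₀ ha₀ ha₀0 b₀ hb₀ hb₀0]; ring

end

end Cfsg.Agent.Lib.Helper49
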