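import Mathlib
import Cfsg.Agent.Lib.Helper49.OmegaCrit

set_option autoImplicit false

namespace Cfsg.Agent.Lib.Helper49

open Matrix QuadraticMap Module

section SumQF

variable {ι κ : Type} [Fintype ι] [DecidableEq ι] [Fintype κ] [DecidableEq κ]
  {F : Type*} [Field F]

/-- orthogonal sum of two quadratic forms on function spaces -/
def sumQF (Q₁ : QuadraticForm F (ι → F)) (Q₂ : QuadraticForm F (κ → F)) :
    QuadraticForm F (ι ⊕ κ → F) :=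
  Q₁.comp (LinearMap.funLeft F F Sum.inl) + Q₂.comp (LinearMap.funLeft F F Sum.inr)

variable (Q₁ : QuadraticForm F (ι → F)) (Q₂ : QuadraticForm F (κ → F))

omit [Fintype ι] [DecidableEq ι] [Fintype κ] [DecidableEq κ] in
theorem sumQF_coe : ⇑(sumQF Q₁ Q₂) = sumForm ⇑Q₁ ⇑Q₂ := rfl

omit [Fintype ι] [DecidableEq ι] [Fintype κ] [DecidableEq κ] in
theorem sumQF_apply (x : ι ⊕ κ → F) : sumQF Q₁ Q₂ x = Q₁ (x ∘ Sum.inl) + Q₂ (x ∘ Sum.inr) := rfl

omit [Fintype ι] [DecidableEq ι] [Fintype κ] [DecidableEq κ] in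
theorem polar_sumQF (x y : ι ⊕ κ → F) : polar (sumQF Q₁ Q₂) x y =
    polar Q₁ (x ∘ Sum.inl) (y ∘ Sum.inl) + polar Q₂ (x ∘ Sum.inr) (y ∘ Sum.inr) := by
  simp only [polar, sumQF_apply]
  have e1 : (x + y) ∘ Sum.inl = x ∘ Sum.inl + y ∘ (Sum.inl : ι → ι ⊕ κ) := rfl
  have e2 : (x + y) ∘ Sum.inr = x ∘ Sum.inr + y ∘ (Sum.inr : κ → ι ⊕ κ) := rfl
  rw [e1, e2]
  ring

omit [Fintype ι] [DecidableEq ι] [Fintype κ] [DecidableEq κ] in
theorem sumQF_nondegenerate (h₁ : (polarBilin Q₁).Nondegenerate)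
    (h₂ : (polarBilin Q₂).Nondegenerate) : (polarBilin (sumQF Q₁ Q₂)).Nondegenerate := by
  apply nondegenerate_of_separatingLeft
  intro x hx
  have a1 : x ∘ Sum.inl = 0 := by
    apply h₁.1
    intro y
    have := hx (Sum.elim y 0)
    rw [polar_sumQF] at this
    simpa using this
  have a2 : x ∘ Sum.inr = 0 := by
    apply h₂.1
    intro y
    have := hx (Sum.elim 0 y)
    rw [polar_sumQF] at this
    simpa using this
  funext i
  rcases i with i | i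
  · exact congrFun a1 i
  · exact congrFun a2 i

omit [Fintype ι] [DecidableEq ι] [Fintype κ] [DecidableEq κ] in
theorem reflLin_sumQF_inl (v : ι → F) (x : ι ⊕ κ → F) :
    reflLin (sumQF Q₁ Q₂) (Sum.elim v 0) x = Sum.elim (reflLin Q₁ v (x ∘ Sum.inl)) (x ∘ Sum.inr) := by
  rw [reflLin_apply, reflLin_apply, polar_sumQF, sumQF_apply]
  funext i
  rcases i with i | i <;> simp

omit [Fintype ι] [DecidableEq ι] [Fintype κ] [DecidableEq κ] in
theorem reflProd_sumQF_inl (vs : List (ι → F)) (x : ι ⊕ κ → F) :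
    (reflProd (sumQF Q₁ Q₂) (vs.map (fun v => Sum.elim v 0))).1 x =
      Sum.elim ((reflProd Q₁ vs).1 (x ∘ Sum.inl)) (x ∘ Sum.inr) := by
  induction vs generalizing x with
  | nil => simp
  | cons v vs ih =>
    simp only [List.map_cons, reflProd_cons, Subgroup.coe_mul, LinearEquiv.mul_apply,
      refl_coe_apply, ih, reflLin_sumQF_inl]
    simp

theorem fromBlocks_mulVec_eq_reflProd (g₁ : ↥(Cfsg.isometryGroup F ⇑Q₁)) (vs : List (ι → F))
    (hg : isoEquiv Q₁ g₁ = reflProd Q₁ vs) (x : ι ⊕ κ → F) :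
    Matrix.fromBlocks ((g₁ : Matrix.GeneralLinearGroup ι F) : Matrix ι ι F) 0 0 (1 : Matrix κ κ F)
      *ᵥ x = (reflProd (sumQF Q₁ Q₂) (vs.map (fun v => Sum.elim v 0))).1 x := by
  rw [reflProd_sumQF_inl, ← hg, isoEquiv_apply]
  have h1 := fromBlocks_diag_mulVec_inl ((g₁ : Matrix.GeneralLinearGroup ι F) : Matrix ι ι F)
    (1 : Matrix κ κ F) x
  have h2 := fromBlocks_diag_mulVec_inr ((g₁ : Matrix.GeneralLinearGroup ι F) : Matrix ι ι F)
    (1 : Matrix κ κ F) x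
  rw [Matrix.one_mulVec] at h2
  funext i
  rcases i with i | i
  · exact congrFun h1 i
  · exact congrFun h2 i

variable [Fintype F]

theorem mem_Omega_iff_finite (Q : QuadraticForm F (ι → F)) (hQ : (polarBilin Q).Nondegenerate)
    (h : Fintype.card F ≠ 2 ∨ Fintype.card ι ≠ 4) (g : ↥(Cfsg.isometryGroup F ⇑Q))
    (vs : List (ι → F)) (hvs : ∀ v ∈ vs, Q v ≠ 0) (hg : isoEquiv Q g = reflProd Q vs) :
    g ∈ Cfsg.Omega F ⇑Q ↔ Even vs.length ∧ IsSquare (vs.map Q).prod := by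
  rw [mem_Omega_iff, hg, reflProd_mem_commutator_iff_finite Q hQ
    (by rwa [Module.finrank_fintype_fun_eq_card]) vs hvs]

theorem exists_fromBlocks_mem_Omega_iff (h₁ : (polarBilin Q₁).Nondegenerate)
    (h₂ : (polarBilin Q₂).Nondegenerate)
    (h : Fintype.card F ≠ 2 ∨ (Fintype.card ι ≠ 4 ∧ Fintype.card ι + Fintype.card κ ≠ 4))
    (g₁ : ↥(Cfsg.isometryGroup F ⇑Q₁)) :
    (∃ g : ↥(Cfsg.isometryGroup F ⇑(sumQF Q₁ Q₂)), g ∈ Cfsg.Omega F ⇑(sumQF Q₁ Q₂) ∧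
      ((g : Matrix.GeneralLinearGroup (ι ⊕ κ) F) : Matrix (ι ⊕ κ) (ι ⊕ κ) F) =
        Matrix.fromBlocks ((g₁ : Matrix.GeneralLinearGroup ι F) : Matrix ι ι F) 0 0 1) ↔
      g₁ ∈ Cfsg.Omega F ⇑Q₁ := by
  have ha : Fintype.card F ≠ 2 ∨ Fintype.card ι ≠ 4 := by tauto
  have hb : Fintype.card F ≠ 2 ∨ Fintype.card (ι ⊕ κ) ≠ 4 := by
    rw [Fintype.card_sum]; tauto
  obtain ⟨vs, hvs, hg⟩ := exists_isoEquiv_eq_reflProd Q₁ h₁ ha g₁
  rw [mem_Omega_iff_finite Q₁ h₁ ha g₁ vs hvs hg]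
  have hvs' : ∀ z ∈ vs.map (fun v => (Sum.elim v 0 : ι ⊕ κ → F)), sumQF Q₁ Q₂ z ≠ 0 := by
    intro z hz
    obtain ⟨v, hv, rfl⟩ := List.mem_map.1 hz
    rw [sumQF_apply]
    simpa using hvs v hv
  have e : List.map (⇑(sumQF Q₁ Q₂)) (vs.map (fun v => (Sum.elim v 0 : ι ⊕ κ → F))) =
      List.map (⇑Q₁) vs := by
    rw [List.map_map]
    congr 1
    funext v
    simp [sumQF_apply]
  have key : ∀ g : ↥(Cfsg.isometryGroup F ⇑(sumQF Q₁ Q₂)),
      ((g : Matrix.GeneralLinearGroup (ι ⊕ κ) F) : Matrix (ι ⊕ κ) (ι ⊕ κ) F) =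
        Matrix.fromBlocks ((g₁ : Matrix.GeneralLinearGroup ι F) : Matrix ι ι F) 0 0 1 →
      (g ∈ Cfsg.Omega F ⇑(sumQF Q₁ Q₂) ↔ Even vs.length ∧ IsSquare (vs.map Q₁).prod) := by
    intro g hgm
    have h3 : isoEquiv (sumQF Q₁ Q₂) g = reflProd (sumQF Q₁ Q₂) (vs.map (fun v => Sum.elim v 0)) := by
      apply Subtype.ext
      ext x : 1
      rw [isoEquiv_apply, hgm, fromBlocks_mulVec_eq_reflProd Q₁ Q₂ g₁ vs hg]
    rw [mem_Omega_iff_finite (sumQF Q₁ Q₂) (sumQF_nondegenerate Q₁ Q₂ h₁ h₂) hb g _ hvs' h3, e,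
      List.length_map]
  constructor
  · rintro ⟨g, hgO, hgm⟩
    exact (key g hgm).1 hgO
  · intro hh
    have hm : ((((isoEquiv (sumQF Q₁ Q₂)).symm (reflProd (sumQF Q₁ Q₂)
        (vs.map (fun v => Sum.elim v 0))) : ↥(Cfsg.isometryGroup F ⇑(sumQF Q₁ Q₂))) :
        Matrix.GeneralLinearGroup (ι ⊕ κ) F) : Matrix (ι ⊕ κ) (ι ⊕ κ) F) =
        Matrix.fromBlocks ((g₁ : Matrix.GeneralLinearGroup ι F) : Matrix ι ι F) 0 0 1 := by
      apply Matrix.mulVec_injective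
      funext x
      rw [isoEquiv_symm_mulVec, fromBlocks_mulVec_eq_reflProd Q₁ Q₂ g₁ vs hg]
    exact ⟨_, (key _ hm).2 hh, hm⟩

end SumQF

end Cfsg.Agent.Lib.Helper49
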