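import Mathlib
import Cfsg.Agent.Lib.Helper49.SumQF

set_option autoImplicit false

namespace Cfsg.Agent.Lib.Helper49

open Matrix QuadraticMap Module
open scoped commutatorElement

section Abs

variable {F V : Type*} [Field F] [Fintype F] [AddCommGroup V] [Module F V] [FiniteDimensional F V]
  (Q : QuadraticForm F V)

/-- squares lie in the commutator subgroup -/
theorem mul_self_mem_commutator (hQ : (polarBilin Q).Nondegenerate)
    (h : Fintype.card F ≠ 2 ∨ finrank F V ≠ 4) (x : OG Q) : x * x ∈ commutator (OG Q) := by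
  obtain ⟨vs, hvs, rfl⟩ := exists_reflProd_eq_finite Q hQ h x
  rw [← reflProd_append]
  apply reflProd_mem_commutator_of_even_of_isSquare Q hQ
  · intro v hv
    rcases List.mem_append.1 hv with h | h <;> exact hvs v h
  · rw [List.length_append]; exact ⟨_, rfl⟩
  · rw [List.map_append, List.prod_append]; exact ⟨_, rfl⟩

end Abs

theorem mul_conj_mem_commutator {G : Type*} [Group G] (x s : G) (h : x * x ∈ commutator G) :
    x * (s * x * s⁻¹) ∈ commutator G := by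
  have e : x * (s * x * s⁻¹) = (x * x) * ⁅x⁻¹, s⁆ := by
    rw [commutatorElement_def]; group
  rw [e]
  exact Subgroup.mul_mem _ h (Subgroup.commutator_mem_commutator (Subgroup.mem_top _)
    (Subgroup.mem_top _))

section Mat

variable {ι : Type} [Fintype ι] [DecidableEq ι] {F : Type*} [Field F]
variable (Q : QuadraticForm F (ι → F))

/-- the swap of the two summands -/
def swapOG : OG (sumQF Q Q) :=
  ⟨LinearEquiv.funCongrLeft F F (Equiv.sumComm ι ι), fun x => by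
    rw [sumQF_apply, sumQF_apply, add_comm]
    rfl⟩

omit [Fintype ι] [DecidableEq ι] in
theorem swapOG_apply (x : ι ⊕ ι → F) : (swapOG Q).1 x = x ∘ Sum.swap := rfl

omit [Fintype ι] [DecidableEq ι] in
theorem swapOG_inv_apply (x : ι ⊕ ι → F) : (swapOG Q)⁻¹.1 x = x ∘ Sum.swap := rfl

omit [DecidableEq ι] in
theorem fromBlocks_diag_mulVec (A B : Matrix ι ι F) (x : ι ⊕ ι → F) :
    Matrix.fromBlocks A 0 0 B *ᵥ x = Sum.elim (A *ᵥ (x ∘ Sum.inl)) (B *ᵥ (x ∘ Sum.inr)) := by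
  have h1 := fromBlocks_diag_mulVec_inl A B x
  have h2 := fromBlocks_diag_mulVec_inr A B x
  funext i
  rcases i with i | i
  · exact congrFun h1 i
  · exact congrFun h2 i

theorem exists_diag_mem_Omega [Fintype F] (hQ : (polarBilin Q).Nondegenerate)
    (h : Fintype.card F ≠ 2 ∨ Fintype.card ι ≠ 2) (g : ↥(Cfsg.isometryGroup F ⇑Q)) :
    ∃ x : ↥(Cfsg.isometryGroup F ⇑(sumQF Q Q)), x ∈ Cfsg.Omega F ⇑(sumQF Q Q) ∧
      ((x : Matrix.GeneralLinearGroup (ι ⊕ ι) F) : Matrix (ι ⊕ ι) (ι ⊕ ι) F) =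
        Matrix.fromBlocks ((g : Matrix.GeneralLinearGroup ι F) : Matrix ι ι F) 0 0
          ((g : Matrix.GeneralLinearGroup ι F) : Matrix ι ι F) := by
  have hb : Fintype.card F ≠ 2 ∨ finrank F (ι ⊕ ι → F) ≠ 4 := by
    rw [Module.finrank_fintype_fun_eq_card, Fintype.card_sum]
    rcases h with h | h
    · exact Or.inl h
    · right; omega
  obtain ⟨x₁, hx₁⟩ : ∃ x₁ : ↥(Cfsg.isometryGroup F ⇑(sumQF Q Q)),
      ((x₁ : Matrix.GeneralLinearGroup (ι ⊕ ι) F) : Matrix (ι ⊕ ι) (ι ⊕ ι) F) =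
        Matrix.fromBlocks ((g : Matrix.GeneralLinearGroup ι F) : Matrix ι ι F) 0 0 1 :=
    ⟨⟨blockDiagGL ι ι F (g.1, 1), blockDiagGL_mem ⇑Q ⇑Q g 1⟩, rfl⟩
  obtain ⟨x, hx⟩ : ∃ x : ↥(Cfsg.isometryGroup F ⇑(sumQF Q Q)),
      ((x : Matrix.GeneralLinearGroup (ι ⊕ ι) F) : Matrix (ι ⊕ ι) (ι ⊕ ι) F) =
        Matrix.fromBlocks ((g : Matrix.GeneralLinearGroup ι F) : Matrix ι ι F) 0 0
          ((g : Matrix.GeneralLinearGroup ι F) : Matrix ι ι F) :=
    ⟨⟨blockDiagGL ι ι F (g.1, g.1), blockDiagGL_mem ⇑Q ⇑Q g g⟩, rfl⟩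
  refine ⟨x, ?_, hx⟩
  rw [mem_Omega_iff]
  have e : isoEquiv (sumQF Q Q) x = isoEquiv (sumQF Q Q) x₁ *
      (swapOG Q * isoEquiv (sumQF Q Q) x₁ * (swapOG Q)⁻¹) := by
    apply Subtype.ext
    ext v : 1
    simp only [Subgroup.coe_mul, LinearEquiv.mul_apply]
    rw [swapOG_inv_apply, swapOG_apply, isoEquiv_apply, isoEquiv_apply, isoEquiv_apply, hx, hx₁,
      fromBlocks_diag_mulVec, fromBlocks_diag_mulVec, fromBlocks_diag_mulVec]
    funext i
    rcases i with i | i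
    · simp only [Sum.elim_inl, Matrix.one_mulVec]
      congr 1
    · simp only [Sum.elim_inr, Matrix.one_mulVec]
      rfl
  rw [e]
  exact mul_conj_mem_commutator _ _ (mul_self_mem_commutator _ (sumQF_nondegenerate Q Q hQ hQ) hb _)

end Mat

end Cfsg.Agent.Lib.Helper49
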