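import Mathlib
import Cfsg.Agent.Lib.Helper49.NormalOmega
import Cfsg.Agent.Lib.Helper95.OmGlue

set_option autoImplicit false

namespace Cfsg.Agent.Lib.Helper49

open QuadraticMap Module
open Cfsg.Agent.Lib.Helper95 (stabGrp omG)

section

variable {F V : Type*} [Field F] [AddCommGroup V] [Module F V]

theorem mem_stabGrp_span_singleton {g : V ≃ₗ[F] V} {a : V} {c : F} (hc : c ≠ 0)
    (h : g a = c • a) : g ∈ stabGrp (Submodule.span F {a}) := by
  intro x
  constructor
  · intro hx
    obtain ⟨d, rfl⟩ := Submodule.mem_span_singleton.1 hx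
    rw [map_smul, h, smul_smul]
    exact Submodule.smul_mem _ _ (Submodule.mem_span_singleton_self a)
  · intro hx
    obtain ⟨d, hd⟩ := Submodule.mem_span_singleton.1 hx
    have : g x = g ((d * c⁻¹) • a) := by
      rw [map_smul, h, smul_smul, mul_assoc, inv_mul_cancel₀ hc, mul_one, hd]
    rw [g.injective this]
    exact Submodule.smul_mem _ _ (Submodule.mem_span_singleton_self a)

theorem eq_zero_or_one_or_neg_one [Fintype F] (h : Fintype.card F ≤ 3) (x : F) :
    x = 0 ∨ x = 1 ∨ x = -1 := by
  have h1 : 1 < Fintype.card F := Fintype.one_lt_card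
  have h2 := FiniteField.pow_card x
  obtain h3 | h3 : Fintype.card F = 2 ∨ Fintype.card F = 3 := by omega
  · rw [h3] at h2
    have : x * (x - 1) = 0 := by linear_combination h2
    rcases mul_eq_zero.1 this with h | h
    · exact Or.inl h
    · right; left; linear_combination h
  · rw [h3] at h2
    have : x * ((x - 1) * (x + 1)) = 0 := by linear_combination h2
    rcases mul_eq_zero.1 this with h | h
    · exact Or.inl h
    · rcases mul_eq_zero.1 h with h | h
      · right; left; linear_combination h
      · right; right; linear_combination h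

end

section

variable {F V : Type*} [Field F] [Fintype F] [AddCommGroup V] [Module F V] [FiniteDimensional F V]
  (Q : QuadraticForm F V)

/-- over a field with at most three elements the stabiliser in `Ω` of a hyperbolic plane lies
strictly between ... : it is properly contained in the stabiliser of a nonsingular point -/
theorem plus_plane_between (hQ : (polarBilin Q).Nondegenerate) (hd : 7 ≤ finrank F V)
    (hq : Fintype.card F ≤ 3) (W : Submodule F V) (hdim : finrank F W = 2)
    (hW : ∀ w ∈ W, w ≠ 0 → ∃ x ∈ W, polar Q w x ≠ 0) (hpl : ∃ e ∈ W, e ≠ 0 ∧ Q e = 0) :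
    ∃ a : V, omG Q ⊓ stabGrp W ≤ stabGrp (Submodule.span F {a}) ∧
      (∃ g ∈ omG Q, g ∈ stabGrp (Submodule.span F {a}) ∧ g ∉ stabGrp W) ∧
      ∃ g ∈ omG Q, g ∉ stabGrp (Submodule.span F {a}) := by
  obtain ⟨e, heW, he0, hQe⟩ := hpl
  obtain ⟨f₀, hf₀, hef₀⟩ := hW e heW he0
  obtain ⟨f, hfW, hQf, hef⟩ := exists_hyp_partner Q W heW hf₀ hQe hef₀
  have hfe : polar Q f e = 1 := by rw [polar_comm]; exact hef
  have hee : polar Q e e = 0 := by rw [polar_self, hQe]; simp
  have hff : polar Q f f = 0 := by rw [polar_self, hQf]; simp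
  have hli : LinearIndependent F ![e, f] := linearIndependent_pair_of_polar Q he0 hee hfe
  have hspan : Submodule.span F (Set.range ![e, f]) = W := by
    apply Submodule.eq_of_le_of_finrank_eq
    · rw [Submodule.span_le]
      rintro _ ⟨i, rfl⟩
      fin_cases i
      · exact heW
      · exact hfW
    · rw [finrank_span_eq_card hli, hdim]; simp
  have hWmem : ∀ w ∈ W, ∃ x y : F, w = x • e + y • f := by
    intro w hw
    rw [← hspan] at hw
    have : Set.range ![e, f] = {e, f} := by
      ext z
      simp [eq_comm]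
      tauto
    rw [this, Submodule.mem_span_pair] at hw
    obtain ⟨x, y, h⟩ := hw
    exact ⟨x, y, h.symm⟩
  obtain ⟨a, ha⟩ : ∃ a, a = e + f := ⟨_, rfl⟩
  have haW : a ∈ W := by rw [ha]; exact W.add_mem heW hfW
  have hQa : Q a = 1 := by rw [ha, Q_add_eq, hQe, hQf, hef]; ring
  have n1 : (1 : F) ≠ 0 := one_ne_zero
  -- auxiliary vectors orthogonal to `W`
  obtain ⟨u, f', hQu, hue, huf, hf'e, hf'f, huf'⟩ := exists_fix_norm2 Q hQ hd e f 0 2
  obtain ⟨y, f'', hQy, hye, hyf, hf''e, hf''f, hyf''⟩ := exists_fix_norm2 Q hQ hd e f 0 1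
  simp only [polar_zero_right] at hue huf hye hyf
  refine ⟨a, ?_, ?_, ?_⟩
  · rintro g ⟨⟨g', -, rfl⟩, hgW⟩
    have h1 : g'.1 a ∈ W := (hgW a).1 haW
    obtain ⟨x, z, hxz⟩ := hWmem _ h1
    have h2 : x * z = 1 := by
      have h3 := OG_apply Q g' a
      rw [hxz, hQa, Q_add_eq, QuadraticMap.map_smul, QuadraticMap.map_smul, hQe, hQf,
        polar_smul_left, polar_smul_right, hef] at h3
      simpa using h3
    have hx0 : x ≠ 0 := by
      rintro rfl
      simp at h2
    have hzx : z = x := by
      rcases eq_zero_or_one_or_neg_one hq x with h | h | h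
      · exact absurd h hx0
      · rw [h] at h2 ⊢; linear_combination h2
      · rw [h] at h2 ⊢; linear_combination -h2
    apply mem_stabGrp_span_singleton hx0 (c := x)
    change g'.1 a = _
    rw [hxz, hzx, ha, smul_add]
  · -- `r_x r_y` with `x = e - f + u`
    obtain ⟨x, hx⟩ : ∃ x, x = e - f + u := ⟨_, rfl⟩
    have hQx : Q x = 1 := by
      have h1 : Q (e - f) = -1 := by
        have := Q_sub_smul Q e f 1
        simp only [one_smul, one_pow, one_mul] at this
        rw [this, hQe, hQf, hfe]; ring
      rw [hx, Q_add_eq, h1, hQu, polar_sub_left, hue, huf]; ring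
    have hxa : polar Q x a = 0 := by
      rw [hx, ha, polar_add_left, polar_sub_left, polar_add_right, polar_add_right,
        polar_add_right, hee, hef, hfe, hff, polar_comm Q u e, polar_comm Q u f, hue, huf]
      ring
    have hya : polar Q y a = 0 := by
      rw [ha, polar_add_right, polar_comm Q y e, polar_comm Q y f, hye, hyf]; ring
    refine ⟨(refl Q x * refl Q y).1, ⟨_, refl_mul_refl_mem_commutator_of_eq Q hQ x y
      (by rw [hQx]; exact n1) (by rw [hQx, hQy]), rfl⟩, ?_, ?_⟩
    · apply mem_stabGrp_span_singleton n1 (c := 1)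
      simp only [Subgroup.coe_mul, LinearEquiv.mul_apply, refl_coe_apply]
      rw [reflLin_of_polar_eq_zero Q y a hya, reflLin_of_polar_eq_zero Q x a hxa, one_smul]
    · intro hst
      have h1 := (hst e).1 heW
      simp only [Subgroup.coe_mul, LinearEquiv.mul_apply, refl_coe_apply] at h1
      rw [reflLin_of_polar_eq_zero Q y e (by rw [polar_comm]; exact hye), reflLin_apply, hQx] at h1
      have h2 : polar Q x e = -1 := by
        rw [hx, polar_add_left, polar_sub_left, hee, hfe, polar_comm Q u e, hue]; ring
      rw [h2] at h1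
      have h3 : u ∈ W := by
        have h4 : e - ((1 : F)⁻¹ * -1) • x = u + ((2 : F) • e - f) := by
          rw [hx]
          simp only [inv_one, one_mul, neg_smul, one_smul, sub_neg_eq_add, two_smul]
          abel
        rw [h4] at h1
        have := W.sub_mem h1 (W.sub_mem (W.smul_mem 2 heW) hfW)
        rwa [add_sub_cancel_right] at this
      obtain ⟨s, t, hst'⟩ := hWmem u h3
      rw [hst', polar_add_left, polar_smul_left, polar_smul_left, hf'e, hf'f] at huf'
      simp at huf'
  · have hQey : Q (e + y) = 1 := by rw [Q_add_eq, hQe, hQy, hye]; ring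
    have hya : polar Q y a = 0 := by
      rw [ha, polar_add_right, polar_comm Q y e, polar_comm Q y f, hye, hyf]; ring
    refine ⟨(refl Q (e + y) * refl Q y).1, ⟨_, refl_mul_refl_mem_commutator_of_eq Q hQ _ y
      (by rw [hQey]; exact n1) (by rw [hQey, hQy]), rfl⟩, ?_⟩
    intro hst
    have h1 := (hst a).1 (Submodule.mem_span_singleton_self a)
    simp only [Subgroup.coe_mul, LinearEquiv.mul_apply, refl_coe_apply] at h1
    rw [reflLin_of_polar_eq_zero Q y a hya, reflLin_apply, hQey] at h1
    have h2 : polar Q (e + y) a = 1 := by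
      rw [polar_add_left, hya, ha, polar_add_right, hee, hef]; ring
    rw [h2] at h1
    obtain ⟨c, hc⟩ := Submodule.mem_span_singleton.1 h1
    have h3 : polar Q (c • a) f'' = polar Q (a - ((1 : F)⁻¹ * 1) • (e + y)) f'' := by rw [hc]
    rw [polar_smul_left, polar_sub_left, polar_smul_left, ha, polar_add_left, polar_add_left,
      hf''e, hf''f, hyf''] at h3
    simp at h3

end

end Cfsg.Agent.Lib.Helper49
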