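import Mathlib
import Cfsg.Agent.Lib.Helper49.PlusPlane
import Cfsg.Agent.Lib.Helper95.SympMax

set_option autoImplicit false

namespace Cfsg.Agent.Lib.Helper49

open QuadraticMap Module
open Cfsg.Agent.Lib.Helper95 (stabGrp omG mem_stabGrp_of_forall)

section

variable {F V : Type*} [Field F] [Fintype F] [AddCommGroup V] [Module F V] [FiniteDimensional F V]
  (Q : QuadraticForm F V)

/-- elements of `Ω` preserve the parity of the intersection dimension of two Lagrangians -/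
theorem IsLagr.even_finrank_inf_map_of_mem_commutator (hQ : (polarBilin Q).Nondegenerate)
    (h : Fintype.card F ≠ 2 ∨ finrank F V ≠ 4) {U W : Submodule F V} (hU : IsLagr Q U)
    (hW : IsLagr Q W) {g : OG Q} (hg : g ∈ commutator (OG Q)) :
    Even (finrank F ↥(U ⊓ W.map (g.1 : V →ₗ[F] V)) + finrank F ↥(U ⊓ W)) := by
  obtain ⟨vs, hvs, rfl⟩ := exists_reflProd_eq_finite Q hQ h g
  have h1 := ((reflProd_mem_commutator_iff_finite Q hQ h vs hvs).1 hg).1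
  have h2 := hU.even_finrank_inf_map_reflProd hQ hW vs hvs
  exact (Nat.even_add.1 h2).2 h1

theorem map_eq_of_mem_stabGrp {U : Submodule F V} {g : V ≃ₗ[F] V} (hg : g ∈ stabGrp U) :
    U.map (g : V →ₗ[F] V) = U := by
  apply Submodule.eq_of_le_of_finrank_eq
  · rintro _ ⟨x, hx, rfl⟩
    exact (hg x).1 hx
  · exact LinearEquiv.finrank_map_eq g U

theorem mem_stabGrp_of_map_eq {U : Submodule F V} {g : V ≃ₗ[F] V}
    (hg : U.map (g : V →ₗ[F] V) = U) : g ∈ stabGrp U := by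
  apply mem_stabGrp_of_forall
  intro x hx
  rw [← hg]
  exact ⟨x, hx, rfl⟩

/-- dual vectors inside a complementary Lagrangian -/
theorem exists_dual_pair_mem (hQ : (polarBilin Q).Nondegenerate) {D₀ D₁ : Submodule F V}
    (h0 : ∀ u ∈ D₀, Q u = 0) (hsup : D₀ ⊔ D₁ = ⊤) {x z : V} (hx0 : x ∈ D₀) (hz0 : z ∈ D₀)
    (hx : x ≠ 0) (hz : ∀ c : F, z ≠ c • x) (α β : F) :
    ∃ u ∈ D₁, polar Q x u = α ∧ polar Q z u = β := by
  obtain ⟨u, hu1, hu2⟩ := exists_dual_pair Q hQ hx hz α β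
  have : u ∈ D₀ ⊔ D₁ := by rw [hsup]; trivial
  obtain ⟨a, ha, b, hb, rfl⟩ := Submodule.mem_sup.1 this
  refine ⟨b, hb, ?_, ?_⟩
  · rw [polar_add_right, polar_eq_zero_of_singular h0 hx0 ha, zero_add] at hu1
    exact hu1
  · rw [polar_add_right, polar_eq_zero_of_singular h0 hz0 ha, zero_add] at hu2
    exact hu2

/-- two complementary totally singular subspaces of odd dimension: the stabiliser of the pair in
`Ω` is properly contained in the stabiliser of the first one -/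
theorem lagr_pair_between (hQ : (polarBilin Q).Nondegenerate) (hd : 5 ≤ finrank F V)
    {D₀ D₁ : Submodule F V} (h0 : ∀ u ∈ D₀, Q u = 0) (h1 : ∀ u ∈ D₁, Q u = 0)
    (hinf : D₀ ⊓ D₁ = ⊥) (hsup : D₀ ⊔ D₁ = ⊤) (hk : 2 * finrank F D₀ = finrank F V)
    (hodd : Odd (finrank F D₀)) :
    (∀ g ∈ omG Q, D₀.map (g : V →ₗ[F] V) ≠ D₁) ∧
    (∃ g ∈ omG Q, g ∈ stabGrp D₀ ∧ g ∉ stabGrp D₁) ∧
      ∃ g ∈ omG Q, g ∉ stabGrp D₀ := by
  have hL0 : IsLagr Q D₀ := isLagr_of_finrank hQ h0 hk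
  have n1 : (1 : F) ≠ 0 := one_ne_zero
  -- two independent vectors of `D₀`
  obtain ⟨e₁, he₁, he₁0⟩ : ∃ e ∈ D₀, e ≠ 0 := by
    have : 0 < finrank F D₀ := by omega
    obtain ⟨e, he⟩ := Module.finrank_pos_iff_exists_ne_zero.1 this
    exact ⟨e, e.2, fun h => he (Subtype.ext h)⟩
  obtain ⟨e₂, he₂, he₂0⟩ : ∃ e ∈ D₀, ∀ c : F, e ≠ c • e₁ := by
    by_contra hcon
    push Not at hcon
    have hle : D₀ ≤ Submodule.span F {e₁} := by
      intro e he
      obtain ⟨c, hc⟩ := hcon e he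
      rw [hc]
      exact Submodule.smul_mem _ _ (Submodule.mem_span_singleton_self _)
    have := Submodule.finrank_mono hle
    have h2 := finrank_span_singleton (K := F) he₁0
    omega
  have he₂0' : e₂ ≠ 0 := by
    intro h
    apply he₂0 0
    rw [h, zero_smul]
  have he₁2 : ∀ c : F, e₁ ≠ c • e₂ := by
    intro c hc
    by_cases hc0 : c = 0
    · rw [hc0, zero_smul] at hc; exact he₁0 hc
    · apply he₂0 c⁻¹
      rw [hc, smul_smul, inv_mul_cancel₀ hc0, one_smul]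
  obtain ⟨f₁, hf₁, h11, h21⟩ := exists_dual_pair_mem Q hQ h0 hsup he₁ he₂ he₁0 he₂0 1 0
  obtain ⟨f₂, hf₂, h22, h12⟩ := exists_dual_pair_mem Q hQ h0 hsup he₂ he₁ he₂0' he₁2 1 0
  have hee : polar Q e₁ e₂ = 0 := polar_eq_zero_of_singular h0 he₁ he₂
  obtain ⟨x, hx⟩ : ∃ x, x = e₁ + f₁ := ⟨_, rfl⟩
  have hQx : Q x = 1 := by rw [hx, Q_add_eq, h0 _ he₁, h1 _ hf₁, h11]; ring
  have hxe₂ : polar Q x e₂ = 0 := by
    rw [hx, polar_add_left, hee, polar_comm Q f₁ e₂, h21]; ring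
  refine ⟨?_, ?_, ?_⟩
  · rintro _ ⟨g, hg, rfl⟩ hmap
    have h2 := IsLagr.even_finrank_inf_map_of_mem_commutator Q hQ (Or.inr (by omega)) hL0 hL0 hg
    change D₀.map (g.1 : V →ₗ[F] V) = D₁ at hmap
    rw [hmap, hinf, finrank_bot, inf_idem, zero_add] at h2
    exact (Nat.not_even_iff_odd.2 hodd) h2
  · have hQxe : Q (x + e₂) = 1 := by rw [Q_add_eq, hQx, h0 _ he₂, hxe₂]; ring
    refine ⟨(refl Q x * refl Q (x + e₂)).1, ⟨_, refl_mul_refl_mem_commutator_of_eq Q hQ _ _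
      (by rw [hQx]; exact n1) (by rw [hQx, hQxe]), rfl⟩, ?_, ?_⟩
    · apply mem_stabGrp_of_forall
      intro v hv
      simp only [Subgroup.coe_mul, LinearEquiv.mul_apply, refl_coe_apply]
      rw [siegel_apply Q hQx (h0 _ he₂) hxe₂, polar_eq_zero_of_singular h0 he₂ hv, zero_smul,
        add_zero]
      exact D₀.sub_mem hv (D₀.smul_mem _ he₂)
    · intro hst
      have h2 := (hst f₂).1 hf₂
      simp only [Subgroup.coe_mul, LinearEquiv.mul_apply, refl_coe_apply] at h2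
      rw [siegel_apply Q hQx (h0 _ he₂) hxe₂, h22, one_smul] at h2
      obtain ⟨c, hc⟩ : ∃ c, c = polar Q x f₂ + 1 := ⟨_, rfl⟩
      rw [← hc, hx] at h2
      have h3 : e₁ - c • e₂ ∈ D₁ := by
        have h4 : e₁ - c • e₂ = (f₂ + (e₁ + f₁) - c • e₂) - (f₂ + f₁) := by abel
        rw [h4]
        exact D₁.sub_mem h2 (D₁.add_mem hf₂ hf₁)
      have h5 : e₁ - c • e₂ ∈ D₀ ⊓ D₁ := ⟨D₀.sub_mem he₁ (D₀.smul_mem _ he₂), h3⟩
      rw [hinf, Submodule.mem_bot, sub_eq_zero] at h5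
      exact he₁2 c h5
  · obtain ⟨y, hy⟩ : ∃ y, y = e₂ + f₂ := ⟨_, rfl⟩
    have hQy : Q y = 1 := by rw [hy, Q_add_eq, h0 _ he₂, h1 _ hf₂, h22]; ring
    have hye : polar Q y e₁ = 0 := by
      rw [hy, polar_add_left, polar_comm Q e₂ e₁, hee, polar_comm Q f₂ e₁, h12]; ring
    refine ⟨(refl Q x * refl Q y).1, ⟨_, refl_mul_refl_mem_commutator_of_eq Q hQ _ _
      (by rw [hQx]; exact n1) (by rw [hQx, hQy]), rfl⟩, ?_⟩
    intro hst
    have h2 := (hst e₁).1 he₁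
    simp only [Subgroup.coe_mul, LinearEquiv.mul_apply, refl_coe_apply] at h2
    have hxe₁ : polar Q x e₁ = 1 := by
      rw [hx, polar_add_left, polar_self, h0 _ he₁, polar_comm Q f₁ e₁, h11]; simp
    rw [reflLin_of_polar_eq_zero Q y e₁ hye, reflLin_apply, hQx, hxe₁, hx] at h2
    have h3 : f₁ ∈ D₀ := by
      have h4 : f₁ = -(e₁ - ((1 : F)⁻¹ * 1) • (e₁ + f₁)) := by
        simp
      rw [h4]
      exact D₀.neg_mem h2
    have h5 : f₁ ∈ D₀ ⊓ D₁ := ⟨h3, hf₁⟩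
    rw [hinf, Submodule.mem_bot] at h5
    rw [h5, polar_zero_right] at h11
    exact n1 h11.symm

end

end Cfsg.Agent.Lib.Helper49
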