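import Mathlib
import Cfsg.Agent.Lib.Helper49.LagrBetween
import Cfsg.Agent.Lib.Helper95.OmSiegGen

set_option autoImplicit false

namespace Cfsg.Agent.Lib.Helper49

open QuadraticMap Module
open Cfsg.Agent.Lib.Helper95 (stabGrp omG mem_stabGrp_of_forall SPair sg sg_apply LR LR.conj LR.symm
  LR.smul_swap LR.zero_left qsep1 qexists_perp3' sg_mem_commutator commutator_le_of_sg)

section

variable {F V : Type*} [Field F] [AddCommGroup V] [Module F V] {Q : QuadraticForm F V}

/-- full points: singular vectors all of whose long root elements lie in `M` -/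
def FP (M : Subgroup (OG Q)) (u : V) : Prop :=
  Q u = 0 ∧ ∀ v, Q v = 0 → polar Q u v = 0 → LR M u v

variable {M : Subgroup (OG Q)}

theorem OG_apply_inv_apply (g : OG Q) (z : V) : g.1 ((g⁻¹).1 z) = z := by
  have : (g * g⁻¹).1 z = z := by rw [mul_inv_cancel]; rfl
  exact this

theorem FP.conj {u : V} (h : FP M u) {g : OG Q} (hg : g ∈ M) : FP M (g.1 u) := by
  refine ⟨by rw [OG_apply]; exact h.1, ?_⟩
  intro v hv huv
  have h1 : LR M u ((g⁻¹).1 v) := by
    apply h.2
    · rw [OG_apply]; exact hv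
    · rw [← OG_polar Q g, OG_apply_inv_apply]; exact huv
  have h2 := h1.conj hg
  rwa [OG_apply_inv_apply] at h2

theorem FP.zero : FP M (0 : V) :=
  ⟨by simp, fun v hv _ => LR.zero_left v hv⟩

theorem FP.smul {u : V} (h : FP M u) (c : F) : FP M (c • u) := by
  by_cases hc : c = 0
  · rw [hc, zero_smul]; exact FP.zero
  refine ⟨by rw [QuadraticMap.map_smul, h.1]; simp, ?_⟩
  intro v hv huv
  apply LR.smul_swap _ hv hc
  apply h.2
  · rw [QuadraticMap.map_smul, hv]; simp
  · rw [polar_smul_left, smul_eq_mul] at huv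
    rw [polar_smul_right, (mul_eq_zero.1 huv).resolve_left hc]; simp

end

section

variable {F V : Type*} [Field F] [Fintype F] [AddCommGroup V] [Module F V] [FiniteDimensional F V]
  {Q : QuadraticForm F V} {M : Subgroup (OG Q)}

theorem FP.add (hQ : (polarBilin Q).Nondegenerate) (hd : 8 < finrank F V) {u u' : V} (h : FP M u)
    (h' : FP M u') (huu : polar Q u u' = 0) : FP M (u + u') := by
  by_cases hdep : ∃ c : F, u' = c • u
  · obtain ⟨c, rfl⟩ := hdep
    have : u + c • u = (1 + c) • u := by rw [add_smul, one_smul]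
    rw [this]
    exact h.smul _
  push Not at hdep
  obtain ⟨z, hzu, hzu'⟩ := qsep1 hQ hdep
  obtain ⟨e, heq, heu, heu', hez⟩ := qexists_perp3' hQ hd u u' z (-Q z)
  obtain ⟨v, hv⟩ : ∃ v, v = -(z + e) := ⟨_, rfl⟩
  have hQv : Q v = 0 := by
    rw [hv, QuadraticMap.map_neg, Q_add_eq, heq, polar_comm, hez]; ring
  have huv : polar Q u v = 0 := by
    rw [hv, polar_neg_right, polar_add_right, polar_comm Q u z, hzu, polar_comm Q u e, heu]; simp
  have hvu' : polar Q v u' = -1 := by
    rw [hv, polar_neg_left, polar_add_left, hzu', heu']; simp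
  obtain ⟨hs, hm⟩ := h.2 v hQv huv
  have h3 := h'.conj hm
  rw [sg_apply, huu, hvu'] at h3
  have h4 : u' + (0 : F) • v - (-1 : F) • u = u + u' := by
    simp [add_comm]
  rwa [h4] at h3

/-- the long root elements at `u` are transitive on the singular vectors `y` with `f(u,y) = 1` -/
theorem FP.of_polar_eq_one (hQ : (polarBilin Q).Nondegenerate) (hd : 8 < finrank F V) {u u' y : V}
    (h : FP M u) (h' : FP M u') (huu : polar Q u u' = 1) (hy : Q y = 0) (huy : polar Q u y = 1) :
    FP M y := by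
  obtain ⟨d, hdd⟩ : ∃ d, d = y - u' := ⟨_, rfl⟩
  have hud : polar Q u d = 0 := by rw [hdd, polar_sub_right, huy, huu]; ring
  obtain ⟨v₁, hQv₁, huv₁, hdv₁⟩ : ∃ v₁, Q v₁ = 0 ∧ polar Q u v₁ = 0 ∧ polar Q d v₁ = Q d := by
    by_cases hQd : Q d = 0
    · exact ⟨0, by simp, by simp, by simp [hQd]⟩
    obtain ⟨z, hzu, hzd⟩ := qsep1 hQ (x := u) (w := d) (by
      rintro c hc
      rw [hc, QuadraticMap.map_smul, h.1] at hQd
      simp at hQd)
    obtain ⟨e, heq, heu, hed, hez⟩ := qexists_perp3' hQ hd u d z (-Q (Q d • z))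
    refine ⟨Q d • z + e, ?_, ?_, ?_⟩
    · rw [Q_add_eq, heq, polar_smul_left, polar_comm Q z e, hez]; simp
    · rw [polar_add_right, polar_smul_right, polar_comm Q u z, hzu, polar_comm Q u e, heu]; simp
    · rw [polar_add_right, polar_smul_right, polar_comm Q d z, hzd, polar_comm Q d e, hed]; simp
  obtain ⟨v₂, hv₂⟩ : ∃ v₂, v₂ = d - v₁ := ⟨_, rfl⟩
  have hQv₂ : Q v₂ = 0 := by
    have := Q_sub_smul Q d v₁ 1
    simp only [one_smul, one_pow, one_mul] at this
    rw [hv₂, this, hQv₁, polar_comm, hdv₁]; ring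
  have huv₂ : polar Q u v₂ = 0 := by rw [hv₂, polar_sub_right, hud, huv₁]; ring
  obtain ⟨hs₁, hm₁⟩ := h.2 v₁ hQv₁ huv₁
  obtain ⟨hs₂, hm₂⟩ := h.2 v₂ hQv₂ huv₂
  have h3 := (h'.conj hm₁).conj hm₂
  have huu0 : polar Q u u = 0 := by rw [polar_self, h.1]; simp
  obtain ⟨l, hl⟩ : ∃ l : F, (sg hs₂).1 ((sg hs₁).1 u') = y - l • u := by
    refine ⟨polar Q v₁ u' + polar Q v₂ (u' + v₁ - polar Q v₁ u' • u), ?_⟩
    rw [sg_apply, sg_apply, huu, one_smul, polar_sub_right, polar_add_right, huu, huv₁,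
      polar_smul_right, huu0, hv₂, hdd]
    simp only [smul_eq_mul, mul_zero, add_zero, sub_zero, one_smul]
    module
  have hl0 : l = 0 := by
    have h4 : Q ((sg hs₂).1 ((sg hs₁).1 u')) = 0 := by rw [OG_apply, OG_apply]; exact h'.1
    rw [hl, Q_sub_smul, hy, h.1, huy] at h4
    linear_combination -h4
  rw [hl, hl0, zero_smul, sub_zero] at h3
  exact h3

theorem FP.of_polar_ne_zero (hQ : (polarBilin Q).Nondegenerate) (hd : 8 < finrank F V) {u u' y : V}
    (h : FP M u) (h' : FP M u') (huu : polar Q u u' ≠ 0) (hy : Q y = 0) (huy : polar Q u y ≠ 0) :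
    FP M y := by
  have h1 : FP M ((polar Q u y)⁻¹ • y) := by
    apply FP.of_polar_eq_one hQ hd h (h'.smul (polar Q u u')⁻¹)
    · rw [polar_smul_right, smul_eq_mul, inv_mul_cancel₀ huu]
    · rw [QuadraticMap.map_smul, hy]; simp
    · rw [polar_smul_right, smul_eq_mul, inv_mul_cancel₀ huy]
  have h2 := h1.smul (polar Q u y)
  rwa [smul_smul, mul_inv_cancel₀ huy, one_smul] at h2

theorem FP.all (hQ : (polarBilin Q).Nondegenerate) (hd : 8 < finrank F V) {u u' : V}
    (h : FP M u) (h' : FP M u') (huu : polar Q u u' ≠ 0) (y : V) (hy : Q y = 0) : FP M y := by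
  by_cases huy : polar Q u y = 0
  · by_cases hdep : ∃ c : F, y = c • u
    · obtain ⟨c, rfl⟩ := hdep
      exact h.smul c
    push Not at hdep
    have hu0 : u ≠ 0 := by
      rintro rfl
      simp at huu
    obtain ⟨z, hz1, hz2⟩ := exists_dual_pair Q hQ hu0 hdep 1 1
    obtain ⟨y', hy'⟩ : ∃ y', y' = z - Q z • u := ⟨_, rfl⟩
    have hQy' : Q y' = 0 := by rw [hy', Q_sub_smul, h.1, hz1]; ring
    have huu0 : polar Q u u = 0 := by rw [polar_self, h.1]; simp
    have huy' : polar Q u y' = 1 := by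
      rw [hy', polar_sub_right, polar_smul_right, hz1, huu0]; simp
    have hyy' : polar Q y' y = 1 := by
      rw [hy', polar_sub_left, polar_smul_left, polar_comm Q z y, hz2, huy]; simp
    have h1 : FP M y' := FP.of_polar_ne_zero hQ hd h h' huu hQy' (by rw [huy']; exact one_ne_zero)
    exact FP.of_polar_ne_zero hQ hd h1 h (by rw [polar_comm, huy']; exact one_ne_zero) hy
      (by rw [hyy']; exact one_ne_zero)
  · exact FP.of_polar_ne_zero hQ hd h h' huu hy huy

/-- maximality of the stabiliser in `Ω` of a totally singular subspace -/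
theorem parabolic_max (hQ : (polarBilin Q).Nondegenerate) (hd : 10 < finrank F V)
    (W : Submodule F V) (hW : ∀ w ∈ W, Q w = 0)
    (hyp : 2 * finrank F W + 3 ≤ finrank F V ∨
      ∀ y, Q y = 0 → (∀ w ∈ W, polar Q w y = 0) → y ∈ W)
    (M : Subgroup (OG Q)) (hM : ∀ g : OG Q, g ∈ commutator (OG Q) → g.1 ∈ stabGrp W → g ∈ M)
    (g : OG Q) (hg : g ∈ M) (hgW : g.1 ∉ stabGrp W) : commutator (OG Q) ≤ M := by
  have hd8 : 8 < finrank F V := by omega
  have hFW : ∀ u ∈ W, FP M u := by
    intro u hu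
    refine ⟨hW u hu, fun v hv huv => ?_⟩
    have hs : SPair Q u v := ⟨hW u hu, hv, huv⟩
    refine ⟨hs, hM _ (sg_mem_commutator hQ hd hs) ?_⟩
    apply mem_stabGrp_of_forall
    intro x hx
    rw [sg_apply, polar_eq_zero_of_singular hW hu hx, zero_smul, add_zero]
    exact W.sub_mem hx (W.smul_mem _ hu)
  by_cases hno : ∃ u u', FP M u ∧ FP M u' ∧ polar Q u u' ≠ 0
  · obtain ⟨u, u', h, h', huu⟩ := hno
    apply commutator_le_of_sg hQ hd8
    intro a b hs
    obtain ⟨_, hm⟩ := (FP.all hQ hd8 h h' huu a hs.qu).2 b hs.qv hs.uv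
    exact hm
  exfalso
  push Not at hno
  obtain ⟨w, hw, hgw⟩ : ∃ w ∈ W, g.1 w ∉ W := by
    by_contra hcon
    push Not at hcon
    exact hgW (mem_stabGrp_of_forall hcon)
  obtain ⟨y, hy⟩ : ∃ y, y = g.1 w := ⟨_, rfl⟩
  rw [← hy] at hgw
  have hFy : FP M y := by rw [hy]; exact (hFW w hw).conj hg
  have hyW : ∀ w' ∈ W, polar Q w' y = 0 := fun w' hw' => hno w' y (hFW w' hw') hFy
  rcases hyp with hyp | hyp
  · -- a hyperbolic partner of `y` inside `W^⊥`
    set T := LinearMap.BilinForm.orthogonal (polarBilin Q) W with hT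
    have hyT : y ∈ T := hyW
    obtain ⟨f₀, hf₀, hyf₀⟩ : ∃ f₀ ∈ T, polar Q y f₀ ≠ 0 := by
      by_contra hcon
      push Not at hcon
      apply hgw
      rw [← LinearMap.BilinForm.orthogonal_orthogonal hQ (polarBilin_isSymm Q).isRefl W]
      intro t ht
      change polar Q t y = 0
      rw [polar_comm]
      exact hcon t ht
    obtain ⟨f, hfT, hQf, hyf⟩ := exists_hyp_partner Q T hyT hf₀ hFy.1 hyf₀
    -- a nonsingular vector of `W^⊥` orthogonal to `y` and `f`
    obtain ⟨c₀, hc₀T, hc₀y, hQc₀⟩ : ∃ c ∈ T, polar Q y c = 0 ∧ Q c ≠ 0 := by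
      by_contra hcon
      push Not at hcon
      have h1 := finrank_le_inf_ker_add_one T (polarBilin Q y)
      have h2 := LinearMap.BilinForm.finrank_orthogonal hQ W
      have hsing : ∀ x ∈ T ⊓ LinearMap.ker (polarBilin Q y), Q x = 0 :=
        fun x hx => hcon x hx.1 hx.2
      have h3 := two_mul_finrank_le_of_le_orthogonal Q hQ (T ⊓ LinearMap.ker (polarBilin Q y))
        (fun x hx z hz => polar_eq_zero_of_singular hsing hx hz)
      have h4 := Submodule.finrank_le W
      rw [← hT] at h2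
      omega
    obtain ⟨c, hc⟩ : ∃ c, c = c₀ - polar Q c₀ f • y := ⟨_, rfl⟩
    have hyy : polar Q y y = 0 := by rw [polar_self, hFy.1]; simp
    have hcT : c ∈ T := by rw [hc]; exact T.sub_mem hc₀T (T.smul_mem _ hyT)
    have hQc : Q c = Q c₀ := by rw [hc, Q_sub_smul, hFy.1, hc₀y]; ring
    have hcy : polar Q c y = 0 := by
      rw [hc, polar_sub_left, polar_smul_left, polar_comm Q c₀ y, hc₀y, hyy]; simp
    have hcf : polar Q c f = 0 := by
      rw [hc, polar_sub_left, polar_smul_left, hyf]; simp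
    obtain ⟨x, hx⟩ : ∃ x, x = y + Q c • f := ⟨_, rfl⟩
    have hQx : Q x = Q c := by
      rw [hx, Q_add_eq, hFy.1, QuadraticMap.map_smul, hQf, polar_smul_right, hyf]; simp
    have hxT : x ∈ T := by rw [hx]; exact T.add_mem hyT (T.smul_mem _ hfT)
    have hQc0 : Q c ≠ 0 := by rw [hQc]; exact hQc₀
    have hmem : refl Q x * refl Q c ∈ M := by
      apply hM _ (refl_mul_refl_mem_commutator_of_eq Q hQ _ _ (by rw [hQx]; exact hQc0) hQx)
      apply mem_stabGrp_of_forall
      intro v hv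
      simp only [Subgroup.coe_mul, LinearEquiv.mul_apply, refl_coe_apply]
      rw [reflLin_of_polar_eq_zero Q c v (by rw [polar_comm]; exact hcT v hv),
        reflLin_of_polar_eq_zero Q x v (by rw [polar_comm]; exact hxT v hv)]
      exact hv
    have h5 := hFy.conj hmem
    simp only [Subgroup.coe_mul, LinearEquiv.mul_apply, refl_coe_apply] at h5
    have hxy : polar Q x y = Q c := by
      rw [hx, polar_add_left, polar_smul_left, hyy, polar_comm Q f y, hyf]; simp
    rw [reflLin_of_polar_eq_zero Q c y hcy, reflLin_apply, hQx, hxy, inv_mul_cancel₀ hQc0,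
      one_smul, hx] at h5
    have h6 := hno y _ hFy h5
    rw [polar_sub_right, polar_add_right, polar_smul_right, hyy, hyf] at h6
    apply hQc0
    simpa using h6
  · exact hgw (hyp y hFy.1 hyW)

/-- `Ω` does not stabilise a non-zero totally singular subspace -/
theorem exists_not_mem_stabGrp_of_singular (hQ : (polarBilin Q).Nondegenerate)
    (hd : 7 ≤ finrank F V) (W : Submodule F V) (hW : ∀ w ∈ W, Q w = 0) (hW0 : W ≠ ⊥) :
    ∃ g ∈ commutator (OG Q), g.1 ∉ stabGrp W := by
  obtain ⟨w, hw, hw0⟩ := Submodule.exists_mem_ne_zero_of_ne_bot hW0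
  obtain ⟨f₀, hf₀⟩ := exists_polar_eq_one Q hQ hw0
  obtain ⟨f, -, hQf, hwf⟩ := exists_hyp_partner Q ⊤ (e := w) (f₀ := f₀) trivial trivial (hW w hw)
    (by rw [hf₀]; exact one_ne_zero)
  obtain ⟨c, f', hQc, hcw, hcf, -, -, -⟩ := exists_fix_norm2 Q hQ hd w f 0 1
  simp only [polar_zero_right] at hcw hcf
  have hQx : Q (w + f) = 1 := by rw [Q_add_eq, hW w hw, hQf, hwf]; ring
  refine ⟨refl Q (w + f) * refl Q c, refl_mul_refl_mem_commutator_of_eq Q hQ _ _
    (by rw [hQx]; exact one_ne_zero) (by rw [hQx, hQc]), ?_⟩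
  intro hst
  have h1 := (hst w).1 hw
  simp only [Subgroup.coe_mul, LinearEquiv.mul_apply, refl_coe_apply] at h1
  have hww : polar Q w w = 0 := by rw [polar_self, hW w hw]; simp
  have h2 : polar Q (w + f) w = 1 := by
    rw [polar_add_left, hww, polar_comm Q f w, hwf]; ring
  rw [reflLin_of_polar_eq_zero Q c w (by rw [polar_comm]; exact hcw), reflLin_apply, hQx, h2] at h1
  have h3 := polar_eq_zero_of_singular hW hw h1
  rw [polar_sub_right, polar_smul_right, polar_add_right, hww, hwf] at h3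
  simp at h3

/-- a totally singular subspace of maximal dimension contains every singular vector orthogonal
to it -/
theorem mem_of_singular_of_maximal (W : Submodule F V) (hW : ∀ w ∈ W, Q w = 0)
    (hmax : ∀ U : Submodule F V, (∀ u ∈ U, Q u = 0) → finrank F U ≤ finrank F W) (y : V)
    (hy : Q y = 0) (hyW : ∀ w ∈ W, polar Q w y = 0) : y ∈ W := by
  by_contra hyn
  have h1 : ∀ u ∈ W ⊔ Submodule.span F {y}, Q u = 0 := by
    intro u hu
    obtain ⟨a, ha, b, hb, rfl⟩ := Submodule.mem_sup.1 hu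
    obtain ⟨c, rfl⟩ := Submodule.mem_span_singleton.1 hb
    rw [Q_add_eq, hW a ha, QuadraticMap.map_smul, hy, polar_smul_right, hyW a ha]
    simp
  have h2 : W < W ⊔ Submodule.span F {y} := by
    apply lt_of_le_of_ne le_sup_left
    intro h
    apply hyn
    rw [h]
    exact Submodule.mem_sup_right (Submodule.mem_span_singleton_self y)
  have h3 := Submodule.finrank_lt_finrank_of_lt h2
  have h4 := hmax _ h1
  omega

/-- packaged form -/
theorem parabolic_max' (hQ : (polarBilin Q).Nondegenerate) (hd : 10 < finrank F V)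
    (W : Submodule F V) (hW : ∀ w ∈ W, Q w = 0)
    (hyp : 2 * finrank F W + 3 ≤ finrank F V ∨
      ∀ U : Submodule F V, (∀ u ∈ U, Q u = 0) → finrank F U ≤ finrank F W)
    (M : Subgroup (OG Q)) (hM : ∀ g : OG Q, g ∈ commutator (OG Q) → g.1 ∈ stabGrp W → g ∈ M)
    (g : OG Q) (hg : g ∈ M) (hgW : g.1 ∉ stabGrp W) : commutator (OG Q) ≤ M := by
  refine parabolic_max hQ hd W hW ?_ M hM g hg hgW
  rcases hyp with h | h
  · exact Or.inl h
  · exact Or.inr (mem_of_singular_of_maximal W hW h)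

theorem two_mul_finrank_le_of_singular (hQ : (polarBilin Q).Nondegenerate) (U : Submodule F V)
    (hU : ∀ u ∈ U, Q u = 0) : 2 * finrank F U ≤ finrank F V :=
  two_mul_finrank_le_of_le_orthogonal Q hQ U (fun _ hx _ hz => polar_eq_zero_of_singular hU hx hz)

end

end Cfsg.Agent.Lib.Helper49
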