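import Cfsg.Agent.Lib.Helper22.OF4Defs

/-! Ladder OF4 (helper22), rung DUV: diagonal elements normalise `U¹` and `V¹`; torus action on the
parametrised root elements. -/

set_option autoImplicit false
set_option linter.unusedSectionVars false

namespace Cfsg.Agent.Lib.Helper22.OF4
open Cfsg.Lie Matrix Cfsg.Agent.Lib.Helper22 Cfsg.Agent.Lib.Helper23 Cfsg.Agent.Lib.Helper45
open Cfsg.Agent.Lib.Helper45.AutAbs Cfsg.Agent.Lib.Helper23.TwAut

variable {K : Type*} [Field K] [CharP K 2] {m : ℕ}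

theorem f4_diag_uv (h : ↥(twistedF4 K (2 ^ m)))
    (hh : (h : GL chevF4.Idx K) ∈ chevF4.diagonalSubgroup K) :
    Mp (cj h) (UU K m) (UU K m) ∧ Mp (cj h) (VV K m) (VV K m) := by
  have b := bundle_of_mem K memF4
  constructor
  · exact mp_of_cmpT (borel_cmp b (AddFact.diag_le_borel hh))
  · apply mp_of_cmpT
    intro y
    exact (Subgroup.mem_normalizer_iff.1 (b.hA.diag_le_normalizer_neg b.hT hh) y).symm

variable (b : Bundle chevF4 K)

/-- torus action on a word -/
theorem duv_conj_W {g : GL chevF4.Idx K} {χ : ℕ → K} (hg : b.hA.IsTor g χ) (w : List (ℕ × K))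
    (hw : ∀ p ∈ w, p.1 < chevF4.nroots) :
    g * b.hA.W w * g⁻¹ = b.hA.W (w.map fun p => (p.1, χ p.1 * p.2)) := by
  induction w with
  | nil => simp [AddFact.W]
  | cons p l ih =>
    rw [List.map_cons, W_cons, W_cons, ← ih (fun q hq => hw q (List.mem_cons_of_mem _ hq)),
      ← hg.2.2 p.1 (hw p (List.mem_cons_self ..))]
    group

theorem duv_xb {g : ↥(twistedF4 K (2 ^ m))} {χ : ℕ → K} (hg : b.hA.IsTor (g : GL chevF4.Idx K) χ) (c : K)
    (h24 : χ 24 = c) (h33 : χ 33 = f4Th K m c) (t : K) :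
    g * xb b.hA m t * g⁻¹ = xb b.hA m (c * t) := by
  apply Subtype.ext
  show (g : GL chevF4.Idx K) * b.hA.W (pairW 33 24 (f4Th K m) t) * (g : GL chevF4.Idx K)⁻¹ =
    b.hA.W (pairW 33 24 (f4Th K m) (c * t))
  rw [duv_conj_W b hg _ (by
    have h48 : chevF4.nroots = 48 := rfl
    intro p hp
    simp only [pairW, List.mem_cons, List.not_mem_nil, or_false] at hp
    rw [h48]
    rcases hp with rfl | rfl <;> norm_num)]
  simp only [pairW, List.map_cons, List.map_nil, h24, h33, map_mul]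

theorem duv_yb {g : ↥(twistedF4 K (2 ^ m))} {χ : ℕ → K} (hg : b.hA.IsTor (g : GL chevF4.Idx K) χ) (c : K)
    (h23 : χ 23 = c) (h14 : χ 14 = f4Th K m c) (t : K) :
    g * yb b.hA m t * g⁻¹ = yb b.hA m (c * t) := by
  apply Subtype.ext
  show (g : GL chevF4.Idx K) * b.hA.W (pairW 14 23 (f4Th K m) t) * (g : GL chevF4.Idx K)⁻¹ =
    b.hA.W (pairW 14 23 (f4Th K m) (c * t))
  rw [duv_conj_W b hg _ (by
    have h48 : chevF4.nroots = 48 := rfl
    intro p hp
    simp only [pairW, List.mem_cons, List.not_mem_nil, or_false] at hp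
    rw [h48]
    rcases hp with rfl | rfl <;> norm_num)]
  simp only [pairW, List.map_cons, List.map_nil, h23, h14, map_mul]

theorem duv_xa {g : ↥(twistedF4 K (2 ^ m))} {χ : ℕ → K} (hg : b.hA.IsTor (g : GL chevF4.Idx K) χ) (d e : K)
    (h25 : χ 25 = d) (h27 : χ 27 = f4Th K m d) (h28 : χ 28 = e) (he : e = f4Th K m d * d)
    (h30 : χ 30 = f4Ps K m e) (t u : K) :
    g * xa b.hA m t u * g⁻¹ = xa b.hA m (d * t) (e * u) := by
  apply Subtype.ext
  show (g : GL chevF4.Idx K) * b.hA.W (clsW 27 25 28 30 (f4Th K m) (f4Ps K m) t u) *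
    (g : GL chevF4.Idx K)⁻¹ = b.hA.W (clsW 27 25 28 30 (f4Th K m) (f4Ps K m) (d * t) (e * u))
  rw [duv_conj_W b hg _ (by
    have h48 : chevF4.nroots = 48 := rfl
    intro p hp
    simp only [clsW, List.mem_cons, List.not_mem_nil, or_false] at hp
    rw [h48]
    rcases hp with rfl | rfl | rfl | rfl <;> norm_num)]
  simp only [clsW, List.map_cons, List.map_nil, h25, h27, h28, h30, map_mul]
  have e1 : e * (f4Th K m t * t + u) = f4Th K m d * f4Th K m t * (d * t) + e * u := by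
    rw [he]; ring
  rw [e1]

end Cfsg.Agent.Lib.Helper22.OF4
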