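import Cfsg.Agent.Lib.Helper22.OF4Defs
import Cfsg.Agent.Lib.Helper23.F4Ord2
import Cfsg.Agent.Lib.Helper45.AutInst

/-! Ladder OF4 (helper22), rung SYL. -/

set_option autoImplicit false
set_option linter.unusedSectionVars false

namespace Cfsg.Agent.Lib.Helper22.OF4
open Cfsg.Lie Matrix Cfsg.Agent.Lib.Helper22 Cfsg.Agent.Lib.Helper23 Cfsg.Agent.Lib.Helper45
open Cfsg.Agent.Lib.Helper45.AutAbs Cfsg.Agent.Lib.Helper23.TwAut

theorem syl_of_card_mul {G : Type*} [Group G] [Finite G] (p : ℕ) [Fact p.Prime] (U : Subgroup G)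
    (k m : ℕ) (hU : Nat.card U = p ^ k) (hG : Nat.card G = p ^ k * m) (hm : ¬ p ∣ m) :
    ∃ P : Sylow p G, (P : Subgroup G) = U := by
  have hp : p.Prime := Fact.out
  have hUp : IsPGroup p U := IsPGroup.of_card hU
  obtain ⟨Q, hQ⟩ := hUp.exists_le_sylow
  refine ⟨Q, ?_⟩
  symm
  apply Subgroup.eq_of_le_of_card_ge hQ
  obtain ⟨j, hj⟩ := (IsPGroup.iff_card.1 Q.2)
  have h1 : Nat.card (Q : Subgroup G) ∣ Nat.card G := Subgroup.card_subgroup_dvd_card _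
  rw [hG] at h1
  have hcop : Nat.Coprime (Nat.card (Q : Subgroup G)) m := by
    rw [hj]
    exact Nat.Coprime.pow_left _ ((Nat.Prime.coprime_iff_not_dvd hp).2 hm)
  have h2 := hcop.dvd_of_dvd_mul_right h1
  rw [hU]
  exact Nat.le_of_dvd (pow_pos hp.pos _) h2

variable {K : Type*} [Field K] [CharP K 2] [Fintype K] {m : ℕ}

/-- `U¹` is a Sylow `2`-subgroup -/
theorem syl_UU (hK : Fintype.card K = 2 ^ (2 * m + 1)) :
    ∃ P : Sylow 2 ↥(twistedF4 K (2 ^ m)), (P : Subgroup ↥(twistedF4 K (2 ^ m))) = UU K m := by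
  obtain ⟨_, b, α, hα⟩ := f4_setup hK
  set q := 2 ^ (2 * m + 1) with hq
  have hq2 : 2 ∣ q := dvd_pow_self 2 (by omega)
  have hq0 : 0 < q := by positivity
  have hodd1 : ∀ a : ℕ, a ≠ 0 → ¬ 2 ∣ q ^ a - 1 := by
    intro a ha h
    have h1 : 2 ∣ q ^ a := dvd_pow hq2 ha
    have h2 : 1 ≤ q ^ a := Nat.one_le_pow _ _ hq0
    omega
  have hodd2 : ∀ a : ℕ, a ≠ 0 → ¬ 2 ∣ q ^ a + 1 := by
    intro a ha h
    have h1 : 2 ∣ q ^ a := dvd_pow hq2 ha
    omega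
  apply syl_of_card_mul 2 _ ((2 * m + 1) * 12) ((q - 1) * (q ^ 3 + 1) * (q ^ 4 - 1) * (q ^ 6 + 1))
  · have e : Nat.card (UU K m) = Nat.card ↥(chevF4.posUnipotent K ⊓ twistedF4 K (2 ^ m)) := by
      unfold UU sT
      rw [← Subgroup.inf_subgroupOf_right]
      exact Nat.card_congr (Subgroup.subgroupOfEquivOfLe inf_le_right).toEquiv
    rw [e, f4_card_U1 hK b α hα, ← pow_mul]
  · rw [f4_order hK, pow_mul, ← hq]
    ring
  · intro h
    have hp := Nat.prime_two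
    rcases (Nat.Prime.dvd_mul hp).1 h with h | h
    · rcases (Nat.Prime.dvd_mul hp).1 h with h | h
      · rcases (Nat.Prime.dvd_mul hp).1 h with h | h
        · exact hodd1 1 one_ne_zero (by rwa [pow_one])
        · exact hodd2 3 (by norm_num) h
      · exact hodd1 4 (by norm_num) h
    · exact hodd2 6 (by norm_num) h

/-- [SYL] -/
theorem f4_syl (hK : Fintype.card K = 2 ^ (2 * m + 1)) (θ : ↥(twistedF4 K (2 ^ m)) ≃* ↥(twistedF4 K (2 ^ m))) :
    ∃ g, Mp (θ.trans (cj g)) (UU K m) (UU K m) := by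
  obtain ⟨P, hP⟩ := syl_UU (m := m) hK
  obtain ⟨g, hg⟩ := mp_of_sylow P θ
  rw [hP] at hg
  exact ⟨g, hg⟩

end Cfsg.Agent.Lib.Helper22.OF4
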