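import Cfsg.Agent.Lib.Helper49.OF4DUV
import Cfsg.Agent.Lib.Helper23.F4H

/-! Ladder OF4 (helper22), rung DIAG. -/

set_option autoImplicit false
set_option linter.unusedSectionVars false

namespace Cfsg.Agent.Lib.Helper22.OF4
open Cfsg.Lie Matrix Cfsg.Agent.Lib.Helper22 Cfsg.Agent.Lib.Helper23 Cfsg.Agent.Lib.Helper45
open Cfsg.Agent.Lib.Helper45.AutAbs Cfsg.Agent.Lib.Helper23.TwAut

variable {K : Type*} [Field K] [CharP K 2] [Fintype K] {m : ℕ} (hK : Fintype.card K = 2 ^ (2 * m + 1))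
  (b : Bundle chevF4 K)

/-- the Cartan integers that are needed -/
theorem diag_cartan :
    (chevF4.cartan 0 24 = 0 ∧ chevF4.cartan 1 24 = 0 ∧ chevF4.cartan 2 24 = -1 ∧ chevF4.cartan 3 24 = 2) ∧
    (chevF4.cartan 0 33 = 2 ∧ chevF4.cartan 1 33 = -1 ∧ chevF4.cartan 2 33 = 0 ∧ chevF4.cartan 3 33 = 0) ∧
    (chevF4.cartan 0 23 = 0 ∧ chevF4.cartan 1 23 = 0 ∧ chevF4.cartan 2 23 = 1 ∧ chevF4.cartan 3 23 = -2) ∧
    (chevF4.cartan 0 14 = -2 ∧ chevF4.cartan 1 14 = 1 ∧ chevF4.cartan 2 14 = 0 ∧ chevF4.cartan 3 14 = 0) ∧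
    (chevF4.cartan 0 25 = 0 ∧ chevF4.cartan 1 25 = -2 ∧ chevF4.cartan 2 25 = 2 ∧ chevF4.cartan 3 25 = -1) ∧
    (chevF4.cartan 0 27 = -1 ∧ chevF4.cartan 1 27 = 2 ∧ chevF4.cartan 2 27 = -1 ∧ chevF4.cartan 3 27 = 0) ∧
    (chevF4.cartan 0 28 = -1 ∧ chevF4.cartan 1 28 = 0 ∧ chevF4.cartan 2 28 = 1 ∧ chevF4.cartan 3 28 = -1) ∧
    (chevF4.cartan 0 30 = -2 ∧ chevF4.cartan 1 30 = 2 ∧ chevF4.cartan 2 30 = 0 ∧ chevF4.cartan 3 30 = -1) := by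
  decide +kernel

/-- `l ↦ l³ Θ(l)⁻⁴` -/
noncomputable def diagHom (K : Type*) [Field K] [CharP K 2] (m : ℕ) : Kˣ →* Kˣ where
  toFun l := l ^ 3 * (Units.map (f4Th K m : K →* K) l ^ 4)⁻¹
  map_one' := by simp
  map_mul' a c := by
    simp only [map_mul, mul_pow, mul_inv]
    exact mul_mul_mul_comm _ _ _ _

include hK in
theorem diagHom_injective : Function.Injective (diagHom K m) := by
  rw [injective_iff_map_eq_one]
  intro l hl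
  have h1 : (l : K) ^ 3 = (f4Th K m (l : K)) ^ 4 := by
    have h0 : l ^ 3 = Units.map (f4Th K m : K →* K) l ^ 4 := mul_inv_eq_one.1 hl
    have := congrArg Units.val h0
    simpa using this
  have h2 : (f4Th K m (f4Th K m (l : K))) ^ 2 = (l : K) := by
    rw [← f4Ps_apply, f4Ps_f4Th hK]
  have h3 : (f4Th K m (l : K)) ^ 3 = (l : K) ^ 2 := by
    have := congrArg (f4Th K m) h1
    rw [map_pow, map_pow] at this
    rw [this]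
    calc f4Th K m (f4Th K m (l : K)) ^ 4 = (f4Th K m (f4Th K m (l : K)) ^ 2) ^ 2 := by ring
      _ = (l : K) ^ 2 := by rw [h2]
  have h4 : (l : K) ^ 8 * ((l : K) - 1) = 0 := by
    have : (l : K) ^ 9 = (l : K) ^ 8 := by
      calc (l : K) ^ 9 = ((l : K) ^ 3) ^ 3 := by ring
        _ = ((f4Th K m (l : K)) ^ 3) ^ 4 := by rw [h1]; ring
        _ = (l : K) ^ 8 := by rw [h3]; ring
    linear_combination this
  rcases mul_eq_zero.1 h4 with h5 | h5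
  · exact absurd h5 (pow_ne_zero _ l.ne_zero)
  · exact Units.ext (sub_eq_zero.1 h5)

include hK in
theorem diag_exists (d : K) (hd : d ≠ 0) : ∃ l : K, l ≠ 0 ∧ l ^ 3 * ((f4Th K m l) ^ 4)⁻¹ = d := by
  obtain ⟨l, hl⟩ := Finite.surjective_of_injective (diagHom_injective (m := m) hK) (Units.mk0 d hd)
  refine ⟨l, l.ne_zero, ?_⟩
  have := congrArg Units.val hl
  simpa [diagHom] using this

omit [CharP K 2] [Fintype K] in
/-- the characters that are needed -/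
theorem diag_chi (x0 x1 x2 x3 : K) :
    chiP chevF4 (L4F x0 x1 x2 x3) 24 = x2⁻¹ * x3 ^ 2 ∧
    chiP chevF4 (L4F x0 x1 x2 x3) 33 = x0 ^ 2 * x1⁻¹ ∧
    chiP chevF4 (L4F x0 x1 x2 x3) 23 = x2 * (x3 ^ 2)⁻¹ ∧
    chiP chevF4 (L4F x0 x1 x2 x3) 14 = (x0 ^ 2)⁻¹ * x1 ∧
    chiP chevF4 (L4F x0 x1 x2 x3) 25 = (x1 ^ 2)⁻¹ * (x2 ^ 2 * x3⁻¹) ∧
    chiP chevF4 (L4F x0 x1 x2 x3) 27 = x0⁻¹ * (x1 ^ 2 * x2⁻¹) ∧
    chiP chevF4 (L4F x0 x1 x2 x3) 28 = x0⁻¹ * (x2 * x3⁻¹) ∧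
    chiP chevF4 (L4F x0 x1 x2 x3) 30 = (x0 ^ 2)⁻¹ * (x1 ^ 2 * x3⁻¹) := by
  obtain ⟨⟨a1, a2, a3, a4⟩, ⟨b1, b2, b3, b4⟩, ⟨c1, c2, c3, c4⟩, ⟨d1, d2, d3, d4⟩, ⟨e1, e2, e3, e4⟩,
    ⟨f1, f2, f3, f4⟩, ⟨g1, g2, g3, g4⟩, ⟨i1, i2, i3, i4⟩⟩ := diag_cartan
  simp only [chiP_L4F, a1, a2, a3, a4, b1, b2, b3, b4, c1, c2, c3, c4, d1, d2, d3, d4, e1, e2, e3, e4,
    f1, f2, f3, f4, g1, g2, g3, g4, i1, i2, i3, i4, _root_.zpow_neg, zpow_ofNat, pow_zero, pow_one,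
    one_mul, mul_one, and_self]

include hK in
/-- [DIAG] (amended form) -/
theorem f4_diag_a (d : K) (hd : d ≠ 0) : ∃ h : ↥(twistedF4 K (2 ^ m)),
    Mp (cj h) (UU K m) (UU K m) ∧ Mp (cj h) (VV K m) (VV K m) ∧
    (∀ t, h * xb b.hA m t * h⁻¹ = xb b.hA m t) ∧ (∀ t, h * yb b.hA m t * h⁻¹ = yb b.hA m t) ∧
      ∀ t u, h * xa b.hA m t u * h⁻¹ = xa b.hA m (d * t) (d * f4Th K m d * u) := by
  obtain ⟨l, hl, hld⟩ := diag_exists (m := m) hK d hd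
  have hμ : l ^ 2 ≠ 0 := pow_ne_zero 2 hl
  have hA0 : f4Th K m l ≠ 0 := (map_ne_zero (f4Th K m)).2 hl
  have hS := torS_of_mem K memF4
  have hok := L4F_ok ((map_ne_zero (f4Th K m)).2 hl) ((map_ne_zero (f4Th K m)).2 hμ) hμ hl
  have hT := b.hA.hP_isTor hS hok
  have hAA : (f4Th K m (f4Th K m l)) ^ 2 = l := by
    rw [← f4Ps_apply, f4Ps_f4Th hK]
  have hAA0 : f4Th K m (f4Th K m l) ≠ 0 := (map_ne_zero (f4Th K m)).2 hA0
  obtain ⟨k24, k33, k23, k14, k25, k27, k28, k30⟩ :=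
    diag_chi (f4Th K m l) (f4Th K m (l ^ 2)) (l ^ 2) l
  have q : f4Th K m (f4Th K m l) ^ 4 = l ^ 2 := by
    calc f4Th K m (f4Th K m l) ^ 4 = (f4Th K m (f4Th K m l) ^ 2) ^ 2 := by ring
      _ = l ^ 2 := by rw [hAA]
  have hθd : f4Th K m d = (f4Th K m l) ^ 3 * (l ^ 2)⁻¹ := by
    rw [← hld, map_mul, map_inv₀, map_pow, map_pow, q]
  refine ⟨⟨b.hA.hP (L4F (f4Th K m l) (f4Th K m (l ^ 2)) (l ^ 2) l), f4_torus_mem hK b hl hμ⟩,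
    (f4_diag_uv _ (b.hA.hP_mem_diag b.hR hok)).1, (f4_diag_uv _ (b.hA.hP_mem_diag b.hR hok)).2,
    fun t => ?_, fun t => ?_, fun t u => ?_⟩
  · have := duv_xb b (g := ⟨b.hA.hP (L4F (f4Th K m l) (f4Th K m (l ^ 2)) (l ^ 2) l),
      f4_torus_mem hK b hl hμ⟩) hT 1
      (by rw [k24]; field_simp)
      (by rw [k33, map_pow, map_one]; field_simp) t
    rwa [one_mul] at this
  · have := duv_yb b (g := ⟨b.hA.hP (L4F (f4Th K m l) (f4Th K m (l ^ 2)) (l ^ 2) l),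
      f4_torus_mem hK b hl hμ⟩) hT 1
      (by rw [k23]; field_simp)
      (by rw [k14, map_pow, map_one]; field_simp) t
    rwa [one_mul] at this
  · refine duv_xa b (g := ⟨b.hA.hP (L4F (f4Th K m l) (f4Th K m (l ^ 2)) (l ^ 2) l),
      f4_torus_mem hK b hl hμ⟩) hT d (d * f4Th K m d) ?_ ?_ ?_ (mul_comm _ _) ?_ t u
    · rw [k25, ← hld, map_pow]; field_simp
    · rw [k27, hθd, map_pow]; field_simp
    · rw [k28, hθd, ← hld]; field_simp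
    · rw [k30, hθd, ← hld, f4Ps_apply]
      simp only [map_pow, map_mul, map_inv₀]
      rw [q]
      field_simp
      calc l ^ 3 = (f4Th K m (f4Th K m l) ^ 2) ^ 3 := by rw [hAA]
        _ = _ := by ring

end Cfsg.Agent.Lib.Helper22.OF4
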