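import Cfsg.Agent.Lib.Helper49.OF4DIAG

/-! Ladder OF4 (helper22), rung HB. -/

set_option autoImplicit false
set_option linter.unusedSectionVars false
set_option linter.unusedSimpArgs false

namespace Cfsg.Agent.Lib.Helper22.OF4
open Cfsg.Lie Matrix Cfsg.Agent.Lib.Helper22 Cfsg.Agent.Lib.Helper23 Cfsg.Agent.Lib.Helper45
open Cfsg.Agent.Lib.Helper45.AutAbs Cfsg.Agent.Lib.Helper23.TwAut

variable {K : Type*} [Field K] [CharP K 2] [Fintype K] {m : ℕ} (hK : Fintype.card K = 2 ^ (2 * m + 1))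
  (b : Bundle chevF4 K)

theorem hb_xb_coe (t : K) : (xb b.hA m t : GL chevF4.Idx K) = b.hA.xJ (f4Th K m) true [3, 0] t := by
  obtain ⟨s0, -, -, s3⟩ := f4_simple
  show b.hA.W (pairW 33 24 (f4Th K m) t) = _
  simp only [pairW, AddFact.W, List.map_cons, List.map_nil, List.prod_cons, List.prod_nil, mul_one,
    AddFact.xJ_cons, AddFact.xJ_nil, sgR_true, s0, s3]
  exact (f4_comm_pos1 b.hA _ _).eq

theorem hb_yb_coe (t : K) : (yb b.hA m t : GL chevF4.Idx K) = b.hA.xJ (f4Th K m) false [3, 0] t := by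
  obtain ⟨s0, -, -, s3⟩ := f4_simple
  have n0 : chevF4.neg 33 = 14 := by decide
  have n3 : chevF4.neg 24 = 23 := by decide
  show b.hA.W (pairW 14 23 (f4Th K m) t) = _
  simp only [pairW, AddFact.W, List.map_cons, List.map_nil, List.prod_cons, List.prod_nil, mul_one,
    AddFact.xJ_cons, AddFact.xJ_nil, sgR_false, s0, s3, n0, n3]
  exact (f4_comm_neg1 b.hA _ _).eq

/-- the value of `h_b(c)` -/
theorem hb_coe (c : K) : ((hb (xb b.hA m) (yb b.hA m) c : ↥(twistedF4 K (2 ^ m))) : GL chevF4.Idx K) = b.hA.hJ (f4Th K m) [3, 0] c := by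
  rw [b.hA.hJ_eq _ (f4_orthL b), b.hA.nJ_eq _ (f4_orthL b), b.hA.nJ_eq _ (f4_orthL b)]
  simp only [hb, hT, nT, Subgroup.coe_mul, hb_xb_coe b, hb_yb_coe b]

theorem hb_isTor (c : K) (hc : c ≠ 0) :
    b.hA.IsTor ((hb (xb b.hA m) (yb b.hA m) c : ↥(twistedF4 K (2 ^ m))) : GL chevF4.Idx K) (chiJ chevF4 (f4Th K m) [3, 0] c) := by
  rw [hb_coe b]
  exact b.hA.hJ_isTor (f4Th K m) (torS_of_mem K memF4) (by decide +kernel) hc

theorem hb_mem_diag (c : K) (hc : c ≠ 0) :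
    ((hb (xb b.hA m) (yb b.hA m) c : ↥(twistedF4 K (2 ^ m))) : GL chevF4.Idx K) ∈ chevF4.diagonalSubgroup K := by
  obtain ⟨s0, -, -, s3⟩ := f4_simple
  have h48 : chevF4.nroots = 48 := rfl
  rw [hb_coe b]
  simp only [AddFact.hJ_cons, AddFact.hJ_nil, mul_one, s0, s3]
  exact mul_mem (b.hA.hG_mem_diag (by rw [h48]; norm_num) hc)
    (b.hA.hG_mem_diag (by rw [h48]; norm_num) ((map_ne_zero _).2 hc))

include hK in
/-- [HB] (needs `hK`) -/
theorem f4_hb_act (c : K) (hc : c ≠ 0) (t u : K) :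
    hb (xb b.hA m) (yb b.hA m) c * xa b.hA m t u * (hb (xb b.hA m) (yb b.hA m) c)⁻¹ =
      xa b.hA m (c⁻¹ * t) ((c * f4Th K m c)⁻¹ * u) := by
  obtain ⟨-, -, -, -, ⟨e1, e2, e3, e4⟩, ⟨f1, f2, f3, f4⟩, ⟨g1, g2, g3, g4⟩, ⟨i1, i2, i3, i4⟩⟩ :=
    diag_cartan
  have hθ : f4Th K m c ≠ 0 := (map_ne_zero _).2 hc
  have hAA : (f4Th K m (f4Th K m c)) ^ 2 = c := by
    rw [← f4Ps_apply, f4Ps_f4Th hK]
  refine duv_xa b (hb_isTor b c hc) c⁻¹ ((c * f4Th K m c)⁻¹) ?_ ?_ ?_ ?_ ?_ t u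
  · simp only [chiJ, e1, e4, _root_.zpow_neg, zpow_ofNat, pow_zero, pow_one, mul_one, zpow_one, zpow_zero]
  · simp only [chiJ, f1, f4, _root_.zpow_neg, zpow_ofNat, pow_zero, pow_one, mul_one, zpow_one, zpow_zero,
      one_mul, map_inv₀]
  · simp only [chiJ, g1, g4, _root_.zpow_neg, zpow_ofNat, pow_zero, pow_one, mul_one, zpow_one, zpow_zero,
      mul_inv]
  · rw [map_inv₀, mul_inv, mul_comm]
  · simp only [chiJ, i1, i4, _root_.zpow_neg, zpow_ofNat, pow_zero, pow_one, mul_one, zpow_one, zpow_zero]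
    rw [f4Ps_apply, map_inv₀, map_mul, inv_pow, mul_pow, hAA, mul_inv, mul_comm]

theorem f4_hb_uv (c : K) (hc : c ≠ 0) :
    Mp (cj (hb (xb b.hA m) (yb b.hA m) c)) (UU K m) (UU K m) ∧
      Mp (cj (hb (xb b.hA m) (yb b.hA m) c)) (VV K m) (VV K m) :=
  f4_diag_uv _ (hb_mem_diag b c hc)

theorem f4_na_hb (c : K) (hc : c ≠ 0) :
    na b.hA m * hb (xb b.hA m) (yb b.hA m) c * (na b.hA m)⁻¹ ∈ BB K m := by
  rw [BB, mem_sT]
  apply AddFact.diag_le_borel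
  exact b.hA.mono_conj_diag b.hR b.hN (b.hA.nword_mem_mono b.hR (by decide +kernel)) (hb_mem_diag b c hc)

end Cfsg.Agent.Lib.Helper22.OF4
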