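import Cfsg.Agent.Lib.Helper23.SDCDefs
import Cfsg.Agent.Lib.Helper22.GenSimple
import Cfsg.Agent.Lib.Helper22.Bruhat
import Cfsg.Agent.Lib.Helper45.AutChev

/-! ladder SDC, rung OPP: generation by `U⁻` and the simple root elements; the big cell alternative -/

set_option autoImplicit false
set_option linter.unusedSectionVars false

namespace Cfsg.Agent.Lib.Helper23.SDC
open Cfsg.Lie Matrix Cfsg.Agent.Lib.Helper22 Cfsg.Agent.Lib.Helper23 Cfsg.Agent.Lib.Helper45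
open Cfsg.Agent.Lib.Helper85 Cfsg.Agent.Lib.Helper78.DFZ Cfsg.Agent.Lib.Helper23.TwAut
open Cfsg.Agent.Lib.Helper8

variable {D : ChevalleyDatum} {F : Type*} [Field F] [Finite F]
  (hD : D ∈ [chevG2, chevB2, chevD4, chevF4, chevE6, chevE7, chevE8]) (b : Bundle D F)

theorem gen_G : Subgroup.closure (((VV D F : Subgroup ↥(D.group F)) : Set ↥(D.group F)) ∪
    {g | ∃ s c, g = phi hD b s (up c)}) = ⊤ := by
  set H := Subgroup.closure (((VV D F : Subgroup ↥(D.group F)) : Set ↥(D.group F)) ∪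
    {g | ∃ s c, g = phi hD b s (up c)}) with hH
  have key : GS b.hA ≤ H.map (D.group F).subtype := by
    unfold GS
    rw [Subgroup.closure_le]
    rintro x ⟨i, t, hi, rfl | rfl⟩
    · exact ⟨phi hD b ⟨i, hi⟩ (up t), Subgroup.subset_closure (Or.inr ⟨⟨i, hi⟩, t, rfl⟩),
        phi_up hD b ⟨i, hi⟩ t⟩
    · refine ⟨⟨b.hA.X (D.neg (D.simple i)) t, b.hA.X_mem_group _ _⟩, Subgroup.subset_closure (Or.inl ?_), rfl⟩
      show _ ∈ VV D F
      rw [VV, mem_sT]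
      exact b.hA.X_mem_neg (b.hR.neg_of_pos (b.hR.simple_pos hi)) t
  rw [eq_top_iff]
  intro y _
  have hy : (y : GL D.Idx F) ∈ GS b.hA := group_eq_GS b.hA b.hR b.hN ▸ y.2
  obtain ⟨y', hy', e⟩ := key hy
  have : y' = y := Subtype.ext e
  rw [← this]
  exact hy'

omit [Finite F] in
include b in
/-- the coarse Bruhat decomposition, from the bundle -/
theorem opp_bruhat (g : GL D.Idx F) (hg : g ∈ D.group F) :
    ∃ x ∈ D.borelSubgroup F, ∃ n ∈ D.monomialSubgroup F, ∃ y ∈ D.borelSubgroup F, g = x * n * y := by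
  obtain ⟨P, hPB, hPN, _⟩ := b.hA.exists_bnPair b.hR b.hN b.hT b.hTri b.hC
  obtain ⟨n, hn, hgn⟩ := bruhat_exists (P := P) ⟨g, hg⟩
  have hnN : n ∈ P.N := closure_le_N subset_rfl hn
  obtain ⟨x, hx, y, hy, e⟩ := mem_DC.1 hgn
  rw [hPB, Subgroup.mem_subgroupOf] at hx hy
  rw [hPN, Subgroup.mem_subgroupOf] at hnN
  exact ⟨x, hx, n, hnN, y, hy, congrArg Subtype.val e⟩

omit [Finite F] in
theorem opp_GL (g : GL D.Idx F) (hg : g ∈ D.group F) :
    (∃ u ∈ D.posUnipotent F, u ≠ 1 ∧ g⁻¹ * u * g ∈ D.posUnipotent F) ∨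
    ∃ x x' : GL D.Idx F, x ∈ D.group F ∧ x' ∈ D.group F ∧
      (∀ u ∈ D.posUnipotent F, x * u * x⁻¹ ∈ D.posUnipotent F) ∧
      (∀ u ∈ D.posUnipotent F, x' * u * x'⁻¹ ∈ D.posUnipotent F) ∧
      g = x * b.hA.nword (w0 b) * x' := by
  obtain ⟨x, hx, n, hn, y, hy, rfl⟩ := opp_bruhat b g hg
  obtain ⟨w, h, hw, hh, rfl⟩ := b.hA.mono_nform b.hR b.hN hn
  have hw' : ∀ i ∈ w.reverse, i < D.rank := fun i hi => hw i (List.mem_reverse.1 hi)
  by_cases hex : ∃ r, D.IsPosRoot r ∧ D.IsPosRoot (wact D w.reverse r)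
  · left
    obtain ⟨r, hr, hr'⟩ := hex
    obtain ⟨t', e⟩ := (acts_nform_inv b hw hh).conj b hr.1 1
    rw [inv_inv] at e
    refine ⟨x * b.hA.X r 1 * x⁻¹, (borel_cmp b hx _).2 (b.hA.X_mem_pos hr 1), ?_, ?_⟩
    · intro h1
      have h2 : b.hA.X r 1 = 1 := by
        have : b.hA.X r 1 = x⁻¹ * (x * b.hA.X r 1 * x⁻¹) * x := by group
        rw [this, h1]; group
      exact one_ne_zero (b.hA.X_eq_one b.hTri hr.1 h2)
    · have e2 : (x * (b.hA.nword w * h) * y)⁻¹ * (x * b.hA.X r 1 * x⁻¹) * (x * (b.hA.nword w * h) * y) =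
          y⁻¹ * ((b.hA.nword w * h)⁻¹ * b.hA.X r 1 * (b.hA.nword w * h)) * y⁻¹⁻¹ := by group
      rw [e2, e]
      exact (borel_cmp b (inv_mem hy) _).2 (b.hA.X_mem_pos hr' _)
  · right
    have hopp' : ∀ r, D.IsPosRoot r → D.IsNegRoot (wact D w.reverse r) := by
      intro r hr
      rcases b.hR.pos_or_neg (b.hR.wact_lt hw' hr.1) with h2 | h2
      · exact absurd ⟨r, hr, h2⟩ hex
      · exact h2
    have hopp : ∀ r, D.IsPosRoot r → D.IsNegRoot (wact D w r) := by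
      have := (word_opp b hw' hopp').2.2
      rwa [List.reverse_reverse] at this
    have c1 := (cmp_opp b hw hh hopp).1
    have c0 := (cmp_opp b (w0_rank b) (one_mem _) (w0_neg b)).1
    rw [mul_one] at c0
    have hn0g : b.hA.nword (w0 b) ∈ D.group F := b.hA.mono_le_group (b.hA.nword_mem_mono b.hR (w0_rank b))
    refine ⟨x, (b.hA.nword (w0 b))⁻¹ * (b.hA.nword w * h) * y, b.hA.borel_le_group hx,
      mul_mem (mul_mem (inv_mem hn0g) (b.hA.mono_le_group hn)) (b.hA.borel_le_group hy),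
      fun u hu => (borel_cmp b hx u).2 hu, fun u hu => ?_, by group⟩
    have h1 := (borel_cmp b hy u).2 hu
    have h2 := (c1 _).2 h1
    rw [← c0]
    have e3 : b.hA.nword (w0 b) * ((b.hA.nword (w0 b))⁻¹ * (b.hA.nword w * h) * y * u *
        ((b.hA.nword (w0 b))⁻¹ * (b.hA.nword w * h) * y)⁻¹) * (b.hA.nword (w0 b))⁻¹ =
        b.hA.nword w * h * (y * u * y⁻¹) * (b.hA.nword w * h)⁻¹ := by group
    rw [e3]
    exact h2

theorem opp_G : ∀ g : ↥(D.group F), (∃ u ∈ UU D F, u ≠ 1 ∧ g⁻¹ * u * g ∈ UU D F) ∨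
    ∃ x x' : ↥(D.group F), (∀ u ∈ UU D F, x * u * x⁻¹ ∈ UU D F) ∧ (∀ u ∈ UU D F, x' * u * x'⁻¹ ∈ UU D F) ∧
      g = x * n0 b * x' := by
  intro g
  rcases opp_GL b g g.2 with ⟨u, hu, hu1, hu2⟩ | ⟨x, x', hx, hx', h1, h2, e⟩
  · left
    refine ⟨⟨u, b.hA.pos_le_group hu⟩, mem_sT.2 hu, fun h => hu1 (congrArg Subtype.val h), mem_sT.2 hu2⟩
  · right
    refine ⟨⟨x, hx⟩, ⟨x', hx'⟩, fun u hu => mem_sT.2 (h1 _ (mem_sT.1 hu)),
      fun u hu => mem_sT.2 (h2 _ (mem_sT.1 hu)), Subtype.ext e⟩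

end Cfsg.Agent.Lib.Helper23.SDC
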