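import Cfsg.Agent.Lib.Helper22.GenSimple
import Cfsg.Agent.Lib.Helper23.AutStd

set_option autoImplicit false

/-! Rung INT of helper45's ladder GR. -/

namespace Cfsg.Agent.Lib.Helper49

open Cfsg.Lie Matrix Cfsg.Agent.Lib.Helper23 Cfsg.Agent.Lib.Helper22

theorem exists_hom_of_intertwine {D D' : ChevalleyDatum} {F : Type*} [Field F] (b' : Bundle D' F)
    (E : Matrix D.Idx D'.Idx F) (L : Matrix D'.Idx D.Idx F) (hLE : L * E = 1)
    (S : Set (GL D.Idx F))
    (hS : ∀ g ∈ S, ∃ A ∈ D'.group F,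
      (g : Matrix D.Idx D.Idx F) * E = E * (A : Matrix D'.Idx D'.Idx F))
    (hgen : ∀ i < D'.rank, ∀ t : F,
      (∃ g ∈ S, (g : Matrix D.Idx D.Idx F) * E = E * D'.x F (D'.simple i) t) ∧
      (∃ g ∈ S, (g : Matrix D.Idx D.Idx F) * E = E * D'.x F (D'.neg (D'.simple i)) t)) :
    ∃ f : ↥(Subgroup.closure S) →* ↥(D'.group F), Function.Surjective f := by
  have huniq : ∀ A A' : Matrix D'.Idx D'.Idx F, E * A = E * A' → A = A' := by
    intro A A' h
    have h1 := congrArg (fun M => L * M) h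
    simp only [← Matrix.mul_assoc, hLE, Matrix.one_mul] at h1
    exact h1
  have hall : ∀ g ∈ Subgroup.closure S, ∃ A ∈ D'.group F,
      (g : Matrix D.Idx D.Idx F) * E = E * (A : Matrix D'.Idx D'.Idx F) := by
    intro g hg
    induction hg using Subgroup.closure_induction with
    | mem x hx => exact hS x hx
    | one => exact ⟨1, one_mem _, by simp⟩
    | mul x y _ _ hx hy =>
      obtain ⟨A, hA, e1⟩ := hx
      obtain ⟨A', hA', e2⟩ := hy
      refine ⟨A * A', mul_mem hA hA', ?_⟩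
      rw [Units.val_mul, Units.val_mul, Matrix.mul_assoc, e2, ← Matrix.mul_assoc, e1,
        Matrix.mul_assoc]
    | inv x _ hx =>
      obtain ⟨A, hA, e1⟩ := hx
      refine ⟨A⁻¹, inv_mem hA, ?_⟩
      have h1 : ((x⁻¹ : GL D.Idx F) : Matrix D.Idx D.Idx F) * ((x : Matrix D.Idx D.Idx F) * E) *
          ((A⁻¹ : GL D'.Idx F) : Matrix D'.Idx D'.Idx F) =
          ((x⁻¹ : GL D.Idx F) : Matrix D.Idx D.Idx F) * (E * (A : Matrix D'.Idx D'.Idx F)) *
          ((A⁻¹ : GL D'.Idx F) : Matrix D'.Idx D'.Idx F) := by rw [e1]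
      rw [← Matrix.mul_assoc, ← Units.val_mul, inv_mul_cancel, Units.val_one, Matrix.one_mul,
        Matrix.mul_assoc, Matrix.mul_assoc, ← Units.val_mul, mul_inv_cancel, Units.val_one,
        Matrix.mul_one] at h1
      exact h1.symm
  choose Φ hΦ1 hΦ2 using hall
  let f : ↥(Subgroup.closure S) →* ↥(D'.group F) :=
    MonoidHom.mk' (fun g => ⟨Φ g.1 g.2, hΦ1 g.1 g.2⟩) (by
      intro g g'
      apply Subtype.ext
      apply Units.ext
      apply huniq
      show E * ((Φ (g * g').1 (g * g').2 : GL D'.Idx F) : Matrix D'.Idx D'.Idx F) =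
        E * ((Φ g.1 g.2 * Φ g'.1 g'.2 : GL D'.Idx F) : Matrix D'.Idx D'.Idx F)
      rw [← hΦ2, Units.val_mul, ← Matrix.mul_assoc, ← hΦ2, Matrix.mul_assoc, ← hΦ2,
        ← Matrix.mul_assoc]
      rfl)
  refine ⟨f, ?_⟩
  have hle : GS b'.hA ≤ f.range.map (D'.group F).subtype := by
    unfold GS
    rw [Subgroup.closure_le]
    rintro x ⟨i, t, hi, rfl | rfl⟩
    · obtain ⟨g, hg, e⟩ := (hgen i hi t).1
      refine ⟨f ⟨g, Subgroup.subset_closure hg⟩, ⟨_, rfl⟩, ?_⟩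
      apply Units.ext
      apply huniq
      show E * ((Φ g _ : GL D'.Idx F) : Matrix D'.Idx D'.Idx F) = _
      rw [← hΦ2, e]
      rfl
    · obtain ⟨g, hg, e⟩ := (hgen i hi t).2
      refine ⟨f ⟨g, Subgroup.subset_closure hg⟩, ⟨_, rfl⟩, ?_⟩
      apply Units.ext
      apply huniq
      show E * ((Φ g _ : GL D'.Idx F) : Matrix D'.Idx D'.Idx F) = _
      rw [← hΦ2, e]
      rfl
  intro y
  have hy : (y : GL D'.Idx F) ∈ GS b'.hA := by
    rw [← group_eq_GS b'.hA b'.hR b'.hN]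
    exact y.2
  obtain ⟨z, ⟨x, rfl⟩, hz⟩ := hle hy
  exact ⟨x, Subtype.ext hz⟩

end Cfsg.Agent.Lib.Helper49
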