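import Mathlib
import Cfsg.Agent.Lib.Helper59.TwoGroupRecog

set_option autoImplicit false

/-! Abstract lemmas for `Out(D₄(q))`. -/

namespace Cfsg.Agent.Lib.Helper49

open Cfsg.Agent.Lib.Helper59

/-- recognition of `Sym(4)`: order 24 with a core-free copy of `Sym(3)` -/
theorem perm_four_recog {W : Type*} [Group W] (hW : Nat.card W = 24)
    (j : Equiv.Perm (Fin 3) →* W) (hj : Function.Injective j)
    (hcore : ∀ ρ : Equiv.Perm (Fin 3), ρ ≠ 1 → ∃ v : W, ∀ ρ', v * j ρ * v⁻¹ ≠ j ρ') :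
    Nonempty (W ≃* Equiv.Perm (Fin 4)) := by
  have : Finite W := Nat.finite_of_card_ne_zero (by omega)
  have hS : Nat.card ↥j.range = 6 := by
    rw [← Nat.card_congr (MonoidHom.ofInjective hj).toEquiv, Nat.card_eq_fintype_card,
      Fintype.card_perm, Fintype.card_fin]
    rfl
  have hidx : Nat.card (W ⧸ j.range) = 4 := by
    have h1 := Subgroup.card_eq_card_quotient_mul_card_subgroup j.range
    rw [hW, hS] at h1
    omega
  have hker : (MulAction.toPermHom W (W ⧸ j.range)).ker = ⊥ := by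
    rw [← Subgroup.normalCore_eq_ker, eq_bot_iff]
    intro n hn
    rw [Subgroup.mem_bot]
    have hn1 : n ∈ j.range := Subgroup.normalCore_le _ hn
    obtain ⟨ρ, rfl⟩ := hn1
    by_contra hne
    have hρ : ρ ≠ 1 := by
      rintro rfl
      exact hne (map_one j)
    obtain ⟨v, hv⟩ := hcore ρ hρ
    have h2 : v * j ρ * v⁻¹ ∈ j.range.normalCore :=
      (Subgroup.normalCore_normal j.range).conj_mem _ hn v
    obtain ⟨ρ', hρ'⟩ := Subgroup.normalCore_le _ h2
    exact hv ρ' hρ'.symm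
  have hinj : Function.Injective (MulAction.toPermHom W (W ⧸ j.range)) :=
    (MonoidHom.ker_eq_bot_iff _).1 hker
  let e : (W ⧸ j.range) ≃ Fin 4 := Finite.equivFinOfCardEq hidx
  let Ψ : W →* Equiv.Perm (Fin 4) :=
    (Equiv.permCongrHom e).toMonoidHom.comp (MulAction.toPermHom W (W ⧸ j.range))
  have hΨ : Function.Injective Ψ := (Equiv.permCongrHom e).injective.comp hinj
  have hbij : Function.Bijective Ψ := by
    apply hΨ.bijective_of_nat_card_le
    rw [hW, Nat.card_eq_fintype_card, Fintype.card_perm, Fintype.card_fin]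
    decide
  exact ⟨MulEquiv.ofBijective Ψ hbij⟩

/-- an internal direct product of a subgroup and a cyclic group -/
theorem prod_of_subgroup_complement {G : Type*} [Group G] (W : Subgroup G) (ξ : G) (f : ℕ)
    (hz : ξ ^ f = 1) (hcomm : ∀ w ∈ W, ξ * w = w * ξ)
    (hint : ∀ k : ℤ, ξ ^ k ∈ W → (f : ℤ) ∣ k)
    (hsurj : ∀ g : G, ∃ w ∈ W, ∃ k : ℤ, g = w * ξ ^ k) :
    Nonempty (G ≃* ↥W × Multiplicative (ZMod f)) := by
  let g2 : Multiplicative (ZMod f) →* G := AddMonoidHom.toMultiplicativeLeft (zmodPow ξ f hz)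
  have hg2 : ∀ k : ℤ, g2 (Multiplicative.ofAdd (k : ZMod f)) = ξ ^ k := fun k =>
    zE_intCast ξ f hz k
  let Ψ : ↥W × Multiplicative (ZMod f) →* G := W.subtype.noncommCoprod g2 (by
    intro d j
    obtain ⟨k, hk⟩ := ZMod.intCast_surjective (Multiplicative.toAdd j)
    have : j = Multiplicative.ofAdd (k : ZMod f) := by rw [hk]; rfl
    rw [this, hg2]
    exact (Commute.zpow_left (hcomm d.1 d.2) k).symm)
  have hinj : Function.Injective Ψ := by
    rw [injective_iff_map_eq_one]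
    rintro ⟨d, j⟩ h
    obtain ⟨k, hk⟩ := ZMod.intCast_surjective (Multiplicative.toAdd j)
    have hj : j = Multiplicative.ofAdd (k : ZMod f) := by rw [hk]; rfl
    have h1 : d.1 * g2 j = 1 := h
    rw [hj, hg2] at h1
    have h2 : ξ ^ k ∈ W := by
      have : ξ ^ k = d.1⁻¹ := eq_inv_of_mul_eq_one_right h1
      rw [this]
      exact inv_mem d.2
    have h3 := hint k h2
    have h5 : (k : ZMod f) = 0 := (ZMod.intCast_zmod_eq_zero_iff_dvd k f).2 h3
    have hj1 : j = 1 := by rw [hj, h5]; rfl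
    obtain ⟨l, rfl⟩ := h3
    rw [zpow_mul, zpow_natCast, hz, one_zpow, mul_one] at h1
    have h6 : d = 1 := Subtype.ext h1
    rw [h6, hj1]
    rfl
  have hsur : Function.Surjective Ψ := by
    intro g
    obtain ⟨w, hw, k, rfl⟩ := hsurj g
    refine ⟨(⟨w, hw⟩, Multiplicative.ofAdd (k : ZMod f)), ?_⟩
    change w * g2 _ = _
    rw [hg2]
  exact ⟨(MulEquiv.ofBijective Ψ ⟨hinj, hsur⟩).symm⟩

end Cfsg.Agent.Lib.Helper49
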