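import Cfsg.Agent.Lib.Helper23.AutOut3
import Cfsg.Agent.Lib.Helper22.HCardD4
import Cfsg.Agent.Lib.Helper49.GamO7

set_option autoImplicit false
set_option maxRecDepth 1000000

/-! Standard automorphisms of the Chevalley group `D₄(F)`: composition, existence, and the
homomorphism `Sym(3) × Aut F → Out`. -/

namespace Cfsg.Agent.Lib.Helper49

open Cfsg.Lie Matrix Cfsg.Agent.Lib.Helper23

/-- `Out` is an isomorphism invariant -/
theorem out_congr {G G' : Type*} [Group G] [Group G'] (e : G ≃* G') :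
    Nonempty (Cfsg.Out G ≃* Cfsg.Out G') := by
  have h : (Cfsg.Inn G).map (MulAut.congr e).toMonoidHom = Cfsg.Inn G' := by
    ext φ
    constructor
    · rintro ⟨_, ⟨g, rfl⟩, rfl⟩
      refine ⟨e g, ?_⟩
      ext x
      simp [MulAut.congr, MulAut.conj_apply]
    · rintro ⟨g, rfl⟩
      refine ⟨MulAut.conj (e.symm g), ⟨e.symm g, rfl⟩, ?_⟩
      ext x
      simp [MulAut.congr, MulAut.conj_apply]
  exact ⟨QuotientGroup.congr (Cfsg.Inn G) (Cfsg.Inn G') (MulAut.congr e) h⟩

theorem hD4 : chevD4 ∈ [chevG2, chevB2, chevD4, chevF4, chevE6, chevE7, chevE8] := by simp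

theorem graphExp_D4 (c i : ℕ) (j : Fin chevD4.rank) : chevD4.graphExp c i j = 1 := by
  unfold ChevalleyDatum.graphExp
  rw [notLongD4 j j.2]
  simp

variable {F : Type*} [Field F]

theorem isStd_D4_iff (hA : AddFact chevD4 F) (θ : ↥(chevD4.group F) ≃* ↥(chevD4.group F))
    (c : Fin chevD4.rank → Fˣ) (π : Equiv.Perm (Fin chevD4.rank)) (σ : F ≃+* F) :
    IsStd hA θ c π σ ↔ ∀ (i : Fin chevD4.rank) (t : F),
      θ (hA.XG (chevD4.simple i) t) = hA.XG (chevD4.simple (π i)) ((c (π i) : F) * σ t) ∧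
      θ (hA.XG (chevD4.neg (chevD4.simple i)) t) =
        hA.XG (chevD4.neg (chevD4.simple (π i))) (((c (π i))⁻¹ : Fˣ) * σ t) := by
  unfold IsStd
  simp only [graphExp_D4, pow_one]

/-- the parameter of a composite -/
def mulPar (c c' : Fin chevD4.rank → Fˣ) (π : Equiv.Perm (Fin chevD4.rank)) (σ : F ≃+* F) :
    Fin chevD4.rank → Fˣ := fun j => c j * Units.map (σ : F →* F) (c' (π⁻¹ j))

theorem isStd_mul (hA : AddFact chevD4 F) {θ θ' : MulAut ↥(chevD4.group F)}
    {c c' : Fin chevD4.rank → Fˣ} {π π' : Equiv.Perm (Fin chevD4.rank)} {σ σ' : F ≃+* F}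
    (h : IsStd hA θ c π σ) (h' : IsStd hA θ' c' π' σ') :
    IsStd hA (θ * θ') (mulPar c c' π σ) (π * π') (σ * σ') := by
  rw [isStd_D4_iff] at *
  intro i t
  have e1 : π⁻¹ ((π * π') i) = π' i := by simp
  constructor
  · rw [MulAut.mul_apply, (h' i t).1, (h (π' i) _).1]
    congr 1
    unfold mulPar
    rw [e1, Units.val_mul, Units.coe_map, map_mul, mul_assoc]
    rfl
  · rw [MulAut.mul_apply, (h' i t).2, (h (π' i) _).2]
    congr 1
    unfold mulPar
    rw [e1, mul_inv, Units.val_mul, ← map_inv, Units.coe_map, map_mul, mul_assoc]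
    rfl

theorem isStd_one (hA : AddFact chevD4 F) : IsStd hA (1 : MulAut ↥(chevD4.group F)) 1 1 1 := by
  rw [isStd_D4_iff]
  intro i t
  simp

theorem exists_std [Finite F] (b : Bundle chevD4 F) (c : Fin chevD4.rank → Fˣ)
    (π : Equiv.Perm (Fin chevD4.rank)) (hπ : chevD4.IsDiagramSymmetry π) (σ : F ≃+* F) :
    ∃ θ : MulAut ↥(chevD4.group F), IsStd b.hA θ c π σ := by
  obtain ⟨χ, d, hχ, hc, hd⟩ := Cfsg.Agent.Lib.Helper29.AutD.exists_diagAut (F := F) chevD4 hD4 c
  obtain ⟨g, hg⟩ := exists_graphAut_of_symm (F := F) chevD4 hD4 π hπ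
    (Or.inl fun i => by rw [notLongD4 _ (π i).2, notLongD4 _ i.2])
  obtain ⟨f, hf⟩ := Cfsg.Agent.S1080.result chevD4 hD4 σ
  have h1 := isStd_comp hD4 b hχ hd (g := g) (π := π) hg hf
  have e : (fun j : Fin chevD4.rank => χ (chevD4.simple j)) = c := funext hc
  rw [e] at h1
  exact ⟨_, h1⟩

/-- the central node of the diagram -/
def ctr : Fin chevD4.rank := ⟨1, by decide⟩

theorem sym_of_fix : ∀ π : Equiv.Perm (Fin chevD4.rank), π ctr = ctr → chevD4.IsDiagramSymmetry π := by
  decide +kernel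

theorem fix_of_sym : ∀ π : Equiv.Perm (Fin chevD4.rank), chevD4.IsDiagramSymmetry π → π ctr = ctr := by
  decide +kernel

/-- `Sym(3)` as the permutations of the nodes fixing the central one -/
noncomputable def leafPerm : Equiv.Perm (Fin 3) →* Equiv.Perm (Fin chevD4.rank) :=
  (Equiv.Perm.ofSubtype (p := fun i : Fin chevD4.rank => i ≠ ctr)).comp
    (Equiv.permCongrHom (finSuccAboveEquiv (n := 3) ctr)).toMonoidHom

theorem leafPerm_injective : Function.Injective leafPerm :=
  Equiv.Perm.ofSubtype_injective.comp (Equiv.permCongrHom _).injective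

theorem leafPerm_ctr (ρ : Equiv.Perm (Fin 3)) : leafPerm ρ ctr = ctr :=
  Equiv.Perm.ofSubtype_apply_of_not_mem _ (by simp)

theorem leafPerm_sym (ρ : Equiv.Perm (Fin 3)) : chevD4.IsDiagramSymmetry (leafPerm ρ) :=
  sym_of_fix _ (leafPerm_ctr ρ)

theorem card_sym_D4 :
    Fintype.card {π : Equiv.Perm (Fin chevD4.rank) // chevD4.IsDiagramSymmetry π} = 6 := by
  decide +kernel

theorem card_adm_D4 (F : Type*) [Field F] :
    Nat.card {π : Equiv.Perm (Fin chevD4.rank) // chevD4.IsDiagramSymmetry π ∧ LenOK chevD4 F π} =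
      6 := by
  rw [Nat.card_congr (Equiv.subtypeEquivRight fun π =>
      (⟨fun x => x.1, fun x => ⟨x, Or.inl fun i => by
        rw [notLongD4 _ (π i).2, notLongD4 _ i.2]⟩⟩ :
        chevD4.IsDiagramSymmetry π ∧ LenOK chevD4 F π ↔ chevD4.IsDiagramSymmetry π)),
      Nat.card_eq_fintype_card, card_sym_D4]

section lam

variable [Finite F] (b : Bundle chevD4 F)

/-- the standard automorphism with trivial diagonal part -/
noncomputable def lamFun (x : Equiv.Perm (Fin 3) × (F ≃+* F)) : MulAut ↥(chevD4.group F) :=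
  Classical.choose (exists_std b 1 (leafPerm x.1) (leafPerm_sym x.1) x.2)

theorem lamFun_spec (x : Equiv.Perm (Fin 3) × (F ≃+* F)) :
    IsStd b.hA (lamFun b x) 1 (leafPerm x.1) x.2 :=
  Classical.choose_spec (exists_std b 1 (leafPerm x.1) (leafPerm_sym x.1) x.2)

theorem mulPar_one (π : Equiv.Perm (Fin chevD4.rank)) (σ : F ≃+* F) : mulPar 1 1 π σ = 1 := by
  funext j
  simp [mulPar]

/-- graph and field automorphisms: a homomorphism into `Aut` -/
noncomputable def lamHom : Equiv.Perm (Fin 3) × (F ≃+* F) →* MulAut ↥(chevD4.group F) :=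
  MonoidHom.mk' (lamFun b) (by
    intro x y
    have h1 := isStd_mul b.hA (lamFun_spec b x) (lamFun_spec b y)
    rw [mulPar_one, ← map_mul] at h1
    exact b.isStd_unique (lamFun_spec b (x * y)) h1)

theorem lamHom_spec (x : Equiv.Perm (Fin 3) × (F ≃+* F)) :
    IsStd b.hA (lamHom b x) 1 (leafPerm x.1) x.2 := lamFun_spec b x

/-- into `Out` -/
noncomputable def lamOut : Equiv.Perm (Fin 3) × (F ≃+* F) →* Cfsg.Out ↥(chevD4.group F) :=
  (QuotientGroup.mk' (Cfsg.Inn ↥(chevD4.group F))).comp (lamHom b)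

theorem lamOut_injective : Function.Injective (lamOut b) := by
  rw [injective_iff_map_eq_one]
  intro x hx
  have h1 : lamHom b x ∈ Cfsg.Inn ↥(chevD4.group F) := (QuotientGroup.eq_one_iff _).1 hx
  obtain ⟨z, hz⟩ := h1
  have h2 := b.isStd_fiber (rank_pos_of_mem hD4) (simple_inj_of_mem hD4) (isStd_one b.hA)
    (lamHom_spec b x) ((isStd_one b.hA).posPres hD4) ((lamHom_spec b x).posPres hD4) (x := z)
    (by
      intro y
      rw [← hz]
      rfl)
  obtain ⟨-, h3, h4, -⟩ := h2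
  have h5 : x.1 = 1 := leafPerm_injective (by rw [h3, map_one])
  exact Prod.ext h5 h4

end lam

end Cfsg.Agent.Lib.Helper49
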