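import Cfsg.Agent.Lib.Helper49.D4Out1

set_option autoImplicit false
set_option maxRecDepth 1000000

/-! `Out(D₄(2^f)) ≅ Sym(3) × C_f`. -/

namespace Cfsg.Agent.Lib.Helper49

open Cfsg.Lie Matrix Cfsg.Agent.Lib.Helper23

variable {F : Type*} [Field F] [Fintype F]

theorem ringAut_equiv_zmod {p f : ℕ} [Fact p.Prime] (hF : Fintype.card F = p ^ f) :
    Nonempty ((F ≃+* F) ≃* Multiplicative (ZMod f)) := by
  obtain ⟨φ, -, -, hgen, hcard⟩ := exists_frob hF
  have : IsCyclic (F ≃+* F) := ⟨φ, fun σ => by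
    obtain ⟨k, hk⟩ := hgen σ
    exact ⟨k, by rw [hk]; simp⟩⟩
  exact ⟨mulEquivOfCyclicCardEq (by
    rw [hcard, Nat.card_congr (Multiplicative.toAdd : Multiplicative (ZMod f) ≃ ZMod f),
      Nat.card_zmod])⟩

theorem card_out_D4 (p f : ℕ) [Fact p.Prime] (hF : Fintype.card F = p ^ f) :
    Nat.card (Cfsg.Out ↥(chevD4.group F)) = ((p ^ f - 1).gcd 2 * (p ^ f - 1).gcd 2) * 6 * f := by
  have : CharP F p := charP_of_card_eq_prime_pow hF
  have b := bundle_of_mem F hD4
  have h1 := Cfsg.Agent.Lib.Helper22.hcardD4 b.hA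
  rw [Fin.prod_univ_four, hF] at h1
  simp only [Cfsg.Agent.Lib.Helper22.snfDD4, Matrix.cons_val_zero, Matrix.cons_val_one,
    Matrix.cons_val, Nat.gcd_one_right, one_mul] at h1
  exact card_out_eq p f hF hD4 h1 (card_adm_D4 F)

theorem out_D4_char_two {f : ℕ} (hF : Fintype.card F = 2 ^ f) :
    Nonempty (Cfsg.Out ↥(chevD4.group F) ≃* Equiv.Perm (Fin 3) × Multiplicative (ZMod f)) := by
  have : Fact (Nat.Prime 2) := ⟨Nat.prime_two⟩
  have b := bundle_of_mem F hD4
  have hf : f ≠ 0 := by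
    rintro rfl
    have := Fintype.one_lt_card (α := F)
    omega
  have hcard := card_out_D4 2 f hF
  have hg : (2 ^ f - 1).gcd 2 = 1 := by
    have h1 : (2 ^ f - 1) % 2 = 1 := by
      obtain ⟨k, rfl⟩ : ∃ k, f = k + 1 := ⟨f - 1, by omega⟩
      have : 0 < 2 ^ k := by positivity
      rw [pow_succ]
      omega
    exact Nat.coprime_two_right.2 (Nat.odd_iff.2 h1)
  rw [hg] at hcard
  obtain ⟨-, -, -, -, hA⟩ := exists_frob hF
  have : Finite (Cfsg.Out ↥(chevD4.group F)) := Nat.finite_of_card_ne_zero (by rw [hcard]; omega)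
  have hbij : Function.Bijective (lamOut b) := by
    apply (lamOut_injective b).bijective_of_nat_card_le
    rw [hcard, Nat.card_prod, hA, Nat.card_eq_fintype_card, Fintype.card_perm, Fintype.card_fin]
    simp [Nat.factorial]
  obtain ⟨e⟩ := ringAut_equiv_zmod hF
  exact ⟨(MulEquiv.ofBijective (lamOut b) hbij).symm.trans
    (MulEquiv.prodCongr (MulEquiv.refl _) e)⟩

end Cfsg.Agent.Lib.Helper49
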