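import Cfsg.Agent.Lib.Helper22.HCardD4
import Cfsg.Agent.Lib.Helper23.ChevH

set_option autoImplicit false
set_option maxRecDepth 1000000

/-! The characters of the torus `H` of `D₄(F)` on the fundamental roots. -/

namespace Cfsg.Agent.Lib.Helper49

open Cfsg.Lie Matrix Cfsg.Agent.Lib.Helper23 Cfsg.Agent.Lib.Helper22

variable {F : Type*} [Field F]

/-- the family `κ` is the restriction to the fundamental roots of the character of an element of `H` -/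
def InK (hA : AddFact chevD4 F) (κ : Fin chevD4.rank → Fˣ) : Prop :=
  ∃ (h : GL chevD4.Idx F) (χ : ℕ → F), h ∈ chevD4.diagonalSubgroup F ∧ hA.IsTor h χ ∧
    ∀ j, (κ j : F) = χ (chevD4.simple j)

theorem cartanD4 : Matrix.of (fun i j : Fin 4 => wtZ tbD4 i (chevD4.simple j)) =
    !![2,-1,0,0; -1,2,-1,-1; 0,-1,2,0; 0,-1,0,2] := by
  decide +kernel

theorem isTor_chi (hA : AddFact chevD4 F) {h : GL chevD4.Idx F} {χ : ℕ → F} (hχ : hA.IsTor h χ)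
    (t : Fin tbD4.l → Fˣ) (e : PsiH chevD4 tbD4 F tbD4.l t = h) (s : ℕ) (hs : s < chevD4.nroots) :
    χ s = (chiU tbD4 t s : F) := by
  have h1 := hχ.2.1
  rw [← e, coe_PsiH, diagW_eq_chiW] at h1
  have h2 := congrFun (congrFun h1 (Sum.inr ⟨s, hs⟩)) (Sum.inr ⟨s, hs⟩)
  rw [dg, Matrix.diagonal_apply_eq, Matrix.diagonal_apply_eq, chiW_extU] at h2
  exact h2.symm

theorem simple_lt_D4 : ∀ j : Fin chevD4.rank, chevD4.simple j < chevD4.nroots := by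
  decide +kernel

theorem inK_iff (hA : AddFact chevD4 F) (hT : Torus chevD4 F) (κ : Fin chevD4.rank → Fˣ) :
    InK hA κ ↔ ∃ t : Fin 4 → Fˣ, κ (0 : Fin 4) = t 0 ^ 2 * (t 1)⁻¹ ∧
      κ (1 : Fin 4) = (t 0)⁻¹ * t 1 ^ 2 * (t 2)⁻¹ * (t 3)⁻¹ ∧ κ (2 : Fin 4) = (t 1)⁻¹ * t 2 ^ 2 ∧
      κ (3 : Fin 4) = (t 1)⁻¹ * t 3 ^ 2 := by
  have hC : ∀ i j : Fin 4, wtZ tbD4 i (chevD4.simple j) =
      (!![2,-1,0,0; -1,2,-1,-1; 0,-1,2,0; 0,-1,0,2] : Matrix (Fin 4) (Fin 4) ℤ) i j := fun i j =>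
    congrFun (congrFun cartanD4 i) j
  have hchi : ∀ t : Fin 4 → Fˣ, chiU tbD4 (l := 4) t (chevD4.simple (0 : Fin 4)) = t 0 ^ 2 * (t 1)⁻¹ ∧
      chiU tbD4 (l := 4) t (chevD4.simple (1 : Fin 4)) = (t 0)⁻¹ * t 1 ^ 2 * (t 2)⁻¹ * (t 3)⁻¹ ∧
      chiU tbD4 (l := 4) t (chevD4.simple (2 : Fin 4)) = (t 1)⁻¹ * t 2 ^ 2 ∧
      chiU tbD4 (l := 4) t (chevD4.simple (3 : Fin 4)) = (t 1)⁻¹ * t 3 ^ 2 := by
    intro t
    unfold chiU
    simp only [Fin.prod_univ_four, hC]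
    refine ⟨?_, ?_, ?_, ?_⟩ <;> simp
  have hr := pvD4.range_PsiH hA hchkD4 hsimD4
  constructor
  · rintro ⟨h, χ, hh, hχ, hκ⟩
    rw [← hr] at hh
    obtain ⟨t, ht⟩ := hh
    have h1 := fun j : Fin 4 => isTor_chi hA hχ t ht (chevD4.simple j) (simple_lt_D4 j)
    obtain ⟨a0, a1, a2, a3⟩ := hchi t
    refine ⟨t, ?_, ?_, ?_, ?_⟩
    · rw [← a0]; exact Units.ext ((hκ _).trans (h1 0))
    · rw [← a1]; exact Units.ext ((hκ _).trans (h1 1))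
    · rw [← a2]; exact Units.ext ((hκ _).trans (h1 2))
    · rw [← a3]; exact Units.ext ((hκ _).trans (h1 3))
  · rintro ⟨t, b0, b1, b2, b3⟩
    have hh : PsiH chevD4 tbD4 F tbD4.l t ∈ chevD4.diagonalSubgroup F := by
      rw [← hr]; exact ⟨t, rfl⟩
    obtain ⟨χ, hχ⟩ := hA.diag_isTor hT hh
    have h1 := fun j : Fin 4 => isTor_chi hA hχ t rfl (chevD4.simple j) (simple_lt_D4 j)
    obtain ⟨a0, a1, a2, a3⟩ := hchi t
    refine ⟨_, χ, hh, hχ, ?_⟩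
    intro j
    rw [h1 j]
    congr 1
    have key : ∀ j : Fin 4, κ j = chiU tbD4 (l := 4) t (chevD4.simple j) := by
      rw [Fin.forall_fin_succ, Fin.forall_fin_succ, Fin.forall_fin_succ, Fin.forall_fin_succ]
      exact ⟨b0.trans a0.symm, b1.trans a1.symm, b2.trans a2.symm, b3.trans a3.symm,
        fun j => j.elim0⟩
    exact key j

/-- products over two leaves of a torus character are squares -/
theorem InK.isSquare {hA : AddFact chevD4 F} (hT : Torus chevD4 F) {κ : Fin chevD4.rank → Fˣ}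
    (h : InK hA κ) : IsSquare (κ (0 : Fin 4) * κ (2 : Fin 4)) ∧
      IsSquare (κ (0 : Fin 4) * κ (3 : Fin 4)) ∧ IsSquare (κ (2 : Fin 4) * κ (3 : Fin 4)) := by
  obtain ⟨t, b0, -, b2, b3⟩ := (inK_iff hA hT κ).1 h
  rw [b0, b2, b3]
  refine ⟨⟨t 0 * (t 1)⁻¹ * t 2, ?_⟩, ⟨t 0 * (t 1)⁻¹ * t 3, ?_⟩, ⟨(t 1)⁻¹ * t 2 * t 3, ?_⟩⟩ <;>
  · apply Units.ext
    push_cast
    have := (t 1).ne_zero
    field_simp

/-- families of squares are torus characters -/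
theorem inK_of_sq (hA : AddFact chevD4 F) (hT : Torus chevD4 F) (s : Fin chevD4.rank → Fˣ) :
    InK hA (fun j => s j ^ 2) := by
  rw [inK_iff hA hT]
  have key : ∀ s : Fin 4 → Fˣ, ∃ t : Fin 4 → Fˣ, s 0 ^ 2 = t 0 ^ 2 * (t 1)⁻¹ ∧
      s 1 ^ 2 = (t 0)⁻¹ * t 1 ^ 2 * (t 2)⁻¹ * (t 3)⁻¹ ∧ s 2 ^ 2 = (t 1)⁻¹ * t 2 ^ 2 ∧
      s 3 ^ 2 = (t 1)⁻¹ * t 3 ^ 2 := by
    intro s
    refine ⟨![s 0 ^ 2 * s 1 ^ 2 * s 2 * s 3, s 0 ^ 2 * s 1 ^ 4 * s 2 ^ 2 * s 3 ^ 2,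
      s 0 * s 1 ^ 2 * s 2 ^ 2 * s 3, s 0 * s 1 ^ 2 * s 2 * s 3 ^ 2], ?_, ?_, ?_, ?_⟩ <;>
    · apply Units.ext
      simp only [Matrix.cons_val_zero, Matrix.cons_val_one, Matrix.cons_val]
      push_cast
      have := (s 0).ne_zero
      have := (s 1).ne_zero
      have := (s 2).ne_zero
      have := (s 3).ne_zero
      field_simp
  exact key s

end Cfsg.Agent.Lib.Helper49
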