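import Cfsg.Agent.Lib.Helper49.D4Out2
import Cfsg.Agent.Lib.Helper49.D4Tor
import Cfsg.Agent.Lib.Helper49.D4Abs

set_option autoImplicit false
set_option maxRecDepth 1000000

/-! `Out(D₄(q)) ≅ Sym(4) × C_f` for odd `q = p^f`. -/

namespace Cfsg.Agent.Lib.Helper49

open Cfsg.Lie Matrix Cfsg.Agent.Lib.Helper23

variable {F : Type*} [Field F]

theorem mk_conj_mul {G : Type*} [Group G] (x : G) (θ : MulAut G) :
    (QuotientGroup.mk (MulAut.conj x * θ) : Cfsg.Out G) = QuotientGroup.mk θ := by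
  rw [QuotientGroup.mk_mul,
    (QuotientGroup.eq_one_iff (N := Cfsg.Inn G) (MulAut.conj x)).2 ⟨x, rfl⟩, one_mul]

theorem perm_apply_inv {α : Type*} (f : Equiv.Perm α) (x : α) : f (f⁻¹ x) = x :=
  f.apply_symm_apply x

theorem isStd_inv (hA : AddFact chevD4 F) {θ : MulAut ↥(chevD4.group F)}
    {c : Fin chevD4.rank → Fˣ} {π : Equiv.Perm (Fin chevD4.rank)} (h : IsStd hA θ c π 1) :
    IsStd hA θ⁻¹ (fun i => (c (π i))⁻¹) π⁻¹ 1 := by
  rw [isStd_D4_iff] at *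
  intro j t
  constructor
  · have h1 := (h (π⁻¹ j) (((c j)⁻¹ : Fˣ) * t)).1
    rw [perm_apply_inv] at h1
    apply θ.injective
    rw [MulAut.apply_inv_self]
    simp only [perm_apply_inv]
    rw [show ((1 : F ≃+* F) t) = t from rfl, h1,
      show ((1 : F ≃+* F) (((c j)⁻¹ : Fˣ) * t)) = (((c j)⁻¹ : Fˣ) * t : F) from rfl,
      Units.mul_inv_cancel_left]
  · have h1 := (h (π⁻¹ j) ((c j : Fˣ) * t)).2
    rw [perm_apply_inv] at h1
    apply θ.injective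
    rw [MulAut.apply_inv_self]
    simp only [perm_apply_inv, inv_inv]
    rw [show ((1 : F ≃+* F) t) = t from rfl, h1,
      show ((1 : F ≃+* F) ((c j : Fˣ) * t)) = ((c j : Fˣ) * t : F) from rfl,
      Units.inv_mul_cancel_left]

section gen

variable [Finite F] (b : Bundle chevD4 F)

theorem std_of_cls_eq {θ θ' : MulAut ↥(chevD4.group F)} {c c' : Fin chevD4.rank → Fˣ}
    {π π' : Equiv.Perm (Fin chevD4.rank)} {σ σ' : F ≃+* F} (h : IsStd b.hA θ c π σ)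
    (h' : IsStd b.hA θ' c' π' σ')
    (e : (QuotientGroup.mk θ : Cfsg.Out ↥(chevD4.group F)) = QuotientGroup.mk θ') :
    π' = π ∧ σ' = σ ∧ InK b.hA (fun j => c' j * (c j)⁻¹) := by
  obtain ⟨z, hz⟩ := QuotientGroup.eq.1 e
  have hx : ∀ y, θ' y = θ z * θ y * (θ z)⁻¹ := by
    intro y
    have e1 : θ' = θ * MulAut.conj z := by rw [hz]; group
    have e2 := DFunLike.congr_fun e1 y
    rw [MulAut.mul_apply, MulAut.conj_apply, map_mul, map_mul, map_inv] at e2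
    exact e2
  obtain ⟨hxH, h1, h2, h3⟩ := b.isStd_fiber (rank_pos_of_mem hD4) (simple_inj_of_mem hD4) h h'
    (h.posPres hD4) (h'.posPres hD4) hx
  obtain ⟨χ, hχ⟩ := b.hA.diag_isTor b.hT hxH
  refine ⟨h1, h2, _, χ, hxH, hχ, fun j => ?_⟩
  rw [Units.val_mul, h3 χ hχ j, Units.val_inv_eq_inv_val, mul_assoc,
    mul_inv_cancel₀ (Units.ne_zero _), mul_one]

theorem cls_eq_of_inK {θ θ' : MulAut ↥(chevD4.group F)} {c c' : Fin chevD4.rank → Fˣ}
    {π : Equiv.Perm (Fin chevD4.rank)} {σ : F ≃+* F} (h : IsStd b.hA θ c π σ)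
    (h' : IsStd b.hA θ' c' π σ) (hk : InK b.hA (fun j => c' j * (c j)⁻¹)) :
    (QuotientGroup.mk θ : Cfsg.Out ↥(chevD4.group F)) = QuotientGroup.mk θ' := by
  obtain ⟨x, χ, hx, hχ, hκ⟩ := hk
  have h5 := b.isStd_conj_diag h (x := ⟨x, b.hA.diag_le_group hx⟩) hx hχ (c' := c') (fun j => by
    rw [← hκ j, Units.val_mul, Units.val_inv_eq_inv_val, mul_assoc,
      inv_mul_cancel₀ (Units.ne_zero _), mul_one])
  have h6 := b.isStd_unique h5 h'
  rw [← h6]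
  exact (mk_conj_mul (⟨x, b.hA.diag_le_group hx⟩ : ↥(chevD4.group F)) θ).symm

theorem exists_std_rep (o : Cfsg.Out ↥(chevD4.group F)) :
    ∃ (θ : MulAut ↥(chevD4.group F)) (c : Fin chevD4.rank → Fˣ)
      (π : Equiv.Perm (Fin chevD4.rank)) (σ : F ≃+* F), chevD4.IsDiagramSymmetry π ∧
      IsStd b.hA θ c π σ ∧ (QuotientGroup.mk θ : Cfsg.Out ↥(chevD4.group F)) = o := by
  obtain ⟨θ, rfl⟩ := QuotientGroup.mk_surjective o
  obtain ⟨x, d, g, f, ⟨χ, hχ, hd⟩, ⟨π, hsym, hg⟩, ⟨σ, hf⟩, hx⟩ := steinberg_all hD4 θ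
  have h1 := isStd_comp hD4 b hχ hd (g := g) (π := π) hg hf
  refine ⟨_, _, π, σ, hsym, h1, ?_⟩
  have e2 : θ = MulAut.conj x * (f.trans (g.trans d) : MulAut ↥(chevD4.group F)) :=
    MulEquiv.ext hx
  rw [e2, mk_conj_mul]

/-- the classes of the standard automorphisms without field part -/
def WSub : Subgroup (Cfsg.Out ↥(chevD4.group F)) where
  carrier := {o | ∃ (θ : MulAut ↥(chevD4.group F)) (c : Fin chevD4.rank → Fˣ)
    (π : Equiv.Perm (Fin chevD4.rank)), IsStd b.hA θ c π 1 ∧ QuotientGroup.mk θ = o}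
  mul_mem' := by
    rintro _ _ ⟨θ, c, π, h, rfl⟩ ⟨θ', c', π', h', rfl⟩
    have h1 := isStd_mul b.hA h h'
    rw [one_mul] at h1
    exact ⟨θ * θ', _, _, h1, rfl⟩
  one_mem' := ⟨1, 1, 1, isStd_one b.hA, rfl⟩
  inv_mem' := by
    rintro _ ⟨θ, c, π, h, rfl⟩
    exact ⟨θ⁻¹, _, _, isStd_inv b.hA h, rfl⟩

theorem lamHom_field (σ : F ≃+* F) : IsStd b.hA (lamHom b (1, σ)) 1 1 σ := by
  have h := lamHom_spec b (1, σ)
  simp only [map_one] at h
  exact h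

theorem lamHom_graph (ρ : Equiv.Perm (Fin 3)) : IsStd b.hA (lamHom b (ρ, 1)) 1 (leafPerm ρ) 1 :=
  lamHom_spec b (ρ, 1)

theorem mulPar_right_one (c : Fin chevD4.rank → Fˣ) (π : Equiv.Perm (Fin chevD4.rank))
    (σ : F ≃+* F) : mulPar c 1 π σ = c := by
  funext j
  simp [mulPar]

end gen

theorem exists_leaves : ∀ π : Equiv.Perm (Fin 4), π 1 = 1 → π ≠ 1 →
    ∃ a d : Fin 4, a ≠ 1 ∧ d ≠ 1 ∧ a ≠ d ∧ π a ≠ a ∧ d ≠ π a := by
  decide +kernel

theorem InK.isSquare' {hA : AddFact chevD4 F} (hT : Torus chevD4 F) {κ : Fin chevD4.rank → Fˣ}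
    (h : InK hA κ) (a d : Fin 4) (ha : a ≠ 1) (hd : d ≠ 1) (had : a ≠ d) :
    IsSquare (κ a * κ d) := by
  obtain ⟨h1, h2, h3⟩ := h.isSquare hT
  fin_cases a <;> fin_cases d <;> first
    | exact absurd rfl ha
    | exact absurd rfl hd
    | exact absurd rfl had
    | exact h1
    | exact h2
    | exact h3
    | (rw [mul_comm]; first | exact h1 | exact h2 | exact h3)

end Cfsg.Agent.Lib.Helper49
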