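import Cfsg.Agent.Lib.Helper49.D4Out3

set_option autoImplicit false
set_option maxRecDepth 1000000

/-! `Out(D₄(q)) ≅ Sym(4) × C_f` for odd `q = p^f`: the main argument. -/

namespace Cfsg.Agent.Lib.Helper49

open Cfsg.Lie Matrix Cfsg.Agent.Lib.Helper23

variable {F : Type*} [Field F] [Fintype F]

theorem out_D4_split {p f : ℕ} [Fact p.Prime] (hF : Fintype.card F = p ^ f) (hp : p ≠ 2)
    (b : Bundle chevD4 F) :
    Nonempty (Cfsg.Out ↥(chevD4.group F) ≃* ↥(WSub b) × Multiplicative (ZMod f)) := by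
  obtain ⟨φ, hφ, hord, hgen, -⟩ := exists_frob hF
  have hzp : ∀ k : ℤ, lamOut b (1, φ) ^ k =
      (QuotientGroup.mk (lamHom b (1, φ ^ k)) : Cfsg.Out ↥(chevD4.group F)) := by
    intro k
    rw [← map_zpow]
    have : ((1, φ) : Equiv.Perm (Fin 3) × (F ≃+* F)) ^ k = (1, φ ^ k) := by
      ext1
      · simp
      · simp
    rw [this]
    rfl
  apply prod_of_subgroup_complement (WSub b) (lamOut b (1, φ)) f
  · rw [← map_pow, Prod.pow_mk, one_pow, ← hord, pow_orderOf_eq_one]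
    exact map_one _
  · rintro _ ⟨θ, c, π, h, rfl⟩
    have h1 := isStd_mul b.hA (lamHom_field b φ) h
    have h2 := isStd_mul b.hA h (lamHom_field b φ)
    rw [one_mul, mul_one] at h1 h2
    rw [mulPar_right_one] at h2
    show (QuotientGroup.mk (lamHom b (1, φ) * θ) : Cfsg.Out ↥(chevD4.group F)) =
      QuotientGroup.mk (θ * lamHom b (1, φ))
    symm
    apply cls_eq_of_inK b h2 h1
    obtain ⟨m, hm⟩ : ∃ m, p = 2 * m + 1 := by
      rcases (Fact.out : p.Prime).eq_two_or_odd' with h | h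
      · exact absurd h hp
      · exact h
    have e : (fun j => mulPar 1 c 1 φ j * (c j)⁻¹) = fun j => (c j ^ m) ^ 2 := by
      funext j
      have e1 : mulPar 1 c 1 φ j = c j ^ p := by
        apply Units.ext
        simp only [mulPar, Pi.one_apply, one_mul, inv_one, Equiv.Perm.coe_one, id_eq,
          Units.coe_map, Units.val_pow_eq_pow_val]
        exact hφ _
      rw [e1, hm, pow_succ, mul_inv_cancel_right, ← pow_mul, mul_comm]
    rw [e]
    exact inK_of_sq b.hA b.hT _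
  · intro k hk
    rw [hzp] at hk
    obtain ⟨θ, c, π, h, e⟩ := hk
    obtain ⟨-, h2, -⟩ := std_of_cls_eq b h (lamHom_field b (φ ^ k)) e
    rw [← hord]
    exact orderOf_dvd_iff_zpow_eq_one.2 h2
  · intro o
    obtain ⟨θ, c, π, σ, hsym, h, rfl⟩ := exists_std_rep b o
    obtain ⟨k, rfl⟩ := hgen σ
    obtain ⟨θ₁, h1⟩ := exists_std b c π hsym 1
    refine ⟨QuotientGroup.mk θ₁, ⟨θ₁, c, π, h1, rfl⟩, k, ?_⟩
    rw [hzp]
    have h2 := isStd_mul b.hA h1 (lamHom_field b (φ ^ (k : ℤ)))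
    rw [mulPar_right_one, mul_one, one_mul, zpow_natCast] at h2
    rw [b.isStd_unique h h2]
    rfl

theorem card_WSub {p f : ℕ} [Fact p.Prime] (hF : Fintype.card F = p ^ f) (hp : p ≠ 2)
    (b : Bundle chevD4 F) : Nat.card ↥(WSub b) = 24 := by
  obtain ⟨e⟩ := out_D4_split hF hp b
  have h1 := Nat.card_congr e.toEquiv
  have hf : f ≠ 0 := by
    rintro rfl
    have := Fintype.one_lt_card (α := F)
    rw [pow_zero] at hF
    omega
  have hg : (p ^ f - 1).gcd 2 = 2 := by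
    have h2 : Odd (p ^ f) := ((Fact.out : p.Prime).odd_of_ne_two hp).pow
    obtain ⟨k, hk⟩ := h2
    rw [hk, Nat.add_sub_cancel]
    simp
  rw [card_out_D4 p f hF, hg, Nat.card_prod,
    Nat.card_congr (Multiplicative.toAdd : Multiplicative (ZMod f) ≃ ZMod f), Nat.card_zmod] at h1
  have h3 : 24 * f = Nat.card ↥(WSub b) * f := by rw [← h1]
  exact (Nat.eq_of_mul_eq_mul_right (Nat.pos_of_ne_zero hf) h3).symm

/-- `Sym(3)` inside `WSub` -/
noncomputable def jW (b : Bundle chevD4 F) : Equiv.Perm (Fin 3) →* ↥(WSub b) :=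
  ((lamOut b).comp (MonoidHom.inl _ _)).codRestrict (WSub b)
    (fun ρ => ⟨lamHom b (ρ, 1), 1, leafPerm ρ, lamHom_graph b ρ, rfl⟩)

theorem jW_injective (b : Bundle chevD4 F) : Function.Injective (jW b) := by
  intro ρ ρ' e
  have h1 : lamOut b (ρ, 1) = lamOut b (ρ', 1) := congrArg Subtype.val e
  exact congrArg Prod.fst (lamOut_injective b h1)

theorem exists_leaves' (π : Equiv.Perm (Fin chevD4.rank)) (h1 : π ctr = ctr) (h : π ≠ 1) :
    ∃ a d : Fin chevD4.rank, a ≠ ctr ∧ d ≠ ctr ∧ a ≠ d ∧ π a ≠ a ∧ d ≠ π a :=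
  exists_leaves π h1 h

omit [Fintype F] in
theorem InK.isSquare'' {hA : AddFact chevD4 F} (hT : Torus chevD4 F) {κ : Fin chevD4.rank → Fˣ}
    (h : InK hA κ) (a d : Fin chevD4.rank) (ha : a ≠ ctr) (hd : d ≠ ctr) (had : a ≠ d) :
    IsSquare (κ a * κ d) :=
  h.isSquare' hT a d ha hd had

theorem jW_core_free (hp : ringChar F ≠ 2) (b : Bundle chevD4 F) (ρ : Equiv.Perm (Fin 3))
    (hρ : ρ ≠ 1) : ∃ v : ↥(WSub b), ∀ ρ', v * jW b ρ * v⁻¹ ≠ jW b ρ' := by
  obtain ⟨ν0, hν0⟩ := FiniteField.exists_nonsquare hp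
  have hne : ν0 ≠ 0 := by
    rintro rfl
    exact hν0 IsSquare.zero
  set ν : Fˣ := Units.mk0 ν0 hne with hνd
  have hν : ¬ IsSquare ν := by
    rintro ⟨r, hr⟩
    exact hν0 ⟨r, by
      have := congrArg Units.val hr
      rw [Units.val_mul] at this
      exact this⟩
  have hπ1 : leafPerm ρ ≠ 1 := fun h => hρ (leafPerm_injective (by rw [h, map_one]))
  obtain ⟨a, d, ha, hd, had, hpa, hdp⟩ := exists_leaves' (leafPerm ρ) (leafPerm_ctr ρ) hπ1
  set c : Fin chevD4.rank → Fˣ := Function.update 1 a ν with hcd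
  obtain ⟨θc, hc⟩ := exists_std b c 1 (sym_of_fix 1 rfl) 1
  refine ⟨⟨QuotientGroup.mk θc, θc, c, 1, hc, rfl⟩, fun ρ' e => ?_⟩
  have e1 : (QuotientGroup.mk (θc * lamHom b (ρ, 1)) : Cfsg.Out ↥(chevD4.group F)) =
      QuotientGroup.mk (lamHom b (ρ', 1) * θc) :=
    congrArg Subtype.val (mul_inv_eq_iff_eq_mul.1 e)
  have h1 := isStd_mul b.hA hc (lamHom_graph b ρ)
  have h2 := isStd_mul b.hA (lamHom_graph b ρ') hc
  rw [mulPar_right_one, one_mul, one_mul] at h1
  rw [mul_one, mul_one] at h2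
  obtain ⟨e3, -, hk⟩ := std_of_cls_eq b h1 h2 e1
  have hsq := hk.isSquare'' b.hT a d ha hd had
  have hm : ∀ j, mulPar 1 c (leafPerm ρ') 1 j = c ((leafPerm ρ)⁻¹ j) := by
    intro j
    rw [e3]
    apply Units.ext
    simp only [mulPar, Pi.one_apply, one_mul, Units.coe_map]
    rfl
  have c1 : c ((leafPerm ρ)⁻¹ a) = 1 := by
    rw [hcd, Function.update_of_ne]
    · rfl
    · intro h
      apply hpa
      rw [← h, perm_apply_inv, h]
  have c2 : c ((leafPerm ρ)⁻¹ d) = 1 := by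
    rw [hcd, Function.update_of_ne]
    · rfl
    · intro h
      apply hdp
      rw [← h, perm_apply_inv]
  have c3 : c a = ν := by rw [hcd, Function.update_self]
  have c4 : c d = 1 := by
    rw [hcd, Function.update_of_ne had.symm]
    rfl
  simp only [hm, c1, c2, c3, c4, one_mul, inv_one, mul_one] at hsq
  exact hν (by simpa using hsq)

theorem out_D4_odd {p f : ℕ} [Fact p.Prime] (hF : Fintype.card F = p ^ f) (hp : p ≠ 2) :
    Nonempty (Cfsg.Out ↥(chevD4.group F) ≃* Equiv.Perm (Fin 4) × Multiplicative (ZMod f)) := by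
  have b := bundle_of_mem F hD4
  have : CharP F p := charP_of_card_eq_prime_pow hF
  have hch : ringChar F ≠ 2 := by rwa [ringChar.eq F p]
  obtain ⟨e⟩ := out_D4_split hF hp b
  obtain ⟨e2⟩ := perm_four_recog (card_WSub hF hp b) (jW b) (jW_injective b) (jW_core_free hch b)
  exact ⟨e.trans (MulEquiv.prodCongr e2 (MulEquiv.refl _))⟩

end Cfsg.Agent.Lib.Helper49
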