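import Mathlib
import Cfsg.Agent.Lib.Helper95.OmGen

set_option autoImplicit false

namespace Cfsg.Agent.Lib.Helper49

open QuadraticMap Module Cfsg.Agent.Lib.Helper95

section DecEng

variable {F V : Type*} [Field F] [AddCommGroup V] [Module F V] (Q : QuadraticForm F V)

/-- Hypotheses of the reflection engine, with a weak richness condition. -/
structure Eng1 (M : Subgroup (OG Q)) (S : V → Prop) : Prop where
  ns : ∀ a, S a → Q a ≠ 0
  pair : ∀ a b, S a → S b → Q a = Q b → refl Q a * refl Q b ∈ M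
  refl_closed : ∀ a b, S a → S b → S (reflLin Q a b)
  smul_closed : ∀ (c : F) a, c ≠ 0 → S a → S (c • a)
  rich1 : ∀ z, Q z ≠ 0 → ∀ δ ε : F, δ ≠ 0 → ε ≠ 0 →
    ∃ c a, S c ∧ S a ∧ Q c = δ ∧ Q a = ε ∧ polar Q c z = 0 ∧ polar Q c a = 0

variable {Q} {M : Subgroup (OG Q)} {S : V → Prop}

theorem Eng1.CC_of_S (E : Eng1 Q M S) {a : V} (ha : S a) : CC Q M S a :=
  ⟨E.ns a ha, a, ha, rfl, by rw [refl_mul_self]; exact M.one_mem⟩

theorem Eng1.CC_pair (E : Eng1 Q M S) {x y : V} (hx : CC Q M S x) (hy : CC Q M S y)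
    (h : Q x = Q y) : refl Q x * refl Q y ∈ M := by
  obtain ⟨-, a, ha, hax, hxa⟩ := hx
  obtain ⟨-, b, hb, hby, hyb⟩ := hy
  have h1 := E.pair a b ha hb (by rw [hax, hby, h])
  have h2 : refl Q x * refl Q y
      = (refl Q x * refl Q a) * (refl Q a * refl Q b) * (refl Q y * refl Q b)⁻¹ := by
    rw [mul_inv_rev, refl_inv, refl_inv]
    have e1 := refl_mul_self Q a
    have e2 := refl_mul_self Q b
    calc refl Q x * refl Q y = refl Q x * (refl Q a * refl Q a) * (refl Q b * refl Q b) * refl Q y := by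
          rw [e1, e2]; group
      _ = _ := by group
  rw [h2]
  exact M.mul_mem (M.mul_mem hxa h1) (M.inv_mem hyb)

theorem Eng1.CC_smul (E : Eng1 Q M S) {x : V} (hx : CC Q M S x) {c : F} (hc : c ≠ 0) :
    CC Q M S (c • x) := by
  obtain ⟨h0, a, ha, hax, hxa⟩ := hx
  refine ⟨?_, c • a, E.smul_closed c a hc ha, ?_, ?_⟩
  · rw [QuadraticMap.map_smul]; exact mul_ne_zero (mul_ne_zero hc hc) h0
  · rw [QuadraticMap.map_smul, QuadraticMap.map_smul, hax]
  · rw [refl_smul Q _ hc, refl_smul Q _ hc]; exact hxa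

theorem Eng1.CC_S_refl (E : Eng1 Q M S) {a x : V} (ha : S a) (hx : CC Q M S x) :
    CC Q M S (reflLin Q a x) := by
  obtain ⟨h0, b, hb, hbx, hxb⟩ := hx
  obtain ⟨a₁, -, ha₁, -, hq, -, hp, -⟩ := E.rich1 x h0 (Q a) (Q a) (E.ns a ha) (E.ns a ha)
  have hh : refl Q a * refl Q a₁ ∈ M := E.pair a a₁ ha ha₁ hq.symm
  set k : OG Q := refl Q a * refl Q a₁ with hk
  have hkx : k.1 x = reflLin Q a x := by
    simp only [hk, Subgroup.coe_mul, LinearEquiv.mul_apply, refl_coe_apply]
    rw [reflLin_of_polar_eq_zero Q a₁ x hp]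
  have hkb : k.1 b = reflLin Q a (reflLin Q a₁ b) := by
    simp only [hk, Subgroup.coe_mul, LinearEquiv.mul_apply, refl_coe_apply]
  refine ⟨by rw [Q_reflLin]; exact h0, k.1 b, ?_, ?_, ?_⟩
  · rw [hkb]; exact E.refl_closed _ _ ha (E.refl_closed _ _ ha₁ hb)
  · rw [OG_apply, Q_reflLin, hbx]
  · rw [← hkx, refl_map, refl_map]
    have : k * refl Q x * k⁻¹ * (k * refl Q b * k⁻¹) = k * (refl Q x * refl Q b) * k⁻¹ := by group
    rw [this]
    exact M.mul_mem (M.mul_mem hh hxb) (M.inv_mem hh)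

theorem Eng1.CC_refl (E : Eng1 Q M S) {x z : V} (hx : CC Q M S x) (hz : CC Q M S z) :
    CC Q M S (reflLin Q x z) := by
  have hz0 := hz.1
  obtain ⟨c, a, hc, ha, hcq, haz, hcz, hca⟩ := E.rich1 z hz0 (Q x) (Q z) hx.1 hz0
  have hza : refl Q z * refl Q a ∈ M := E.CC_pair hz (E.CC_of_S ha) haz.symm
  have hm : refl Q x * refl Q c ∈ M := E.CC_pair hx (E.CC_of_S hc) hcq.symm
  set m : OG Q := refl Q x * refl Q c with hmdef
  have hmz : m.1 z = reflLin Q x z := by
    simp only [hmdef, Subgroup.coe_mul, LinearEquiv.mul_apply, refl_coe_apply]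
    rw [reflLin_of_polar_eq_zero Q c z hcz]
  refine ⟨by rw [Q_reflLin]; exact hz0, a, ha, by rw [Q_reflLin, haz], ?_⟩
  rw [← hmz, refl_map]
  have h1 : refl Q c * refl Q (reflLin Q a x) ∈ M :=
    E.CC_pair (E.CC_of_S hc) (E.CC_S_refl ha hx) (by rw [Q_reflLin, hcq])
  have hcomm : refl Q a * refl Q c = refl Q c * refl Q a := by
    have : refl Q c = refl Q ((refl Q a).1 c) := by
      rw [refl_coe_apply, reflLin_of_polar_eq_zero Q a c (by rw [polar_comm]; exact hca)]
    have h2 : refl Q c = refl Q a * refl Q c * (refl Q a)⁻¹ := by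
      rw [refl_conj]; exact this
    calc refl Q a * refl Q c = (refl Q a * refl Q c * (refl Q a)⁻¹) * refl Q a := by group
      _ = refl Q c * refl Q a := by rw [← h2]
  have h2 : refl Q (reflLin Q a x) = refl Q a * refl Q x * refl Q a := by
    have := refl_map (refl Q a) x
    rw [refl_coe_apply, refl_inv] at this
    exact this
  have h3 : m * refl Q z * m⁻¹ * refl Q a
      = m * (refl Q z * refl Q a) * (refl Q c * refl Q (reflLin Q a x)) := by
    rw [h2, hmdef, mul_inv_rev, refl_inv, refl_inv]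
    have e1 := refl_mul_self Q a
    calc refl Q x * refl Q c * refl Q z * (refl Q c * refl Q x) * refl Q a
        = refl Q x * refl Q c * refl Q z * (refl Q a * refl Q a) * refl Q c * refl Q x * refl Q a := by
          rw [e1]; group
      _ = refl Q x * refl Q c * refl Q z * refl Q a * (refl Q a * refl Q c) * refl Q x * refl Q a := by
          group
      _ = _ := by rw [hcomm]; group
  rw [h3]
  exact M.mul_mem (M.mul_mem hm hza) h1

/-- closure under elements of `M` preserving `S` -/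
theorem CC_map_of_S {g : OG Q} (hg : g ∈ M) (hS : ∀ a, S a → S (g.1 a)) {x : V}
    (hx : CC Q M S x) : CC Q M S (g.1 x) := by
  obtain ⟨h0, a, ha, hax, hxa⟩ := hx
  refine ⟨by rw [OG_apply]; exact h0, g.1 a, hS a ha, by rw [OG_apply, OG_apply, hax], ?_⟩
  rw [refl_map, refl_map]
  have : g * refl Q x * g⁻¹ * (g * refl Q a * g⁻¹) = g * (refl Q x * refl Q a) * g⁻¹ := by group
  rw [this]
  exact M.mul_mem (M.mul_mem hg hxa) (M.inv_mem hg)

/-- if `g ∈ M` maps one vector of `S` into `S`, it maps all vectors of `S` of that norm into `CC` -/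
theorem Eng1.CC_map_of_one (E : Eng1 Q M S) {g : OG Q} (hg : g ∈ M) {a : V} (ha : S a)
    (hga : S (g.1 a)) {b : V} (hb : S b) (hab : Q b = Q a) : CC Q M S (g.1 b) := by
  refine ⟨by rw [OG_apply]; exact E.ns b hb, g.1 a, hga, by rw [OG_apply, OG_apply, hab], ?_⟩
  rw [refl_map, refl_map]
  have : g * refl Q b * g⁻¹ * (g * refl Q a * g⁻¹) = g * (refl Q b * refl Q a) * g⁻¹ := by group
  rw [this]
  exact M.mul_mem (M.mul_mem hg (E.pair b a hb ha hab)) (M.inv_mem hg)

theorem Eng1.commutator_le [Fintype F] [FiniteDimensional F V] (E : Eng1 Q M S)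
    (hQ : (polarBilin Q).Nondegenerate) (h : Fintype.card F ≠ 2 ∨ finrank F V ≠ 4)
    (hall : ∀ x, Q x ≠ 0 → CC Q M S x) : commutator (OG Q) ≤ M :=
  commutator_le_of_pairs Q hQ h M fun a b ha hab =>
    E.CC_pair (hall a ha) (hall b (hab ▸ ha)) hab

end DecEng

end Cfsg.Agent.Lib.Helper49
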