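import Mathlib
import Cfsg.Agent.Lib.Helper49.LagrBetween

set_option autoImplicit false

namespace Cfsg.Agent.Lib.Helper49

open QuadraticMap Module
open Cfsg.Agent.Lib.Helper95 (stabGrp omG mem_stabGrp_of_forall)

section

variable {F V : Type*} [Field F] [AddCommGroup V] [Module F V]

/-- the stabiliser of a set of vectors -/
def setStab (X : Set V) : Subgroup (V ≃ₗ[F] V) where
  carrier := {g | ∀ x, x ∈ X ↔ g x ∈ X}
  mul_mem' {a b} ha hb := by
    intro x
    rw [LinearEquiv.mul_apply]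
    exact (hb x).trans (ha _)
  one_mem' := by intro x; simp
  inv_mem' {a} ha := by
    intro x
    have h := ha (a⁻¹ x)
    simpa using h.symm

end

section

variable {F V : Type*} [Field F] [Fintype F] [AddCommGroup V] [Module F V] [FiniteDimensional F V]
  (Q : QuadraticForm F V)

/-- the vectors of norm `c` in the members of a family of subspaces -/
def frameSet {t : ℕ} (D : Fin t → Submodule F V) (c : F) : Set V :=
  {x | Q x = c ∧ ∃ i, x ∈ D i}

variable {Q}

theorem reflLin_sub_mem_frameSet (h2 : (2 : F) ≠ 0) {t : ℕ} {D : Fin t → Submodule F V} {c : F}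
    (hc : c ≠ 0)
    (horth : ∀ i j, i ≠ j → ∀ u ∈ D i, ∀ v ∈ D j, polar Q u v = 0)
    (KP : ∀ i, ∀ x ∈ D i, ∀ y ∈ D i, Q x = c → Q y = c → y = x ∨ y = -x ∨ polar Q x y = 0)
    {i j : Fin t} (hij : i ≠ j) {p q : V} (hp : p ∈ D i) (hq : q ∈ D j) (hQp : Q p = c)
    (hQq : Q q = c) {z : V} (hz : z ∈ frameSet Q D c) : reflLin Q (p - q) z ∈ frameSet Q D c := by
  have hpq : polar Q p q = 0 := horth i j hij p hp q hq
  have hQpq : Q (p - q) = 2 * c := by
    have := Q_sub_smul Q p q 1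
    simp only [one_smul, one_pow, one_mul] at this
    rw [this, hQp, hQq, polar_comm, hpq]; ring
  have h2c : (2 * c : F) ≠ 0 := mul_ne_zero h2 hc
  have hpp : polar Q p p = 2 * c := by rw [polar_self, hQp]; simp
  have hqq : polar Q q q = 2 * c := by rw [polar_self, hQq]; simp
  have hRp : reflLin Q (p - q) p = q := by
    rw [reflLin_apply, hQpq, polar_sub_left, hpp, polar_comm Q q p, hpq, sub_zero,
      inv_mul_cancel₀ h2c, one_smul]
    abel
  have hRq : reflLin Q (p - q) q = p := by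
    rw [reflLin_apply, hQpq, polar_sub_left, hqq, hpq, zero_sub, mul_neg,
      inv_mul_cancel₀ h2c, neg_smul, one_smul]
    abel
  obtain ⟨hQz, l, hl⟩ := hz
  have hfix : polar Q p z = 0 → polar Q q z = 0 → reflLin Q (p - q) z ∈ frameSet Q D c := by
    intro h1 h3
    rw [reflLin_of_polar_eq_zero Q _ _ (by rw [polar_sub_left, h1, h3, sub_zero])]
    exact ⟨hQz, l, hl⟩
  by_cases hli : l = i
  · subst hli
    have hqz : polar Q q z = 0 := horth j l hij.symm q hq z hl
    rcases KP l p hp z hl hQp hQz with h | h | h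
    · rw [h, hRp]; exact ⟨hQq, j, hq⟩
    · rw [h, map_neg, hRp]; exact ⟨by rw [QuadraticMap.map_neg, hQq], j, (D j).neg_mem hq⟩
    · exact hfix h hqz
  · by_cases hlj : l = j
    · subst hlj
      have hpz : polar Q p z = 0 := horth i l hij p hp z hl
      rcases KP l q hq z hl hQq hQz with h | h | h
      · rw [h, hRq]; exact ⟨hQp, i, hp⟩
      · rw [h, map_neg, hRq]; exact ⟨by rw [QuadraticMap.map_neg, hQp], i, (D i).neg_mem hp⟩
      · exact hfix hpz h
    · exact hfix (horth i l (Ne.symm hli) p hp z hl) (horth j l (Ne.symm hlj) q hq z hl)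

/-- if the vectors of norm `c` in the members of an orthogonal decomposition form an orthogonal
frame, the stabiliser of the decomposition in `Ω` lies strictly between ... -/
theorem frame_between (hQ : (polarBilin Q).Nondegenerate) (h2 : (2 : F) ≠ 0) {t : ℕ}
    (D : Fin t → Submodule F V) {c : F} (hc : c ≠ 0)
    (horth : ∀ i j, i ≠ j → ∀ u ∈ D i, ∀ v ∈ D j, polar Q u v = 0)
    (KP : ∀ i, ∀ x ∈ D i, ∀ y ∈ D i, Q x = c → Q y = c → y = x ∨ y = -x ∨ polar Q x y = 0)
    {i₀ i₁ i₂ i₃ : Fin t} (h01 : i₀ ≠ i₁) (h02 : i₀ ≠ i₂) (h03 : i₀ ≠ i₃) (h12 : i₁ ≠ i₂)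
    (h13 : i₁ ≠ i₃) (h23 : i₂ ≠ i₃)
    {x₁ x₂ y₁ w v : V} (hx₁ : x₁ ∈ D i₀) (hx₂ : x₂ ∈ D i₀) (hy₁ : y₁ ∈ D i₁) (hw : w ∈ D i₂)
    (hv : v ∈ D i₃) (hQx₁ : Q x₁ = c) (hQx₂ : Q x₂ = c) (hQy₁ : Q y₁ = c) (hQw : Q w = c)
    (hQv : Q v = c) (hx12 : polar Q x₁ x₂ = 0) :
    (∀ g ∈ omG Q, (∃ σ : Equiv.Perm (Fin t), ∀ i, (D i).map (g : V →ₗ[F] V) = D (σ i)) →
      g ∈ setStab (frameSet Q D c)) ∧
    (∃ g ∈ omG Q, g ∈ setStab (frameSet Q D c) ∧
      ¬ ∃ σ : Equiv.Perm (Fin t), ∀ i, (D i).map (g : V →ₗ[F] V) = D (σ i)) ∧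
    ∃ g ∈ omG Q, g ∉ setStab (frameSet Q D c) := by
  have h2c : (2 * c : F) ≠ 0 := mul_ne_zero h2 hc
  have hdisj : ∀ i j, i ≠ j → ∀ z, z ∈ D i → z ∈ D j → Q z = 0 := by
    intro i j hij z hzi hzj
    have h := horth i j hij z hzi z hzj
    rw [polar_self] at h
    simp only [nsmul_eq_mul, Nat.cast_ofNat] at h
    exact (mul_eq_zero.1 h).resolve_left h2
  have hQsub : ∀ {i j : Fin t}, i ≠ j → ∀ {p q : V}, p ∈ D i → q ∈ D j → Q p = c → Q q = c →
      Q (p - q) = 2 * c := by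
    intro i j hij p q hp hq hQp hQq
    have := Q_sub_smul Q p q 1
    simp only [one_smul, one_pow, one_mul] at this
    rw [this, hQp, hQq, polar_comm, horth i j hij p hp q hq]; ring
  refine ⟨?_, ?_, ?_⟩
  · rintro _ ⟨g, -, rfl⟩ ⟨σ, hσ⟩ x
    change x ∈ frameSet Q D c ↔ g.1 x ∈ frameSet Q D c
    constructor
    · rintro ⟨hQx, i, hi⟩
      refine ⟨by rw [OG_apply]; exact hQx, σ i, ?_⟩
      rw [← hσ i]
      exact ⟨x, hi, rfl⟩
    · rintro ⟨hQx, j, hj⟩
      rw [OG_apply] at hQx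
      refine ⟨hQx, σ.symm j, ?_⟩
      have h := hσ (σ.symm j)
      rw [Equiv.apply_symm_apply] at h
      rw [← h] at hj
      obtain ⟨x', hx', he⟩ := hj
      have : x' = x := g.1.injective he
      rwa [this] at hx'
  · have hq1 := hQsub h01 hx₁ hy₁ hQx₁ hQy₁
    have hq2 := hQsub h23 hw hv hQw hQv
    refine ⟨(refl Q (x₁ - y₁) * refl Q (w - v)).1, ⟨_, refl_mul_refl_mem_commutator_of_eq Q hQ _ _
      (by rw [hq1]; exact h2c) (by rw [hq1, hq2]), rfl⟩, ?_, ?_⟩
    · intro x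
      simp only [Subgroup.coe_mul, LinearEquiv.mul_apply, refl_coe_apply]
      constructor
      · intro hx
        exact reflLin_sub_mem_frameSet h2 hc horth KP h01 hx₁ hy₁ hQx₁ hQy₁
          (reflLin_sub_mem_frameSet h2 hc horth KP h23 hw hv hQw hQv hx)
      · intro hx
        have h3 := reflLin_sub_mem_frameSet h2 hc horth KP h23 hw hv hQw hQv
          (reflLin_sub_mem_frameSet h2 hc horth KP h01 hx₁ hy₁ hQx₁ hQy₁ hx)
        rwa [reflLin_reflLin, reflLin_reflLin] at h3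
    · rintro ⟨σ, hσ⟩
      have hg1 : (refl Q (x₁ - y₁) * refl Q (w - v)).1 x₁ = y₁ := by
        simp only [Subgroup.coe_mul, LinearEquiv.mul_apply, refl_coe_apply]
        rw [reflLin_of_polar_eq_zero Q (w - v) x₁ (by
          rw [polar_sub_left, horth i₂ i₀ h02.symm w hw x₁ hx₁, horth i₃ i₀ h03.symm v hv x₁ hx₁,
            sub_zero]), reflLin_apply, hq1, polar_sub_left, polar_self, hQx₁,
          horth i₁ i₀ h01.symm y₁ hy₁ x₁ hx₁]
        simp only [nsmul_eq_mul, Nat.cast_ofNat, sub_zero]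
        rw [inv_mul_cancel₀ h2c, one_smul]
        abel
      have hg2 : (refl Q (x₁ - y₁) * refl Q (w - v)).1 x₂ = x₂ := by
        simp only [Subgroup.coe_mul, LinearEquiv.mul_apply, refl_coe_apply]
        rw [reflLin_of_polar_eq_zero Q (w - v) x₂ (by
          rw [polar_sub_left, horth i₂ i₀ h02.symm w hw x₂ hx₂, horth i₃ i₀ h03.symm v hv x₂ hx₂,
            sub_zero]), reflLin_of_polar_eq_zero Q (x₁ - y₁) x₂ (by
          rw [polar_sub_left, hx12, horth i₁ i₀ h01.symm y₁ hy₁ x₂ hx₂, sub_zero])]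
      have h3 : y₁ ∈ D (σ i₀) := by
        rw [← hσ i₀]; exact ⟨x₁, hx₁, hg1⟩
      have h4 : x₂ ∈ D (σ i₀) := by
        rw [← hσ i₀]; exact ⟨x₂, hx₂, hg2⟩
      have h5 : σ i₀ = i₁ := by
        by_contra hne
        exact hc (hQy₁ ▸ hdisj _ _ hne y₁ h3 hy₁)
      have h6 : σ i₀ = i₀ := by
        by_contra hne
        exact hc (hQx₂ ▸ hdisj _ _ hne x₂ h4 hx₂)
      exact h01 (h6.symm.trans h5)
  · obtain ⟨a, ha⟩ : ∃ a, a = x₁ + y₁ + w + v := ⟨_, rfl⟩
    have p01 := horth i₀ i₁ h01 x₁ hx₁ y₁ hy₁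
    have p02 := horth i₀ i₂ h02 x₁ hx₁ w hw
    have p03 := horth i₀ i₃ h03 x₁ hx₁ v hv
    have p12 := horth i₁ i₂ h12 y₁ hy₁ w hw
    have p13 := horth i₁ i₃ h13 y₁ hy₁ v hv
    have p23 := horth i₂ i₃ h23 w hw v hv
    have hQa : Q a = 4 * c := by
      rw [ha, Q_add_eq, Q_add_eq, Q_add_eq, hQx₁, hQy₁, hQw, hQv, p01, polar_add_left, p02, p12,
        polar_add_left, polar_add_left, p03, p13, p23]
      ring
    have h4c : (4 * c : F) ≠ 0 := by
      have : (4 : F) = 2 * 2 := by norm_num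
      rw [this]
      exact mul_ne_zero (mul_ne_zero h2 h2) hc
    have hQb : Q ((2 : F) • y₁) = 4 * c := by
      rw [QuadraticMap.map_smul, hQy₁]; ring
    refine ⟨(refl Q a * refl Q ((2 : F) • y₁)).1, ⟨_, refl_mul_refl_mem_commutator_of_eq Q hQ _ _
      (by rw [hQa]; exact h4c) (by rw [hQa, hQb]), rfl⟩, ?_⟩
    intro hst
    obtain ⟨-, l, hl⟩ := (hst x₁).1 ⟨hQx₁, i₀, hx₁⟩
    simp only [Subgroup.coe_mul, LinearEquiv.mul_apply, refl_coe_apply] at hl
    have hax : polar Q a x₁ = 2 * c := by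
      rw [ha, polar_add_left, polar_add_left, polar_add_left, polar_self, hQx₁,
        polar_comm Q y₁ x₁, p01, polar_comm Q w x₁, p02, polar_comm Q v x₁, p03]
      simp
    rw [reflLin_of_polar_eq_zero Q _ x₁ (by rw [polar_smul_left, polar_comm, p01]; simp),
      reflLin_apply, hQa, hax] at hl
    obtain ⟨z, hz⟩ : ∃ z, z = x₁ - ((4 * c)⁻¹ * (2 * c)) • a := ⟨_, rfl⟩
    rw [← hz] at hl
    have h4 : (4 : F) ≠ 0 := by
      have : (4 : F) = 2 * 2 := by norm_num
      rw [this]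
      exact mul_ne_zero h2 h2
    have hcoef : (4 * c)⁻¹ * (2 * c) = (2 : F)⁻¹ := by
      field_simp
      norm_num
    have hzw : polar Q z w = - c := by
      rw [hz, hcoef, polar_sub_left, polar_smul_left, p02, ha, polar_add_left, polar_add_left,
        polar_add_left, p02, p12, polar_self, hQw, polar_comm Q v w, p23]
      simp only [nsmul_eq_mul, Nat.cast_ofNat, smul_eq_mul]
      field_simp
      ring
    have hzv : polar Q z v = - c := by
      rw [hz, hcoef, polar_sub_left, polar_smul_left, p03, ha, polar_add_left, polar_add_left,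
        polar_add_left, p03, p13, p23, polar_self, hQv]
      simp only [nsmul_eq_mul, Nat.cast_ofNat, smul_eq_mul]
      field_simp
      ring
    have h5 : l = i₂ := by
      by_contra hne
      have := horth l i₂ hne z hl w hw
      rw [hzw] at this
      exact hc (neg_eq_zero.1 this)
    have h6 : l = i₃ := by
      by_contra hne
      have := horth l i₃ hne z hl v hv
      rw [hzv] at this
      exact hc (neg_eq_zero.1 this)
    exact h23 (h5.symm.trans h6)

end

end Cfsg.Agent.Lib.Helper49
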