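import Mathlib
import Cfsg.Agent.Lib.Helper49.FrameBetween

set_option autoImplicit false

namespace Cfsg.Agent.Lib.Helper49

open QuadraticMap Module

section

variable {F V : Type*} [Field F] [AddCommGroup V] [Module F V] (Q : QuadraticForm F V)

/-- non-degeneracy of the polar form on a subspace -/
def NDon (D : Submodule F V) : Prop := ∀ w ∈ D, w ≠ 0 → ∃ x ∈ D, polar Q w x ≠ 0

/-- the norm-`c` vectors of `D` are pairwise proportional or orthogonal -/
def KPon (D : Submodule F V) (c : F) : Prop :=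
  ∀ x ∈ D, ∀ y ∈ D, Q x = c → Q y = c → y = x ∨ y = -x ∨ polar Q x y = 0

variable {Q}

theorem NDon.exists_nonsing {D : Submodule F V} (h : NDon Q D) (hD : D ≠ ⊥) :
    ∃ e ∈ D, Q e ≠ 0 := by
  obtain ⟨w, hw, hw0⟩ := Submodule.exists_mem_ne_zero_of_ne_bot hD
  obtain ⟨x, hx, hwx⟩ := h w hw hw0
  by_contra hcon
  push Not at hcon
  apply hwx
  simp only [polar, hcon _ (D.add_mem hw hx), hcon _ hw, hcon _ hx, sub_zero]

theorem NDon.inf_ker (h2 : (2 : F) ≠ 0) {D : Submodule F V} (h : NDon Q D) {e : V} (he : e ∈ D)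
    (hQe : Q e ≠ 0) : NDon Q (D ⊓ LinearMap.ker (polarBilin Q e)) := by
  rintro w ⟨hw, hew⟩ hw0
  have hew' : polar Q e w = 0 := hew
  obtain ⟨x, hx, hwx⟩ := h w hw hw0
  have hee : polar Q e e ≠ 0 := by
    rw [polar_self]
    simp only [nsmul_eq_mul, Nat.cast_ofNat]
    exact mul_ne_zero h2 hQe
  refine ⟨x - ((polar Q e e)⁻¹ * polar Q e x) • e, ⟨D.sub_mem hx (D.smul_mem _ he), ?_⟩, ?_⟩
  · change polar Q e _ = 0
    rw [polar_sub_right, polar_smul_right, smul_eq_mul]
    field_simp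
    ring
  · rw [polar_sub_right, polar_smul_right, polar_comm Q w e, hew']
    simpa using hwx

theorem finrank_inf_ker_self [FiniteDimensional F V] (h2 : (2 : F) ≠ 0) {D : Submodule F V} {e : V}
    (he : e ∈ D) (hQe : Q e ≠ 0) :
    finrank F ↥(D ⊓ LinearMap.ker (polarBilin Q e)) + 1 = finrank F D := by
  apply finrank_inf_ker_add_one
  refine ⟨e, he, ?_⟩
  change polar Q e e ≠ 0
  rw [polar_self]
  simp only [nsmul_eq_mul, Nat.cast_ofNat]
  exact mul_ne_zero h2 hQe

/-- orthogonal basis of a non-degenerate plane -/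
theorem NDon.exists_orth2 [FiniteDimensional F V] (h2 : (2 : F) ≠ 0) {D : Submodule F V}
    (h : NDon Q D) (hd : finrank F D = 2) :
    ∃ a ∈ D, ∃ b ∈ D, Q a ≠ 0 ∧ Q b ≠ 0 ∧ polar Q a b = 0 ∧
      ∀ x ∈ D, polar Q a x = 0 → polar Q b x = 0 → x = 0 := by
  obtain ⟨a, ha, hQa⟩ := h.exists_nonsing (by rintro rfl; simp at hd)
  have h1 := h.inf_ker h2 ha hQa
  have d1 := finrank_inf_ker_self h2 ha hQa
  obtain ⟨b, hb, hQb⟩ := h1.exists_nonsing (by intro h0; rw [h0, finrank_bot] at d1; omega)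
  have d2 := finrank_inf_ker_self h2 hb hQb
  refine ⟨a, ha, b, hb.1, hQa, hQb, hb.2, ?_⟩
  intro x hx hax hbx
  have h3 : finrank F ↥((D ⊓ LinearMap.ker (polarBilin Q a)) ⊓ LinearMap.ker (polarBilin Q b)) = 0 := by
    omega
  rw [Submodule.finrank_eq_zero] at h3
  have : x ∈ (D ⊓ LinearMap.ker (polarBilin Q a)) ⊓ LinearMap.ker (polarBilin Q b) :=
    ⟨⟨hx, hax⟩, hbx⟩
  rw [h3] at this
  exact this

/-- orthogonal basis of a non-degenerate 3-space -/
theorem NDon.exists_orth3 [FiniteDimensional F V] (h2 : (2 : F) ≠ 0) {D : Submodule F V}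
    (h : NDon Q D) (hd : finrank F D = 3) :
    ∃ a ∈ D, ∃ b ∈ D, ∃ d ∈ D, Q a ≠ 0 ∧ Q b ≠ 0 ∧ Q d ≠ 0 ∧ polar Q a b = 0 ∧ polar Q a d = 0 ∧
      polar Q b d = 0 ∧
      ∀ x ∈ D, polar Q a x = 0 → polar Q b x = 0 → polar Q d x = 0 → x = 0 := by
  obtain ⟨a, ha, hQa⟩ := h.exists_nonsing (by rintro rfl; simp at hd)
  have h1 := h.inf_ker h2 ha hQa
  have d1 := finrank_inf_ker_self h2 ha hQa
  obtain ⟨b, hb, d, hd', hQb, hQd, hbd, hz⟩ := h1.exists_orth2 h2 (by omega)
  refine ⟨a, ha, b, hb.1, d, hd'.1, hQa, hQb, hQd, hb.2, hd'.2, hbd, ?_⟩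
  intro x hx hax hbx hdx
  exact hz x ⟨hx, hax⟩ hbx hdx

end

section

variable {F V : Type*} [Field F] [Fintype F] [AddCommGroup V] [Module F V] [FiniteDimensional F V]
  {Q : QuadraticForm F V}

theorem three_eq_zero_of_card (h : Fintype.card F = 3) : (3 : F) = 0 := by
  have := Nat.cast_card_eq_zero F
  rw [h] at this
  exact_mod_cast this

theorem two_ne_zero_of_card (h : Fintype.card F = 3) : (2 : F) ≠ 0 := by
  intro h2
  have h3 := three_eq_zero_of_card h
  have : (1 : F) = 0 := by linear_combination h3 - h2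
  exact one_ne_zero this

theorem eq_one_or_neg_one_of_card (h : Fintype.card F = 3) {x : F} (hx : x ≠ 0) :
    x = 1 ∨ x = -1 := by
  rcases eq_zero_or_one_or_neg_one (le_of_eq h) x with h | h | h
  · exact absurd h hx
  · exact Or.inl h
  · exact Or.inr h

theorem eq_or_eq_neg_of_card (h : Fintype.card F = 3) {x y : F} (hx : x ≠ 0) (hy : y ≠ 0) :
    y = x ∨ y = -x := by
  rcases eq_one_or_neg_one_of_card h hx with h1 | h1 <;>
  rcases eq_one_or_neg_one_of_card h hy with h2 | h2 <;>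
  rw [h1, h2] <;> simp

/-- expansion in an orthogonal basis -/
theorem expand3 (h2 : (2 : F) ≠ 0) {D : Submodule F V} {c : F} (hc : c ≠ 0) {a b d : V}
    (ha : a ∈ D) (hb : b ∈ D)
    (hd : d ∈ D) (hQa : Q a = c) (hQb : Q b = c) (hQd : Q d = c) (hab : polar Q a b = 0)
    (had : polar Q a d = 0) (hbd : polar Q b d = 0)
    (hz : ∀ x ∈ D, polar Q a x = 0 → polar Q b x = 0 → polar Q d x = 0 → x = 0) {x : V}
    (hx : x ∈ D) : ∃ α β γ : F, x = α • a + β • b + γ • d := by
  have h2c : (2 * c : F) ≠ 0 := mul_ne_zero h2 hc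
  have haa : polar Q a a = 2 * c := by rw [polar_self, hQa]; simp
  have hbb : polar Q b b = 2 * c := by rw [polar_self, hQb]; simp
  have hdd : polar Q d d = 2 * c := by rw [polar_self, hQd]; simp
  refine ⟨(2 * c)⁻¹ * polar Q a x, (2 * c)⁻¹ * polar Q b x, (2 * c)⁻¹ * polar Q d x, ?_⟩
  rw [← sub_eq_zero]
  apply hz
  · exact D.sub_mem hx (D.add_mem (D.add_mem (D.smul_mem _ ha) (D.smul_mem _ hb)) (D.smul_mem _ hd))
  · rw [polar_sub_right, polar_add_right, polar_add_right, polar_smul_right, polar_smul_right,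
      polar_smul_right, haa, hab, had]
    simp only [smul_eq_mul]
    field_simp
    ring
  · rw [polar_sub_right, polar_add_right, polar_add_right, polar_smul_right, polar_smul_right,
      polar_smul_right, hbb, polar_comm Q b a, hab, hbd]
    simp only [smul_eq_mul]
    field_simp
    ring
  · rw [polar_sub_right, polar_add_right, polar_add_right, polar_smul_right, polar_smul_right,
      polar_smul_right, hdd, polar_comm Q d a, had, polar_comm Q d b, hbd]
    simp only [smul_eq_mul]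
    field_simp
    ring

theorem Q_expand3 {c : F} {a b d : V} (hQa : Q a = c) (hQb : Q b = c) (hQd : Q d = c)
    (hab : polar Q a b = 0) (had : polar Q a d = 0) (hbd : polar Q b d = 0) (α β γ : F) :
    Q (α • a + β • b + γ • d) = c * (α ^ 2 + β ^ 2 + γ ^ 2) := by
  rw [Q_add_eq, Q_add_eq, QuadraticMap.map_smul, QuadraticMap.map_smul, QuadraticMap.map_smul,
    hQa, hQb, hQd, polar_smul_left, polar_smul_right, hab, polar_add_left, polar_smul_left,
    polar_smul_right, had, polar_smul_left, polar_smul_right, hbd]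
  simp only [smul_eq_mul]
  ring

/-- in a 3-space over `𝔽₃` with an orthogonal basis of norm `c`, the vectors of norm `c` are the
basis vectors and their negatives -/
theorem classify3 (hq : Fintype.card F = 3) {D : Submodule F V} {c : F} (hc : c ≠ 0) {a b d : V}
    (ha : a ∈ D) (hb : b ∈ D)
    (hd : d ∈ D) (hQa : Q a = c) (hQb : Q b = c) (hQd : Q d = c) (hab : polar Q a b = 0)
    (had : polar Q a d = 0) (hbd : polar Q b d = 0)
    (hz : ∀ x ∈ D, polar Q a x = 0 → polar Q b x = 0 → polar Q d x = 0 → x = 0) {x : V}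
    (hx : x ∈ D) (hQx : Q x = c) :
    x = a ∨ x = -a ∨ x = b ∨ x = -b ∨ x = d ∨ x = -d := by
  have h2 := two_ne_zero_of_card hq
  have h3 := three_eq_zero_of_card hq
  obtain ⟨α, β, γ, rfl⟩ := expand3 h2 hc ha hb hd hQa hQb hQd hab had hbd hz hx
  rw [Q_expand3 hQa hQb hQd hab had hbd] at hQx
  have h1 : α ^ 2 + β ^ 2 + γ ^ 2 = 1 := by
    have : c * (α ^ 2 + β ^ 2 + γ ^ 2 - 1) = 0 := by linear_combination hQx
    have := (mul_eq_zero.1 this).resolve_left hc
    linear_combination this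
  have n1 : (1 : F) ≠ 0 := one_ne_zero
  rcases eq_zero_or_one_or_neg_one (le_of_eq hq) α with hα | hα | hα <;>
  rcases eq_zero_or_one_or_neg_one (le_of_eq hq) β with hβ | hβ | hβ <;>
  rcases eq_zero_or_one_or_neg_one (le_of_eq hq) γ with hγ | hγ | hγ <;>
  subst hα <;> subst hβ <;> subst hγ <;>
  first
  | (exfalso; apply n1; linear_combination -h1)
  | (exfalso; apply n1; linear_combination h1)
  | (exfalso; apply n1; linear_combination h3 - h1)
  | (exfalso; apply n1; linear_combination h1 - h3)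
  | (exfalso; apply n1; linear_combination h3 - h1)
  | simp

theorem KPon_of_frame3 (hq : Fintype.card F = 3) {D : Submodule F V} {c : F} (hc : c ≠ 0)
    {a b d : V} (ha : a ∈ D) (hb : b ∈ D)
    (hd : d ∈ D) (hQa : Q a = c) (hQb : Q b = c) (hQd : Q d = c) (hab : polar Q a b = 0)
    (had : polar Q a d = 0) (hbd : polar Q b d = 0)
    (hz : ∀ x ∈ D, polar Q a x = 0 → polar Q b x = 0 → polar Q d x = 0 → x = 0) : KPon Q D c := by
  intro x hx y hy hQx hQy
  have hba : polar Q b a = 0 := by rw [polar_comm]; exact hab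
  have hda : polar Q d a = 0 := by rw [polar_comm]; exact had
  have hdb : polar Q d b = 0 := by rw [polar_comm]; exact hbd
  rcases classify3 hq hc ha hb hd hQa hQb hQd hab had hbd hz hx hQx with h | h | h | h | h | h <;>
  rcases classify3 hq hc ha hb hd hQa hQb hQd hab had hbd hz hy hQy with h' | h' | h' | h' | h' | h' <;>
  subst h <;> subst h' <;>
  simp [hab, had, hbd, hba, hda, hdb]

/-- local structure of a non-degenerate 3-space over `𝔽₃` -/
theorem local3 (hq : Fintype.card F = 3) {D : Submodule F V} (h : NDon Q D)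
    (hd : finrank F D = 3) :
    ∃ c : F, c ≠ 0 ∧ KPon Q D c ∧ ∃ x₁ ∈ D, ∃ x₂ ∈ D, Q x₁ = c ∧ Q x₂ = c ∧ polar Q x₁ x₂ = 0 := by
  have h2 := two_ne_zero_of_card hq
  have h3 := three_eq_zero_of_card hq
  -- the case where the first two norms agree
  have key : ∀ a ∈ D, ∀ b ∈ D, ∀ d ∈ D, Q a ≠ 0 → Q b = Q a → Q d ≠ 0 → polar Q a b = 0 →
      polar Q a d = 0 → polar Q b d = 0 →
      (∀ x ∈ D, polar Q a x = 0 → polar Q b x = 0 → polar Q d x = 0 → x = 0) →
      ∃ c : F, c ≠ 0 ∧ KPon Q D c ∧ ∃ x₁ ∈ D, ∃ x₂ ∈ D, Q x₁ = c ∧ Q x₂ = c ∧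
        polar Q x₁ x₂ = 0 := by
    intro a ha b hb d hd' hQa hQb hQd hab had hbd hz
    by_cases hda : Q d = Q a
    · exact ⟨Q a, hQa, KPon_of_frame3 hq hQa ha hb hd' rfl hQb hda hab had hbd hz,
        a, ha, b, hb, rfl, hQb, hab⟩
    · have hda' : Q d = - Q a := by
        exact (eq_or_eq_neg_of_card hq hQa hQd).resolve_left hda
      have e1 : Q (a + b) = Q d := by
        rw [Q_add_eq, hQb, hab, hda']; linear_combination (Q a) * h3
      have e2 : Q (a - b) = Q d := by
        have := Q_sub_smul Q a b 1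
        simp only [one_smul, one_pow, one_mul] at this
        rw [this, hQb, polar_comm, hab, hda']; linear_combination (Q a) * h3
      have e3 : polar Q (a + b) (a - b) = 0 := by
        rw [polar_add_left, polar_sub_right, polar_sub_right, polar_self, polar_self, hab,
          polar_comm Q b a, hab, hQb]
        simp
      refine ⟨Q d, hQd, KPon_of_frame3 hq hQd (D.add_mem ha hb) (D.sub_mem ha hb) hd' e1 e2 rfl e3
        (by rw [polar_add_left, had, hbd, add_zero]) (by rw [polar_sub_left, had, hbd, sub_zero]) ?_,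
        a + b, D.add_mem ha hb, a - b, D.sub_mem ha hb, e1, e2, e3⟩
      intro x hx h1 h4 h5
      rw [polar_add_left] at h1
      rw [polar_sub_left] at h4
      apply hz x hx _ _ h5
      · have : 2 * polar Q a x = 0 := by linear_combination h1 + h4
        exact (mul_eq_zero.1 this).resolve_left h2
      · have : 2 * polar Q b x = 0 := by linear_combination h1 - h4
        exact (mul_eq_zero.1 this).resolve_left h2
  obtain ⟨a, ha, b, hb, d, hd', hQa, hQb, hQd, hab, had, hbd, hz⟩ := h.exists_orth3 h2 hd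
  by_cases h1 : Q b = Q a
  · exact key a ha b hb d hd' hQa h1 hQd hab had hbd hz
  by_cases h4 : Q d = Q a
  · exact key a ha d hd' b hb hQa h4 hQb had hab (by rw [polar_comm]; exact hbd)
      (fun x hx e1 e2 e3 => hz x hx e1 e3 e2)
  · have h5 : Q d = Q b := by
      rw [(eq_or_eq_neg_of_card hq hQa hQd).resolve_left h4,
        (eq_or_eq_neg_of_card hq hQa hQb).resolve_left h1]
    exact key b hb d hd' a ha hQb h5 hQa hbd (by rw [polar_comm]; exact hab)
      (by rw [polar_comm]; exact had) (fun x hx e1 e2 e3 => hz x hx e3 e1 e2)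

theorem expand2 (h2 : (2 : F) ≠ 0) {D : Submodule F V} {c : F} (hc : c ≠ 0) {a b : V}
    (ha : a ∈ D) (hb : b ∈ D) (hQa : Q a = c) (hQb : Q b = c) (hab : polar Q a b = 0)
    (hz : ∀ x ∈ D, polar Q a x = 0 → polar Q b x = 0 → x = 0) {x : V}
    (hx : x ∈ D) : ∃ α β : F, x = α • a + β • b := by
  have h2c : (2 * c : F) ≠ 0 := mul_ne_zero h2 hc
  have haa : polar Q a a = 2 * c := by rw [polar_self, hQa]; simp
  have hbb : polar Q b b = 2 * c := by rw [polar_self, hQb]; simp
  refine ⟨(2 * c)⁻¹ * polar Q a x, (2 * c)⁻¹ * polar Q b x, ?_⟩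
  rw [← sub_eq_zero]
  apply hz
  · exact D.sub_mem hx (D.add_mem (D.smul_mem _ ha) (D.smul_mem _ hb))
  · rw [polar_sub_right, polar_add_right, polar_smul_right, polar_smul_right, haa, hab]
    simp only [smul_eq_mul]
    field_simp
    ring
  · rw [polar_sub_right, polar_add_right, polar_smul_right, polar_smul_right, hbb,
      polar_comm Q b a, hab]
    simp only [smul_eq_mul]
    field_simp
    ring

theorem classify2 (hq : Fintype.card F = 3) {D : Submodule F V} {c : F} (hc : c ≠ 0) {a b : V}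
    (ha : a ∈ D) (hb : b ∈ D) (hQa : Q a = c) (hQb : Q b = c) (hab : polar Q a b = 0)
    (hz : ∀ x ∈ D, polar Q a x = 0 → polar Q b x = 0 → x = 0) {x : V}
    (hx : x ∈ D) (hQx : Q x = c) : x = a ∨ x = -a ∨ x = b ∨ x = -b := by
  have h2 := two_ne_zero_of_card hq
  have h3 := three_eq_zero_of_card hq
  obtain ⟨α, β, rfl⟩ := expand2 h2 hc ha hb hQa hQb hab hz hx
  have hQ' : Q (α • a + β • b) = c * (α ^ 2 + β ^ 2) := by
    rw [Q_add_eq, QuadraticMap.map_smul, QuadraticMap.map_smul, hQa, hQb, polar_smul_left,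
      polar_smul_right, hab]
    simp only [smul_eq_mul]
    ring
  rw [hQ'] at hQx
  have h1 : α ^ 2 + β ^ 2 = 1 := by
    have : c * (α ^ 2 + β ^ 2 - 1) = 0 := by linear_combination hQx
    have := (mul_eq_zero.1 this).resolve_left hc
    linear_combination this
  have n1 : (1 : F) ≠ 0 := one_ne_zero
  rcases eq_zero_or_one_or_neg_one (le_of_eq hq) α with hα | hα | hα <;>
  rcases eq_zero_or_one_or_neg_one (le_of_eq hq) β with hβ | hβ | hβ <;>
  subst hα <;> subst hβ <;>
  first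
  | (exfalso; apply n1; linear_combination -h1)
  | (exfalso; apply n1; linear_combination h1)
  | simp

/-- local structure of an anisotropic plane over `𝔽₃` -/
theorem local2 (hq : Fintype.card F = 3) {D : Submodule F V} (h : NDon Q D)
    (hd : finrank F D = 2) (hani : ∀ x ∈ D, Q x = 0 → x = 0) :
    ∃ c : F, c ≠ 0 ∧ KPon Q D c ∧ ∃ x₁ ∈ D, ∃ x₂ ∈ D, Q x₁ = c ∧ Q x₂ = c ∧ polar Q x₁ x₂ = 0 := by
  have h2 := two_ne_zero_of_card hq
  obtain ⟨a, ha, b, hb, hQa, hQb, hab, hz⟩ := h.exists_orth2 h2 hd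
  have hQba : Q b = Q a := by
    rcases eq_or_eq_neg_of_card hq hQa hQb with h1 | h1
    · exact h1
    · exfalso
      have h3 : Q (a + b) = 0 := by rw [Q_add_eq, h1, hab]; ring
      have h4 := hani _ (D.add_mem ha hb) h3
      have h5 : b = -a := by rw [eq_neg_iff_add_eq_zero, add_comm]; exact h4
      rw [h5, QuadraticMap.map_neg] at h1
      apply hQa
      have : 2 * Q a = 0 := by linear_combination h1
      exact (mul_eq_zero.1 this).resolve_left h2
  refine ⟨Q a, hQa, ?_, a, ha, b, hb, rfl, hQba, hab⟩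
  intro x hx y hy hQx hQy
  have hba : polar Q b a = 0 := by rw [polar_comm]; exact hab
  rcases classify2 hq hQa ha hb rfl hQba hab hz hx hQx with h | h | h | h <;>
  rcases classify2 hq hQa ha hb rfl hQba hab hz hy hQy with h' | h' | h' | h' <;>
  subst h <;> subst h' <;>
  simp [hab, hba]

omit [Fintype F] [FiniteDimensional F V] in
theorem polar_isometry {D D' : Submodule F V} (e : D ≃ₗ[F] D')
    (he : ∀ w : D, Q ((e w : D') : V) = Q (w : V)) (u v : D) :
    polar Q ((e u : D') : V) ((e v : D') : V) = polar Q (u : V) (v : V) := by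
  have h := he (u + v)
  rw [map_add] at h
  simp only [polar, ← he u, ← he v]
  rw [← Submodule.coe_add, ← Submodule.coe_add, ← map_add, he, he, he]

omit [Fintype F] [FiniteDimensional F V] in
theorem KPon.transfer {D D' : Submodule F V} {c : F} (h : KPon Q D c) (e : D ≃ₗ[F] D')
    (he : ∀ w : D, Q ((e w : D') : V) = Q (w : V)) : KPon Q D' c := by
  intro x hx y hy hQx hQy
  obtain ⟨x₀, hx₀⟩ : ∃ x₀ : D, e x₀ = ⟨x, hx⟩ := ⟨e.symm ⟨x, hx⟩, by simp⟩
  obtain ⟨y₀, hy₀⟩ : ∃ y₀ : D, e y₀ = ⟨y, hy⟩ := ⟨e.symm ⟨y, hy⟩, by simp⟩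
  have ex : ((e x₀ : D') : V) = x := by rw [hx₀]
  have ey : ((e y₀ : D') : V) = y := by rw [hy₀]
  have h1 : Q (x₀ : V) = c := by rw [← he, ex, hQx]
  have h2 : Q (y₀ : V) = c := by rw [← he, ey, hQy]
  rcases h x₀ x₀.2 y₀ y₀.2 h1 h2 with h3 | h3 | h3
  · left
    have : y₀ = x₀ := Subtype.ext h3
    rw [← ex, ← ey, this]
  · right; left
    have : y₀ = -x₀ := Subtype.ext (by rw [h3]; rfl)
    rw [← ex, ← ey, this, map_neg]; rfl
  · right; right
    rw [← ex, ← ey, polar_isometry e he, h3]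

/-- dimension count for a decomposition -/
theorem finrank_le_mul_of_iSup_eq_top {t k : ℕ} (D : Fin t → Submodule F V)
    (hfr : ∀ i, finrank F (D i) = k) (htop : iSup D = ⊤) : finrank F V ≤ t * k := by
  have h1 : ∀ s : Finset (Fin t), finrank F ↥(s.sup D) ≤ s.card * k := by
    intro s
    induction s using Finset.induction_on with
    | empty => simp
    | insert a s ha ih =>
      rw [Finset.sup_insert, Finset.card_insert_of_notMem ha]
      have := Submodule.finrank_add_le_finrank_add_finrank (D a) (s.sup D)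
      rw [hfr a] at this
      have e : (s.card + 1) * k = k + s.card * k := by ring
      rw [e]
      exact this.trans (by omega)
  have h2 := h1 Finset.univ
  rw [Finset.sup_univ_eq_iSup, htop, finrank_top, Finset.card_univ, Fintype.card_fin] at h2
  exact h2

/-- packaged version for isometric orthogonal decompositions over `𝔽₃` -/
theorem decomp_frame_between (hq : Fintype.card F = 3) (hQ : (polarBilin Q).Nondegenerate) {t : ℕ}
    (ht : 4 ≤ t) (D : Fin t → Submodule F V)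
    (horth : ∀ i j, i ≠ j → ∀ u ∈ D i, ∀ v ∈ D j, polar Q u v = 0)
    (hiso : ∀ i j, ∃ e : D i ≃ₗ[F] D j, ∀ w : D i, Q ((e w : D j) : V) = Q (w : V))
    (hloc : ∃ c : F, c ≠ 0 ∧ KPon Q (D ⟨0, by omega⟩) c ∧ ∃ x₁ ∈ D ⟨0, by omega⟩,
      ∃ x₂ ∈ D ⟨0, by omega⟩, Q x₁ = c ∧ Q x₂ = c ∧ polar Q x₁ x₂ = 0) :
    ∃ X : Set V,
    (∀ g ∈ Cfsg.Agent.Lib.Helper95.omG Q,
      (∃ σ : Equiv.Perm (Fin t), ∀ i, (D i).map (g : V →ₗ[F] V) = D (σ i)) → g ∈ setStab X) ∧
    (∃ g ∈ Cfsg.Agent.Lib.Helper95.omG Q, g ∈ setStab X ∧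
      ¬ ∃ σ : Equiv.Perm (Fin t), ∀ i, (D i).map (g : V →ₗ[F] V) = D (σ i)) ∧
    ∃ g ∈ Cfsg.Agent.Lib.Helper95.omG Q, g ∉ setStab X := by
  obtain ⟨c, hc, hKP, x₁, hx₁, x₂, hx₂, hQ1, hQ2, h12⟩ := hloc
  have hKP' : ∀ i, KPon Q (D i) c := by
    intro i
    obtain ⟨e, he⟩ := hiso ⟨0, by omega⟩ i
    exact hKP.transfer e he
  have hvec : ∀ i, ∃ y ∈ D i, Q y = c := by
    intro i
    obtain ⟨e, he⟩ := hiso ⟨0, by omega⟩ i
    exact ⟨e ⟨x₁, hx₁⟩, Subtype.property _, by rw [he]; exact hQ1⟩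
  obtain ⟨y₁, hy₁, hQy⟩ := hvec ⟨1, by omega⟩
  obtain ⟨w, hw, hQw⟩ := hvec ⟨2, by omega⟩
  obtain ⟨v, hv, hQv⟩ := hvec ⟨3, by omega⟩
  exact ⟨frameSet Q D c, frame_between hQ (two_ne_zero_of_card hq) D hc horth hKP'
    (i₀ := ⟨0, by omega⟩) (i₁ := ⟨1, by omega⟩) (i₂ := ⟨2, by omega⟩) (i₃ := ⟨3, by omega⟩)
    (by simp) (by simp) (by simp) (by simp) (by simp) (by simp)
    hx₁ hx₂ hy₁ hw hv hQ1 hQ2 hQy hQw hQv h12⟩

end

end Cfsg.Agent.Lib.Helper49
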