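import Mathlib
import Cfsg.Agent.Lib.Helper49.LocalF3
import Cfsg.Agent.Lib.Helper95.OmOdd

set_option autoImplicit false

namespace Cfsg.Agent.Lib.Helper49

open QuadraticMap Module Cfsg.Agent.Lib.Helper95

section DecGeo

variable {F V : Type*} [Field F] [AddCommGroup V] [Module F V] {Q : QuadraticForm F V}

theorem polar_self_two (x : V) : polar Q x x = 2 * Q x := by
  rw [polar_self]; simp [nsmul_eq_mul]

theorem NDon.exists_orth_pair [FiniteDimensional F V] (h2 : (2 : F) ≠ 0) {A : Submodule F V}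
    (h : NDon Q A) (hd : 2 ≤ finrank F A) :
    ∃ a ∈ A, ∃ b ∈ A, Q a ≠ 0 ∧ Q b ≠ 0 ∧ polar Q a b = 0 := by
  obtain ⟨a, ha, hQa⟩ := h.exists_nonsing (by rintro rfl; simp at hd)
  have h1 := h.inf_ker h2 ha hQa
  have d1 := finrank_inf_ker_self h2 ha hQa
  obtain ⟨b, hb, hQb⟩ := h1.exists_nonsing (by intro h0; rw [h0, finrank_bot] at d1; omega)
  exact ⟨a, ha, b, hb.1, hQa, hQb, hb.2⟩

/-- a non-degenerate subspace of dimension at least two is universal -/
theorem NDon.univ [Fintype F] [FiniteDimensional F V] (h2 : (2 : F) ≠ 0) {A : Submodule F V}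
    (h : NDon Q A) (hd : 2 ≤ finrank F A) (δ : F) : ∃ c ∈ A, Q c = δ := by
  obtain ⟨a, ha, b, hb, hQa, hQb, hab⟩ := h.exists_orth_pair h2 hd
  obtain ⟨x, y, hxy⟩ := exists_sq_add_sq' _ _ δ hQa hQb
  refine ⟨x • a + y • b, A.add_mem (A.smul_mem _ ha) (A.smul_mem _ hb), ?_⟩
  rw [qmap_add, QuadraticMap.map_smul, QuadraticMap.map_smul, polar_smul_left, polar_smul_right, hab]
  simp only [smul_eq_mul]
  linear_combination hxy

/-- universal orthogonal complement of a non-singular vector -/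
theorem NDon.univ_perp [Fintype F] [FiniteDimensional F V] (h2 : (2 : F) ≠ 0) {A : Submodule F V}
    (h : NDon Q A) (hd : 3 ≤ finrank F A) {e : V} (he : e ∈ A) (hQe : Q e ≠ 0) (δ : F) :
    ∃ c ∈ A, polar Q e c = 0 ∧ Q c = δ := by
  have h1 := h.inf_ker h2 he hQe
  have d1 := finrank_inf_ker_self h2 he hQe
  obtain ⟨c, hc, hQc⟩ := h1.univ h2 (by omega) δ
  exact ⟨c, hc.1, hc.2, hQc⟩

/-- a non-degenerate subspace of dimension at least three is isotropic -/
theorem NDon.exists_sing [Fintype F] [FiniteDimensional F V] (h2 : (2 : F) ≠ 0)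
    {A : Submodule F V} (h : NDon Q A) (hd : 3 ≤ finrank F A) : ∃ s ∈ A, s ≠ 0 ∧ Q s = 0 := by
  obtain ⟨a, ha, hQa⟩ := h.exists_nonsing (by rintro rfl; simp at hd)
  obtain ⟨c, hc, hac, hQc⟩ := h.univ_perp h2 hd ha hQa (-Q a)
  refine ⟨a + c, A.add_mem ha hc, ?_, ?_⟩
  · intro h0
    have : polar Q a (a + c) = 2 * Q a := by rw [polar_add_right, hac, polar_self_two, add_zero]
    rw [h0, polar_zero_right] at this
    exact mul_ne_zero h2 hQa this.symm
  · rw [qmap_add, hQc, hac]; ring

/-- prescribed norm and inner product with a given vector -/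
theorem NDon.exists_polar_norm [Fintype F] [FiniteDimensional F V] (h2 : (2 : F) ≠ 0)
    {A : Submodule F V} (h : NDon Q A) (hd : 3 ≤ finrank F A) {b : V} (hb : b ∈ A) (hb0 : b ≠ 0)
    (β γ : F) (hβ : Q b ≠ 0 ∨ β ≠ 0) : ∃ u ∈ A, polar Q b u = β ∧ Q u = γ := by
  by_cases hQb : Q b = 0
  · have hβ' : β ≠ 0 := by
      rcases hβ with h' | h'
      · exact absurd hQb h'
      · exact h'
    obtain ⟨x, hx, hbx⟩ := h b hb hb0
    obtain ⟨x', hx'A, hbx'⟩ : ∃ x' ∈ A, polar Q b x' = β := by
      refine ⟨(β / polar Q b x) • x, A.smul_mem _ hx, ?_⟩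
      rw [polar_smul_right, smul_eq_mul]; field_simp
    refine ⟨x' + ((γ - Q x') / β) • b, A.add_mem hx'A (A.smul_mem _ hb), ?_, ?_⟩
    · rw [polar_add_right, polar_smul_right, polar_self_two, hQb, hbx']; simp
    · rw [qmap_add, QuadraticMap.map_smul, hQb, polar_smul_right, polar_comm Q x' b, hbx']
      simp only [smul_eq_mul]
      field_simp
      ring
  · obtain ⟨w, hw, hbw, hQw⟩ := h.univ_perp h2 hd hb hQb (γ - β ^ 2 / (4 * Q b))
    have h4 : (4 : F) ≠ 0 := by
      have : (4 : F) = 2 * 2 := by norm_num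
      rw [this]; exact mul_ne_zero h2 h2
    refine ⟨(β / (2 * Q b)) • b + w, A.add_mem (A.smul_mem _ hb) hw, ?_, ?_⟩
    · rw [polar_add_right, polar_smul_right, polar_self_two, hbw]
      simp only [smul_eq_mul]
      field_simp
      ring
    · rw [qmap_add, QuadraticMap.map_smul, polar_smul_left, hbw, hQw]
      simp only [smul_eq_mul]
      field_simp
      ring

/-- two non-zero vectors of a non-degenerate subspace are both non-orthogonal to some vector -/
theorem NDon.exists_nonperp_both {A : Submodule F V} (h : NDon Q A) {a a' : V} (ha : a ∈ A)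
    (ha' : a' ∈ A) (ha0 : a ≠ 0) (ha'0 : a' ≠ 0) :
    ∃ w ∈ A, polar Q a w ≠ 0 ∧ polar Q a' w ≠ 0 := by
  obtain ⟨x, hx, hax⟩ := h a ha ha0
  obtain ⟨x', hx', hax'⟩ := h a' ha' ha'0
  by_cases h1 : polar Q a' x = 0
  · by_cases h2 : polar Q a x' = 0
    · refine ⟨x + x', A.add_mem hx hx', ?_, ?_⟩
      · rw [polar_add_right, h2, add_zero]; exact hax
      · rw [polar_add_right, h1, zero_add]; exact hax'
    · exact ⟨x', hx', h2, hax'⟩
  · exact ⟨x, hx, hax, h1⟩

/-- transitivity via reflections: the `A`-component of a vector may be replaced by any non-zero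
vector of `A` of the same norm -/
theorem NDon.trans_refl (h2 : (2 : F) ≠ 0) {A : Submodule F V} (h : NDon Q A) {R : V → Prop}
    (hR : ∀ u ∈ A, Q u ≠ 0 → ∀ x, R x → R (reflLin Q u x)) {a a' c : V} (ha : a ∈ A)
    (ha' : a' ∈ A) (ha0 : a ≠ 0) (ha'0 : a' ≠ 0) (hQ : Q a = Q a')
    (hc : ∀ u ∈ A, polar Q u c = 0) (hac : R (a + c)) : R (a' + c) := by
  -- one step
  have step : ∀ x y : V, x ∈ A → y ∈ A → Q x = Q y → Q (x - y) ≠ 0 → R (x + c) → R (y + c) := by
    intro x y hx hy hxy hs hr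
    have := hR (x - y) (A.sub_mem hx hy) hs _ hr
    rwa [map_add, reflLin_sub_apply Q x y hxy hs,
      reflLin_of_polar_eq_zero Q _ c (hc _ (A.sub_mem hx hy))] at this
  by_cases hQa : Q a = 0
  · have hQa' : Q a' = 0 := by rw [← hQ]; exact hQa
    by_cases hp : polar Q a a' = 0
    · obtain ⟨w, hw, haw, ha'w⟩ := h.exists_nonperp_both ha ha' ha0 ha'0
      set s := w - (Q w / polar Q a w) • a with hs
      have hsA : s ∈ A := A.sub_mem hw (A.smul_mem _ ha)
      have hQs : Q s = 0 := by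
        rw [hs, Q_sub_smul, hQa]; field_simp; ring
      have h1 : polar Q a s = polar Q a w := by
        rw [hs, polar_sub_right, polar_smul_right, polar_self_two, hQa]; simp
      have h3 : polar Q a' s = polar Q a' w := by
        rw [hs, polar_sub_right, polar_smul_right, polar_comm Q a' a, hp]; simp
      have e1 : Q (a - s) ≠ 0 := by
        rw [qmap_sub, hQa, hQs, h1]; simpa using haw
      have e2 : Q (s - a') ≠ 0 := by
        rw [qmap_sub, hQa', hQs, polar_comm, h3]; simpa using ha'w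
      exact step s a' hsA ha' (by rw [hQs, hQa']) e2 (step a s ha hsA (by rw [hQa, hQs]) e1 hac)
    · apply step a a' ha ha' hQ _ hac
      rw [qmap_sub, hQa, hQa']; simpa using hp
  · by_cases hs : Q (a - a') = 0
    · have hs' : Q (a - (-a')) ≠ 0 := by
        intro h0
        rw [qmap_sub] at hs h0
        rw [polar_neg_right, QuadraticMap.map_neg] at h0
        apply mul_ne_zero (mul_ne_zero h2 h2) hQa
        linear_combination hs + h0 + 2 * hQ
      have h1 := step a (-a') ha (A.neg_mem ha') (by rw [QuadraticMap.map_neg]; exact hQ) hs' hac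
      have hQa' : Q a' ≠ 0 := by rw [← hQ]; exact hQa
      have := hR a' ha' hQa' _ h1
      rwa [map_add, map_neg, reflLin_self Q a' hQa', neg_neg,
        reflLin_of_polar_eq_zero Q _ c (hc _ ha')] at this
    · exact step a a' ha ha' hQ hs hac

end DecGeo

end Cfsg.Agent.Lib.Helper49
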