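import Mathlib
import Cfsg.Agent.Lib.Helper49.DecGeo

set_option autoImplicit false

namespace Cfsg.Agent.Lib.Helper49

open QuadraticMap Module Cfsg.Agent.Lib.Helper95

section DecMerge

variable {F V : Type*} [Field F] [AddCommGroup V] [Module F V] (Q : QuadraticForm F V)

/-- a set of non-singular vectors closed under its own reflections -/
structure RCl (R : V → Prop) : Prop where
  ns : ∀ x, R x → Q x ≠ 0
  refl : ∀ x y, R x → R y → R (reflLin Q x y)

/-- all non-singular vectors of `A` satisfy `R` -/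
def Full (R : V → Prop) (A : Submodule F V) : Prop := ∀ x ∈ A, Q x ≠ 0 → R x

variable {Q} {R : V → Prop}

theorem RCl.step (hR : RCl Q R) {A C : Submodule F V}
    (hAC : ∀ a ∈ A, ∀ c ∈ C, polar Q a c = 0) (hA : Full Q R A) {b a' c' : V} (hb : b ∈ A)
    (ha' : a' ∈ A) (hc' : c' ∈ C) (hbc : R (b + c')) (hp : polar Q a' b = Q b - Q c')
    (hq : Q a' + Q c' ≠ 0) : R (a' + c') := by
  have hy0 := hR.ns _ hbc
  have hy : Q (b + c') = Q b + Q c' := by rw [qmap_add, hAC b hb c' hc', add_zero]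
  have hx : Q (a' - b) = Q a' + Q c' := by rw [qmap_sub, hp]; ring
  have hRx : R (a' - b) := hA _ (A.sub_mem ha' hb) (by rw [hx]; exact hq)
  have h1 := hR.refl _ _ hbc hRx
  have h2 : polar Q (b + c') (a' - b) = - Q (b + c') := by
    rw [polar_add_left, polar_sub_right, polar_sub_right, polar_self_two, polar_comm Q b a', hp,
      polar_comm Q c' a', hAC a' ha' c' hc', polar_comm Q c' b, hAC b hb c' hc', hy]
    ring
  have h3 : reflLin Q (b + c') (a' - b) = a' + c' := by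
    rw [reflLin_apply, h2, mul_neg, inv_mul_cancel₀ hy0, neg_smul, one_smul]
    abel
  rwa [h3] at h1

variable [Fintype F] [FiniteDimensional F V]

theorem RCl.changeA_good (h2 : (2 : F) ≠ 0) (hR : RCl Q R) {A C : Submodule F V}
    (hAC : ∀ a ∈ A, ∀ c ∈ C, polar Q a c = 0) (hA : Full Q R A) (hnd : NDon Q A)
    (hd : 3 ≤ finrank F A) {b a' c' : V} (hb : b ∈ A) (hb0 : b ≠ 0) (ha' : a' ∈ A)
    (ha'0 : a' ≠ 0) (hc' : c' ∈ C) (hbc : R (b + c')) (hq : Q a' + Q c' ≠ 0)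
    (hgood : Q a' ≠ 0 ∨ Q b ≠ Q c') : R (a' + c') := by
  have hy0 := hR.ns _ hbc
  have hy : Q (b + c') = Q b + Q c' := by rw [qmap_add, hAC b hb c' hc', add_zero]
  rw [hy] at hy0
  obtain ⟨a₁, ha₁, hp, hQ1⟩ := hnd.exists_polar_norm h2 hd hb hb0 (Q b - Q c') (Q a') (by
    by_cases h0 : Q b = 0
    · right
      rw [h0] at hy0 ⊢
      simpa using hy0
    · exact Or.inl h0)
  have ha₁0 : a₁ ≠ 0 := by
    rintro rfl
    rw [polar_zero_right] at hp
    rw [map_zero] at hQ1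
    rcases hgood with h | h
    · exact h hQ1.symm
    · exact h (by linear_combination -hp)
  have h1 : R (a₁ + c') := hR.step hAC hA hb ha₁ hc' hbc (by rw [polar_comm]; exact hp)
    (by rw [hQ1]; exact hq)
  exact hnd.trans_refl h2 (fun u hu h0 x hx => hR.refl u x (hA u hu h0) hx) ha₁ ha' ha₁0 ha'0 hQ1
    (fun u hu => hAC u hu c' hc') h1

omit [FiniteDimensional F V] [AddCommGroup V] [Module F V] in
theorem exists_ne3 (h : 3 < Fintype.card F) (a b c : F) : ∃ x : F, x ≠ a ∧ x ≠ b ∧ x ≠ c := by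
  classical
  by_contra hcon
  push Not at hcon
  have : (Finset.univ : Finset F) ⊆ {a, b, c} := by
    intro x _
    by_cases hx : x = a
    · simp [hx]
    · by_cases hx' : x = b
      · simp [hx']
      · simp [hcon x hx hx']
  have h1 := Finset.card_le_card this
  have h2 : ({a, b, c} : Finset F).card ≤ 3 := Finset.card_le_three
  rw [Finset.card_univ] at h1
  omega

theorem RCl.changeA (h2 : (2 : F) ≠ 0) (hR : RCl Q R) {A C : Submodule F V}
    (hAC : ∀ a ∈ A, ∀ c ∈ C, polar Q a c = 0) (hA : Full Q R A) (hnd : NDon Q A)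
    (hd : 3 ≤ finrank F A) (hex : Fintype.card F ≠ 3 ∨ 4 ≤ finrank F A) {b a' c' : V}
    (hb : b ∈ A) (hb0 : b ≠ 0) (ha' : a' ∈ A)
    (ha'0 : a' ≠ 0) (hc' : c' ∈ C) (hbc : R (b + c')) (hq : Q a' + Q c' ≠ 0) : R (a' + c') := by
  by_cases hgood : Q a' ≠ 0 ∨ Q b ≠ Q c'
  · exact hR.changeA_good h2 hAC hA hnd hd hb hb0 ha' ha'0 hc' hbc hq hgood
  push Not at hgood
  obtain ⟨hQa', hQb⟩ := hgood
  have hγ : Q c' ≠ 0 := by rw [hQa', zero_add] at hq; exact hq
  rcases hex with hex | hex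
  · have h3 : 3 < Fintype.card F := by
      have := two_lt_card_of_two_ne_zero h2
      omega
    obtain ⟨α, hα0, hα1, hα2⟩ := exists_ne3 h3 0 (Q c') (-Q c')
    obtain ⟨b₂, hb₂, hQb₂⟩ := hnd.univ h2 (by omega) α
    have hb₂0 : b₂ ≠ 0 := by
      rintro rfl
      rw [map_zero] at hQb₂
      exact hα0 hQb₂.symm
    have h1 : R (b₂ + c') := hR.changeA_good h2 hAC hA hnd hd hb hb0 hb₂ hb₂0 hc' hbc
      (by rw [hQb₂]; intro h; exact hα2 (by linear_combination h)) (Or.inl (by rw [hQb₂]; exact hα0))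
    exact hR.changeA_good h2 hAC hA hnd hd hb₂ hb₂0 ha' ha'0 hc' h1 hq
      (Or.inr (by rw [hQb₂]; exact hα1))
  · have hQb0 : Q b ≠ 0 := by rw [hQb]; exact hγ
    have h1 := hnd.inf_ker h2 hb hQb0
    have d1 := finrank_inf_ker_self h2 hb hQb0
    obtain ⟨s, hs, hs0, hQs⟩ := h1.exists_sing h2 (by omega)
    have hbs : polar Q b s = 0 := hs.2
    have h3 : R (s + c') := hR.step hAC hA hb hs.1 hc' hbc
      (by rw [polar_comm, hbs, hQb, sub_self]) (by rw [hQs, zero_add]; exact hγ)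
    exact hnd.trans_refl h2 (fun u hu h0 x hx => hR.refl u x (hA u hu h0) hx) hs.1 ha' hs0 ha'0
      (by rw [hQs, hQa']) (fun u hu => hAC u hu c' hc') h3

/-- the merging lemma -/
theorem RCl.merge (h2 : (2 : F) ≠ 0) (hR : RCl Q R) {A C : Submodule F V}
    (hAC : ∀ a ∈ A, ∀ c ∈ C, polar Q a c = 0) (hA : Full Q R A) (hC : Full Q R C)
    (hndA : NDon Q A) (hndC : NDon Q C) (hdA : 3 ≤ finrank F A) (hdC : 3 ≤ finrank F C)
    (hexA : Fintype.card F ≠ 3 ∨ 4 ≤ finrank F A) (hexC : Fintype.card F ≠ 3 ∨ 4 ≤ finrank F C)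
    {a c : V} (ha : a ∈ A) (ha0 : a ≠ 0) (hc : c ∈ C) (hc0 : c ≠ 0) (hac : R (a + c)) :
    Full Q R (A ⊔ C) := by
  intro x hx hQx
  obtain ⟨a'', ha'', c'', hc'', rfl⟩ := Submodule.mem_sup.1 hx
  by_cases ha''0 : a'' = 0
  · subst ha''0
    rw [zero_add] at hQx ⊢
    exact hC _ hc'' hQx
  by_cases hc''0 : c'' = 0
  · subst hc''0
    rw [add_zero] at hQx ⊢
    exact hA _ ha'' hQx
  have hCA : ∀ c ∈ C, ∀ a ∈ A, polar Q c a = 0 := fun c hc a ha => by
    rw [polar_comm]; exact hAC a ha c hc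
  obtain ⟨α, hα1, hα2⟩ := exists_ne_ne (two_lt_card_of_two_ne_zero h2) (-Q c) (-Q c'')
  obtain ⟨a₂, ha₂, ha₂0, hQa₂⟩ : ∃ a₂ ∈ A, a₂ ≠ 0 ∧ Q a₂ = α := by
    by_cases hα : α = 0
    · obtain ⟨s, hs, hs0, hQs⟩ := hndA.exists_sing h2 hdA
      exact ⟨s, hs, hs0, by rw [hQs, hα]⟩
    · obtain ⟨s, hs, hQs⟩ := hndA.univ h2 (by omega) α
      refine ⟨s, hs, ?_, hQs⟩
      rintro rfl
      rw [map_zero] at hQs
      exact hα hQs.symm
  have h1 : R (a₂ + c) := hR.changeA h2 hAC hA hndA hdA hexA ha ha0 ha₂ ha₂0 hc hac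
    (by rw [hQa₂]; intro h; exact hα1 (by linear_combination h))
  have h3 : R (c'' + a₂) := hR.changeA h2 hCA hC hndC hdC hexC hc hc0 hc'' hc''0 ha₂
    (by rw [add_comm]; exact h1) (by rw [hQa₂]; intro h; exact hα2 (by linear_combination h))
  refine hR.changeA h2 hAC hA hndA hdA hexA ha₂ ha₂0 ha'' ha''0 hc'' (by rw [add_comm]; exact h3) ?_
  rw [qmap_add, hAC a'' ha'' c'' hc'', add_zero] at hQx
  exact hQx

end DecMerge

end Cfsg.Agent.Lib.Helper49
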