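import Mathlib
import Cfsg.Agent.Lib.Helper49.DecMerge
import Cfsg.Agent.Lib.Helper49.DecEng

set_option autoImplicit false

namespace Cfsg.Agent.Lib.Helper49

open QuadraticMap Module Cfsg.Agent.Lib.Helper95

section DecBlocks

variable {F V : Type*} [Field F] [AddCommGroup V] [Module F V] (Q : QuadraticForm F V)

/-- an orthogonal decomposition into isometric non-degenerate subspaces of dimension `k` -/
structure ODec {t : ℕ} (k : ℕ) (D : Fin t → Submodule F V) : Prop where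
  two_le : 2 ≤ t
  finrank_eq : ∀ i, finrank F (D i) = k
  top : iSup D = ⊤
  nd : ∀ i, NDon Q (D i)
  orth : ∀ i j, i ≠ j → ∀ u ∈ D i, ∀ v ∈ D j, polar Q u v = 0
  iso : ∀ i j, ∃ e : D i ≃ₗ[F] D j, ∀ w : D i, Q ((e w : D j) : V) = Q (w : V)

/-- non-singular vectors lying in a block -/
def SD {t : ℕ} (D : Fin t → Submodule F V) (x : V) : Prop := Q x ≠ 0 ∧ ∃ i, x ∈ D i

/-- stabiliser of the decomposition -/
def StabD {t : ℕ} (D : Fin t → Submodule F V) (g : V ≃ₗ[F] V) : Prop :=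
  ∃ σ : Equiv.Perm (Fin t), ∀ i, (D i).map (g : V →ₗ[F] V) = D (σ i)

variable {Q} {t k : ℕ} {D : Fin t → Submodule F V}

theorem polar_sum_left {ι : Type*} (s : Finset ι) (f : ι → V) (u : V) :
    polar Q (∑ l ∈ s, f l) u = ∑ l ∈ s, polar Q (f l) u := by
  classical
  induction s using Finset.induction_on with
  | empty => simp
  | insert a s ha ih => rw [Finset.sum_insert ha, Finset.sum_insert ha, polar_add_left, ih]

theorem exists_ne_fin (ht : 2 ≤ t) (j : Fin t) : ∃ i : Fin t, i ≠ j := by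
  by_cases h : j.val = 0
  · exact ⟨⟨1, by omega⟩, fun h' => by rw [← h'] at h; simp at h⟩
  · exact ⟨⟨0, by omega⟩, fun h' => by rw [← h'] at h; simp at h⟩

theorem ODec.comps (h : ODec Q k D) (x : V) :
    ∃ f : Fin t → V, (∀ l, f l ∈ D l) ∧ x = ∑ l, f l := by
  have hx : x ∈ ⨆ i ∈ (Finset.univ : Finset (Fin t)), D i := by
    simp only [Finset.mem_univ, iSup_pos]
    rw [h.top]; trivial
  obtain ⟨μ, hμ⟩ := (Submodule.mem_iSup_finset_iff_exists_sum D x).1 hx
  exact ⟨fun l => μ l, fun l => (μ l).2, hμ.symm⟩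

theorem ODec.polar_sum (h : ODec Q k D) {f : Fin t → V} (hf : ∀ l, f l ∈ D l) {i : Fin t} {u : V}
    (hu : u ∈ D i) : polar Q (∑ l, f l) u = polar Q (f i) u := by
  rw [polar_sum_left]
  apply Finset.sum_eq_single i
  · intro l _ hl
    exact h.orth l i hl _ (hf l) _ hu
  · intro h'; exact absurd (Finset.mem_univ i) h'

theorem ODec.Q_sum (h : ODec Q k D) {f : Fin t → V} (hf : ∀ l, f l ∈ D l) (s : Finset (Fin t)) :
    Q (∑ l ∈ s, f l) = ∑ l ∈ s, Q (f l) := by
  classical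
  induction s using Finset.induction_on with
  | empty => simp
  | insert a s ha ih =>
    rw [Finset.sum_insert ha, Finset.sum_insert ha, qmap_add, ih, polar_comm, polar_sum_left]
    have : ∑ l ∈ s, polar Q (f l) (f a) = 0 := by
      apply Finset.sum_eq_zero
      intro l hl
      exact h.orth l a (by rintro rfl; exact ha hl) _ (hf l) _ (hf a)
    rw [this, add_zero]

theorem ODec.exists_nonsing_comp (h : ODec Q k D) {f : Fin t → V} (hf : ∀ l, f l ∈ D l)
    (hQ : Q (∑ l, f l) ≠ 0) : ∃ j, Q (f j) ≠ 0 := by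
  by_contra hcon
  push Not at hcon
  apply hQ
  rw [h.Q_sum hf]
  exact Finset.sum_eq_zero fun l _ => hcon l

theorem ODec.disj (h : ODec Q k D) {i j : Fin t} (hij : i ≠ j) {x : V} (hi : x ∈ D i)
    (hj : x ∈ D j) : x = 0 := by
  by_contra h0
  obtain ⟨y, hy, hxy⟩ := h.nd i x hi h0
  exact hxy (by rw [polar_comm]; exact h.orth i j hij y hy x hj)

theorem ODec.refl_mem (h : ODec Q k D) {i l : Fin t} {a x : V} (ha : a ∈ D i) (hx : x ∈ D l) :
    reflLin Q a x ∈ D l := by
  by_cases hil : i = l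
  · subst hil
    rw [reflLin_apply]
    exact (D i).sub_mem hx ((D i).smul_mem _ ha)
  · rw [reflLin_of_polar_eq_zero Q a x (h.orth i l hil a ha x hx)]
    exact hx

theorem ODec.not_mem_block (h : ODec Q k D) {i j : Fin t} (hij : i ≠ j) {u v : V} (hu : u ∈ D i)
    (hv : v ∈ D j) (hu0 : u ≠ 0) (hv0 : v ≠ 0) (l : Fin t) : u + v ∉ D l := by
  intro hl
  by_cases hli : l = i
  · subst hli
    apply hv0
    apply h.disj hij _ hv
    have := (D l).sub_mem hl hu
    rwa [add_sub_cancel_left] at this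
  · obtain ⟨y, hy, huy⟩ := h.nd i u hu hu0
    apply huy
    have h1 := h.orth l i hli _ hl y hy
    rw [polar_add_left, h.orth j i hij.symm v hv y hy, add_zero] at h1
    exact h1

variable [FiniteDimensional F V]

theorem ODec.stabD_of_perm (h : ODec Q k D) (g : V ≃ₗ[F] V) (σ : Equiv.Perm (Fin t))
    (hg : ∀ l, ∀ x ∈ D l, g x ∈ D (σ l)) : StabD D g := by
  refine ⟨σ, fun i => ?_⟩
  apply Submodule.eq_of_le_of_finrank_eq
  · rintro _ ⟨x, hx, rfl⟩
    exact hg i x hx
  · rw [h.finrank_eq, LinearEquiv.finrank_map_eq g (D i), h.finrank_eq]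

theorem ODec.stabD_of_maps (h : ODec Q k D) (hk : 0 < k) (g : V ≃ₗ[F] V)
    (hg : ∀ i, ∃ j, ∀ x ∈ D i, g x ∈ D j) : StabD D g := by
  choose σ hσ using hg
  have hmap : ∀ i, (D i).map (g : V →ₗ[F] V) = D (σ i) := by
    intro i
    apply Submodule.eq_of_le_of_finrank_eq
    · rintro _ ⟨x, hx, rfl⟩
      exact hσ i x hx
    · rw [h.finrank_eq, LinearEquiv.finrank_map_eq g (D i), h.finrank_eq]
  have hinj : Function.Injective σ := by
    intro i i' hii
    by_contra hne
    obtain ⟨e, he, he0⟩ := Submodule.exists_mem_ne_zero_of_ne_bot (p := D i) (by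
      intro h0
      have := h.finrank_eq i
      rw [h0, finrank_bot] at this
      omega)
    have h1 : g e ∈ D (σ i') := by rw [← hii]; exact hσ i e he
    rw [← hmap i'] at h1
    obtain ⟨y, hy, hye⟩ := h1
    have : y = e := g.injective hye
    subst this
    exact he0 (h.disj hne he hy)
  exact ⟨Equiv.ofBijective σ (Finite.injective_iff_bijective.1 hinj), hmap⟩

variable [Fintype F]

/-- the reflection engine for a decomposition -/
theorem ODec.eng1 (h : ODec Q k D) (h2 : (2 : F) ≠ 0) (hk : 3 ≤ k)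
    (hQ : (polarBilin Q).Nondegenerate) {M : Subgroup (OG Q)}
    (hM : ∀ g : OG Q, g ∈ commutator (OG Q) → StabD D g.1 → g ∈ M) : Eng1 Q M (SD Q D) where
  ns a ha := ha.1
  pair a b ha hb hab := by
    obtain ⟨i, hi⟩ := ha.2
    obtain ⟨j, hj⟩ := hb.2
    apply hM _ (refl_mul_refl_mem_commutator_of_eq _ hQ _ _ ha.1 hab)
    apply h.stabD_of_perm _ 1
    intro l x hx
    exact h.refl_mem hi (h.refl_mem hj hx)
  refl_closed a b ha hb := by
    obtain ⟨i, hi⟩ := ha.2
    obtain ⟨j, hj⟩ := hb.2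
    exact ⟨by rw [Q_reflLin]; exact hb.1, j, h.refl_mem hi hj⟩
  smul_closed c a hc ha := by
    obtain ⟨i, hi⟩ := ha.2
    exact ⟨by rw [QuadraticMap.map_smul]; exact mul_ne_zero (mul_ne_zero hc hc) ha.1, i,
      (D i).smul_mem _ hi⟩
  rich1 z hz δ ε hδ hε := by
    obtain ⟨f, hf, rfl⟩ := h.comps z
    obtain ⟨j, hj⟩ := h.exists_nonsing_comp hf hz
    obtain ⟨c, hc, hp, hQc⟩ := (h.nd j).univ_perp h2 (by rw [h.finrank_eq]; exact hk) (hf j) hj δ
    obtain ⟨i, hij⟩ := exists_ne_fin h.two_le j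
    obtain ⟨a, ha, hQa⟩ := (h.nd i).univ h2 (by rw [h.finrank_eq]; omega) ε
    refine ⟨c, a, ⟨by rw [hQc]; exact hδ, j, hc⟩, ⟨by rw [hQa]; exact hε, i, ha⟩, hQc, hQa, ?_, ?_⟩
    · rw [polar_comm, h.polar_sum hf hc, hp]
    · exact h.orth j i hij.symm c hc a ha

end DecBlocks

end Cfsg.Agent.Lib.Helper49
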