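import Mathlib
import Cfsg.Agent.Lib.Helper49.DecBlocks

set_option autoImplicit false

namespace Cfsg.Agent.Lib.Helper49

open QuadraticMap Module Cfsg.Agent.Lib.Helper95

section DecPartI

variable {F V : Type*} [Field F] [AddCommGroup V] [Module F V] {Q : QuadraticForm F V}
  {t k : ℕ} {D : Fin t → Submodule F V}

theorem ODec.same_block (h : ODec Q k D) (m : OG Q) {u x : V} {j : Fin t} (hu : m.1 u ∈ D j)
    (hp : polar Q u x ≠ 0) (hx : SD Q D (m.1 x)) : m.1 x ∈ D j := by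
  obtain ⟨j', hj'⟩ := hx.2
  by_cases hjj : j = j'
  · rw [hjj]; exact hj'
  · exfalso
    apply hp
    rw [← OG_polar Q m]
    exact h.orth j j' hjj _ hu _ hj'

variable [FiniteDimensional F V]

/-- an isometry mapping all block vectors to block vectors stabilises the decomposition -/
theorem ODec.stabD_of_SD_maps (h : ODec Q k D) (h2 : (2 : F) ≠ 0) (hk : 3 ≤ k) (m : OG Q)
    (hm : ∀ b, SD Q D b → SD Q D (m.1 b)) : StabD D m.1 := by
  apply h.stabD_of_maps (by omega)
  intro i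
  obtain ⟨e, he, hQe⟩ := (h.nd i).exists_nonsing (by
    intro h0
    have := h.finrank_eq i
    rw [h0, finrank_bot] at this
    omega)
  obtain ⟨j, hj⟩ := (hm e ⟨hQe, i, he⟩).2
  refine ⟨j, ?_⟩
  have c1 : ∀ u ∈ D i, m.1 u ∈ D j → ∀ x ∈ D i, Q x ≠ 0 → polar Q u x ≠ 0 → m.1 x ∈ D j :=
    fun u _ hmu x hx hQx hp => h.same_block m hmu hp (hm x ⟨hQx, i, hx⟩)
  have c2 : ∀ x ∈ D i, Q x ≠ 0 → m.1 x ∈ D j := by
    intro x hx hQx
    by_cases hp : polar Q e x = 0
    · obtain ⟨x'', hx'', hQx'', h1, h3⟩ : ∃ x'' ∈ D i, Q x'' ≠ 0 ∧ polar Q e x'' ≠ 0 ∧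
          polar Q x'' x ≠ 0 := by
        by_cases hs : Q e + Q x = 0
        · have n1 := (h.nd i).inf_ker h2 he hQe
          have d1 := finrank_inf_ker_self h2 he hQe
          have hx1 : x ∈ D i ⊓ LinearMap.ker (polarBilin Q e) := ⟨hx, hp⟩
          have n2 := n1.inf_ker h2 hx1 hQx
          have d2 := finrank_inf_ker_self h2 hx1 hQx
          rw [h.finrank_eq] at d1
          obtain ⟨e₃, he₃, hQe₃⟩ := n2.exists_nonsing (by
            intro h0
            rw [h0, finrank_bot] at d2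
            omega)
          have p1 : polar Q e e₃ = 0 := he₃.1.2
          have p2 : polar Q x e₃ = 0 := he₃.2
          refine ⟨e + x + e₃, (D i).add_mem ((D i).add_mem he hx) he₃.1.1, ?_, ?_, ?_⟩
          · rw [qmap_add, qmap_add, polar_add_left, hp, p1, p2]
            intro h0
            apply hQe₃
            linear_combination h0 - hs
          · rw [polar_add_right, polar_add_right, polar_self_two, hp, p1]
            simpa using mul_ne_zero h2 hQe
          · rw [polar_add_left, polar_add_left, polar_self_two, hp, polar_comm Q e₃ x, p2]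
            simpa using mul_ne_zero h2 hQx
        · refine ⟨e + x, (D i).add_mem he hx, ?_, ?_, ?_⟩
          · rw [qmap_add, hp, add_zero]; exact hs
          · rw [polar_add_right, polar_self_two, hp]
            simpa using mul_ne_zero h2 hQe
          · rw [polar_add_left, polar_self_two, hp]
            simpa using mul_ne_zero h2 hQx
      exact c1 x'' hx'' (c1 e he hj x'' hx'' hQx'' h1) x hx hQx h3
    · exact c1 e he hj x hx hQx hp
  intro x hx
  by_cases hQx : Q x = 0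
  · by_cases hs : Q (x + e) = 0
    · have hs' : Q (x - e) ≠ 0 := by
        intro h0
        rw [qmap_add] at hs
        rw [qmap_sub] at h0
        apply mul_ne_zero h2 hQe
        linear_combination hs + h0 - 2 * hQx
      have := (D j).add_mem (c2 _ ((D i).sub_mem hx he) hs') hj
      rwa [← map_add, sub_add_cancel] at this
    · have := (D j).sub_mem (c2 _ ((D i).add_mem hx he) hs) hj
      rwa [← map_sub, add_sub_cancel_right] at this
  · exact c2 x hx hQx

variable [Fintype F]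

/-- two vectors of the same norm spanning a non-degenerate plane -/
theorem NDon.exists_pair (h2 : (2 : F) ≠ 0) {P : Submodule F V} (h : NDon Q P)
    (hd : 2 ≤ finrank F P) (hex : Fintype.card F ≠ 3 ∨ 3 ≤ finrank F P) :
    ∃ x ∈ P, ∃ x' ∈ P, Q x = Q x' ∧ Q x ≠ 0 ∧ polar Q x x' ^ 2 ≠ 4 * Q x ^ 2 := by
  rcases hex with hex | hex
  · obtain ⟨e₁, he₁, e₂, he₂, hQ1, hQ2, h12⟩ := h.exists_orth_pair h2 hd
    obtain ⟨c, hc0, hc1⟩ := exists_sq_ne_one h2 hex
    obtain ⟨l, hl0, hl⟩ : ∃ l : F, l ≠ 0 ∧ Q e₁ + l ^ 2 * Q e₂ ≠ 0 := by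
      by_cases hs : Q e₁ + Q e₂ = 0
      · refine ⟨c, hc0, ?_⟩
        intro h0
        have : (c ^ 2 - 1) * Q e₂ = 0 := by linear_combination h0 - hs
        rcases mul_eq_zero.1 this with h' | h'
        · exact hc1 (by linear_combination h')
        · exact hQ2 h'
      · exact ⟨1, one_ne_zero, by simpa using hs⟩
    set w := e₁ + l • e₂ with hw
    have hwP : w ∈ P := P.add_mem he₁ (P.smul_mem _ he₂)
    have hQw : Q w = Q e₁ + l ^ 2 * Q e₂ := by
      rw [hw, qmap_add, QuadraticMap.map_smul, polar_smul_right, h12]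
      simp only [smul_eq_mul]; ring
    have hpw : polar Q w e₁ = 2 * Q e₁ := by
      rw [hw, polar_add_left, polar_self_two, polar_smul_left, polar_comm Q e₂ e₁, h12]; simp
    have hQw0 : Q w ≠ 0 := by rw [hQw]; exact hl
    refine ⟨e₁, he₁, reflLin Q w e₁, ?_, (Q_reflLin Q w e₁).symm, hQ1, ?_⟩
    · rw [reflLin_apply]; exact P.sub_mem he₁ (P.smul_mem _ hwP)
    · rw [reflLin_apply, polar_sub_right, polar_smul_right, polar_self_two, polar_comm Q e₁ w, hpw]
      simp only [smul_eq_mul]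
      intro h0
      have h3 : (2 * Q e₁ * (Q w - 2 * Q e₁)) ^ 2 = 4 * Q e₁ ^ 2 * Q w ^ 2 := by
        have e : 2 * Q e₁ - (Q w)⁻¹ * (2 * Q e₁) * (2 * Q e₁)
            = (2 * Q e₁ * (Q w - 2 * Q e₁)) / Q w := by
          field_simp
        rw [e, div_pow] at h0
        field_simp at h0
        linear_combination (Q e₁) ^ 2 * h0
      have h4 : 16 * Q e₁ ^ 3 * (l ^ 2 * Q e₂) = 0 := by
        rw [hQw] at h3
        linear_combination -h3
      have h16 : (16 : F) ≠ 0 := by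
        have : (16 : F) = 2 * 2 * 2 * 2 := by norm_num
        rw [this]
        exact mul_ne_zero (mul_ne_zero (mul_ne_zero h2 h2) h2) h2
      exact mul_ne_zero (mul_ne_zero h16 (pow_ne_zero 3 hQ1))
        (mul_ne_zero (pow_ne_zero 2 hl0) hQ2) h4
  · obtain ⟨x, hx, hQx⟩ := h.exists_nonsing (by rintro rfl; simp at hd)
    obtain ⟨x', hx', hp, hQx'⟩ := h.univ_perp h2 hex hx hQx (Q x)
    refine ⟨x, hx, x', hx', hQx'.symm, hQx, ?_⟩
    rw [hp]
    have h4 : (4 : F) ≠ 0 := by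
      have : (4 : F) = 2 * 2 := by norm_num
      rw [this]; exact mul_ne_zero h2 h2
    have := mul_ne_zero h4 (pow_ne_zero 2 hQx)
    intro h0
    apply this
    rw [← h0]; ring

/-- from one norm to all norms -/
theorem ODec.all_norms (h : ODec Q k D) (h2 : (2 : F) ≠ 0) (hk : 3 ≤ k)
    (hex : Fintype.card F ≠ 3 ∨ 4 ≤ k) (m : OG Q)
    (hA1 : ∀ a, SD Q D a → SD Q D (m.1 a) → ∀ b, SD Q D b → Q b = Q a → SD Q D (m.1 b))
    {a : V} (ha : SD Q D a) (hma : SD Q D (m.1 a)) : ∀ b, SD Q D b → SD Q D (m.1 b) := by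
  intro b hb
  suffices hs : ∃ a₂, SD Q D a₂ ∧ SD Q D (m.1 a₂) ∧ Q a₂ = Q b by
    obtain ⟨a₂, h1, h3, h4⟩ := hs
    exact hA1 a₂ h1 h3 b hb h4.symm
  obtain ⟨i, hi⟩ := ha.2
  obtain ⟨j, hj⟩ := hma.2
  have hQa := ha.1
  have key : ∀ (c : F) (w : V), c ≠ 0 → w ∈ D i → polar Q a w = 0 → c ^ 2 * Q a + Q w = Q a →
      m.1 w ∈ D j := by
    intro c w hc hw hp hq
    have hx'D : c • a + w ∈ D i := (D i).add_mem ((D i).smul_mem _ hi) hw
    have hQx' : Q (c • a + w) = Q a := by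
      rw [qmap_add, QuadraticMap.map_smul, polar_smul_left, hp]
      simp only [smul_eq_mul]
      linear_combination hq
    have h1 : SD Q D (m.1 (c • a + w)) :=
      hA1 a ha hma _ ⟨by rw [hQx']; exact hQa, i, hx'D⟩ hQx'
    have h3 : polar Q a (c • a + w) ≠ 0 := by
      rw [polar_add_right, polar_smul_right, polar_self_two, hp, add_zero, smul_eq_mul]
      exact mul_ne_zero hc (mul_ne_zero h2 hQa)
    have h4 := h.same_block m hj h3 h1
    have h5 := (D j).sub_mem h4 ((D j).smul_mem c hj)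
    rwa [map_add, map_smul, add_sub_cancel_left] at h5
  have fin : ∀ a₂ ∈ D i, m.1 a₂ ∈ D j → Q a₂ = Q b →
      ∃ a₂, SD Q D a₂ ∧ SD Q D (m.1 a₂) ∧ Q a₂ = Q b := by
    intro a₂ h1 h3 h4
    exact ⟨a₂, ⟨by rw [h4]; exact hb.1, i, h1⟩, ⟨by rw [OG_apply, h4]; exact hb.1, j, h3⟩, h4⟩
  have hdi : finrank F (D i) = k := h.finrank_eq i
  rcases hex with hex | hex
  · obtain ⟨c, hc0, hc1⟩ := exists_sq_ne_one h2 hex
    obtain ⟨w, hw, hp, hQw⟩ := (h.nd i).univ_perp h2 (by omega) hi hQa ((1 - c ^ 2) * Q a)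
    have hmw := key c w hc0 hw hp (by rw [hQw]; ring)
    have hQw0 : Q w ≠ 0 := by
      rw [hQw]
      refine mul_ne_zero ?_ hQa
      intro h0
      exact hc1 (by linear_combination -h0)
    obtain ⟨x, y, hxy⟩ := exists_sq_add_sq' _ _ (Q b) hQa hQw0
    apply fin (x • a + y • w) ((D i).add_mem ((D i).smul_mem _ hi) ((D i).smul_mem _ hw))
    · rw [map_add, map_smul, map_smul]
      exact (D j).add_mem ((D j).smul_mem _ hj) ((D j).smul_mem _ hmw)
    · rw [qmap_add, QuadraticMap.map_smul, QuadraticMap.map_smul, polar_smul_left,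
        polar_smul_right, hp]
      simp only [smul_eq_mul]
      linear_combination hxy
  · have n1 := (h.nd i).inf_ker h2 hi hQa
    have d1 := finrank_inf_ker_self h2 hi hQa
    obtain ⟨s, hs, hs0, hQs⟩ := n1.exists_sing h2 (by omega)
    obtain ⟨u, hu, hsu⟩ := n1 s hs hs0
    obtain ⟨s', hs', hQs', hss'⟩ : ∃ s' ∈ D i ⊓ LinearMap.ker (polarBilin Q a), Q s' = 0 ∧
        polar Q s s' ≠ 0 := by
      refine ⟨u - (Q u / polar Q s u) • s, Submodule.sub_mem _ hu (Submodule.smul_mem _ _ hs), ?_, ?_⟩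
      · rw [Q_sub_smul, hQs]; field_simp; ring
      · rw [polar_sub_right, polar_smul_right, polar_self_two, hQs]; simpa using hsu
    have m1 := key 1 s one_ne_zero hs.1 hs.2 (by rw [hQs]; ring)
    have m2 := key 1 s' one_ne_zero hs'.1 hs'.2 (by rw [hQs']; ring)
    apply fin (s + (Q b / polar Q s s') • s') ((D i).add_mem hs.1 ((D i).smul_mem _ hs'.1))
    · rw [map_add, map_smul]
      exact (D j).add_mem m1 ((D j).smul_mem _ m2)
    · rw [qmap_add, QuadraticMap.map_smul, hQs, hQs', polar_smul_right]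
      simp only [smul_eq_mul]
      field_simp
      ring

/-- **Part I**: an overgroup not stabilising the decomposition produces a new vector in `CC`. -/
theorem ODec.exists_CC_not_SD (h : ODec Q k D) (h2 : (2 : F) ≠ 0) (hk : 3 ≤ k)
    (hex : Fintype.card F ≠ 3 ∨ 4 ≤ k) {M : Subgroup (OG Q)} (E : Eng1 Q M (SD Q D)) {g : OG Q}
    (hg : g ∈ M) (hgS : ¬ StabD D g.1) : ∃ z, CC Q M (SD Q D) z ∧ ¬ SD Q D z := by
  by_contra hcon
  push Not at hcon
  have claimA : ∀ m ∈ M, ∀ a, SD Q D a → SD Q D (m.1 a) → StabD D m.1 := by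
    intro m hm a ha hma
    apply h.stabD_of_SD_maps h2 hk m
    apply h.all_norms h2 hk hex m _ ha hma
    intro a' ha' hma' b hb hab
    exact hcon _ (E.CC_map_of_one hm ha' hma' hb hab)
  have hno : ∀ a, SD Q D a → ¬ SD Q D (g.1 a) := fun a ha hga => hgS (claimA g hg a ha hga)
  have hbot : ∀ l, D l ≠ ⊥ := by
    intro l h0
    have := h.finrank_eq l
    rw [h0, finrank_bot] at this
    omega
  obtain ⟨a', ha'D, hQa'⟩ := (h.nd ⟨0, by have := h.two_le; omega⟩).exists_nonsing (hbot _)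
  have ha' : SD Q D a' := ⟨hQa', _, ha'D⟩
  obtain ⟨f, hf, hy⟩ := h.comps (g.1 a')
  have hQy : Q (∑ l, f l) ≠ 0 := by rw [← hy, OG_apply]; exact hQa'
  obtain ⟨i, hi⟩ := h.exists_nonsing_comp hf hQy
  have n1 := (h.nd i).inf_ker h2 (hf i) hi
  have d1 := finrank_inf_ker_self h2 (hf i) hi
  rw [h.finrank_eq] at d1
  obtain ⟨x, hx, x', hx', hxx, hQx, hdisc⟩ := n1.exists_pair h2 (by omega) (by
    rcases hex with h' | h'
    · exact Or.inl h'
    · right; omega)
  have hQx' : Q x' ≠ 0 := by rw [← hxx]; exact hQx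
  have hyx : polar Q x (g.1 a') = 0 := by
    rw [hy, polar_comm, h.polar_sum hf hx.1]; exact hx.2
  have hyx' : polar Q x' (g.1 a') = 0 := by
    rw [hy, polar_comm, h.polar_sum hf hx'.1]; exact hx'.2
  have hu : refl Q x * refl Q x' ∈ M := E.pair x x' ⟨hQx, i, hx.1⟩ ⟨hQx', i, hx'.1⟩ hxx
  have hgg : ∀ y, g.1 (g⁻¹.1 y) = y := by
    intro y
    have : (g * g⁻¹).1 y = y := by rw [mul_inv_cancel]; rfl
    simpa using this
  obtain ⟨p, hgp⟩ : ∃ p, g.1 p = x := ⟨_, hgg x⟩
  obtain ⟨p', hgp'⟩ : ∃ p', g.1 p' = x' := ⟨_, hgg x'⟩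
  have hm : refl Q p * refl Q p' ∈ M := by
    have e : refl Q p * refl Q p' = g⁻¹ * (refl Q x * refl Q x') * g := by
      rw [← hgp, ← hgp', refl_map, refl_map]; group
    rw [e]
    exact M.mul_mem (M.mul_mem (M.inv_mem hg) hu) hg
  obtain ⟨m, hmdef⟩ : ∃ m : OG Q, m = refl Q p * refl Q p' := ⟨_, rfl⟩
  rw [← hmdef] at hm
  have hmap : ∀ w, m.1 w = reflLin Q p (reflLin Q p' w) := by
    intro w
    rw [hmdef]
    simp only [Subgroup.coe_mul, LinearEquiv.mul_apply, refl_coe_apply]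
  have hQp : Q p = Q x := by rw [← hgp, OG_apply]
  have hQp' : Q p' = Q x' := by rw [← hgp', OG_apply]
  have hpp : polar Q p p' = polar Q x x' := by rw [← OG_polar Q g, hgp, hgp']
  have hpa : polar Q p a' = 0 := by rw [← OG_polar Q g, hgp]; exact hyx
  have hpa' : polar Q p' a' = 0 := by rw [← OG_polar Q g, hgp']; exact hyx'
  have hma' : m.1 a' = a' := by
    rw [hmap, reflLin_of_polar_eq_zero Q p' a' hpa', reflLin_of_polar_eq_zero Q p a' hpa]
  obtain ⟨σ, hσ⟩ := claimA m hm a' ha' (by rw [hma']; exact ha')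
  have hfix : ∀ l, ∀ w ∈ D l, m.1 w ∈ D l := by
    intro l
    have e1 := finrank_le_inf_ker_add_one (D l) (polarBilin Q p)
    have e2 := finrank_le_inf_ker_add_one (D l ⊓ LinearMap.ker (polarBilin Q p)) (polarBilin Q p')
    rw [h.finrank_eq] at e1
    obtain ⟨w₀, hw₀, hw₀0⟩ := Submodule.exists_mem_ne_zero_of_ne_bot
      (p := (D l ⊓ LinearMap.ker (polarBilin Q p)) ⊓ LinearMap.ker (polarBilin Q p')) (by
        intro h0
        rw [h0, finrank_bot] at e2
        omega)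
    have hmw : m.1 w₀ = w₀ := by
      rw [hmap, reflLin_of_polar_eq_zero Q p' w₀ hw₀.2, reflLin_of_polar_eq_zero Q p w₀ hw₀.1.2]
    have hσl : σ l = l := by
      by_contra hne
      apply hw₀0
      apply h.disj hne _ hw₀.1.1
      rw [← hσ l]
      exact ⟨w₀, hw₀.1.1, hmw⟩
    intro w hw
    have : m.1 w ∈ (D l).map (m.1 : V →ₗ[F] V) := ⟨w, hw, rfl⟩
    rwa [hσ l, hσl] at this
  have hspan : ∀ e, ∃ c' c'' : F, m.1 e - e = c' • p' + c'' • p := by
    intro e
    refine ⟨-((Q p')⁻¹ * polar Q p' e), -((Q p)⁻¹ * polar Q p (reflLin Q p' e)), ?_⟩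
    have e1 := reflLin_apply Q p (reflLin Q p' e)
    have e2 := reflLin_apply Q p' e
    rw [hmap, e1]
    nth_rewrite 1 [e2]
    rw [neg_smul, neg_smul]
    abel
  obtain ⟨w₀, q1, q2⟩ : ∃ w₀, polar Q p' w₀ = 0 ∧ polar Q p w₀ ≠ 0 := by
    refine ⟨p - (polar Q p p' / (2 * Q p')) • p', ?_, ?_⟩
    · rw [polar_sub_right, polar_smul_right, polar_self_two, polar_comm Q p' p, smul_eq_mul]
      have : Q p' ≠ 0 := by rw [hQp']; exact hQx'
      field_simp
      ring
    · rw [polar_sub_right, polar_smul_right, polar_self_two, smul_eq_mul, hpp, hQp, hQp', ← hxx]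
      intro h0
      apply hdisc
      field_simp at h0
      linear_combination -h0
  have hQp0 : Q p ≠ 0 := by rw [hQp]; exact hQx
  have hmw₀ : m.1 w₀ - w₀ = -(((Q p)⁻¹ * polar Q p w₀) • p) := by
    rw [hmap, reflLin_of_polar_eq_zero Q p' w₀ q1, reflLin_apply]
    abel
  obtain ⟨e, he, hw₀e⟩ := h.comps w₀
  have hv : ∀ l, m.1 (e l) - e l ∈ D l := fun l => (D l).sub_mem (hfix l _ (he l)) (he l)
  have hsum : ∑ l, (m.1 (e l) - e l) = m.1 w₀ - w₀ := by
    rw [hw₀e, map_sum, Finset.sum_sub_distrib]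
  have hQsum : Q (∑ l, (m.1 (e l) - e l)) ≠ 0 := by
    rw [hsum, hmw₀, QuadraticMap.map_neg, QuadraticMap.map_smul]
    exact mul_ne_zero (mul_ne_zero (mul_ne_zero (inv_ne_zero hQp0) q2)
      (mul_ne_zero (inv_ne_zero hQp0) q2)) hQp0
  obtain ⟨l, hl⟩ := h.exists_nonsing_comp hv hQsum
  apply hno _ ⟨hl, l, hv l⟩
  refine ⟨by rw [OG_apply]; exact hl, i, ?_⟩
  obtain ⟨c', c'', hc⟩ := hspan (e l)
  rw [hc, map_add, map_smul, map_smul, hgp, hgp']
  exact (D i).add_mem ((D i).smul_mem _ hx'.1) ((D i).smul_mem _ hx.1)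

end DecPartI

end Cfsg.Agent.Lib.Helper49
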