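import Mathlib
import Cfsg.Agent.Lib.Helper49.DecBlocks

set_option autoImplicit false

namespace Cfsg.Agent.Lib.Helper49

open QuadraticMap Module Cfsg.Agent.Lib.Helper95

section DecSwap

variable {F V : Type*} [Field F] [AddCommGroup V] [Module F V] {Q : QuadraticForm F V}

/-- swapping a non-degenerate subspace with an orthogonal isometric copy, by reflections -/
theorem exists_swap [FiniteDimensional F V] (h2 : (2 : F) ≠ 0) (φ : V →ₗ[F] V) :
    ∀ (n : ℕ) (X : Submodule F V), finrank F X = n → NDon Q X →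
    (∀ x ∈ X, Q (φ x) = Q x) → (∀ x ∈ X, ∀ y ∈ X, polar Q x (φ y) = 0) →
    ∃ σ : OG Q, (∀ x ∈ X, σ.1 x = φ x) ∧ (∀ x ∈ X, σ.1 (φ x) = x) ∧
      (∀ w, (∀ x ∈ X, polar Q x w = 0) → (∀ x ∈ X, polar Q (φ x) w = 0) → σ.1 w = w) := by
  intro n
  induction n with
  | zero =>
    intro X hX _ _ _
    rw [Submodule.finrank_eq_zero] at hX
    subst hX
    refine ⟨1, ?_, ?_, fun w _ _ => rfl⟩
    · intro x hx
      rw [Submodule.mem_bot] at hx
      subst hx
      simp
    · intro x hx
      rw [Submodule.mem_bot] at hx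
      subst hx
      simp
  | succ n ih =>
    intro X hX hnd hφQ hφp
    obtain ⟨a, ha, hQa⟩ := hnd.exists_nonsing (by rintro rfl; simp at hX)
    have n1 := hnd.inf_ker h2 ha hQa
    have d1 := finrank_inf_ker_self h2 ha hQa
    have hpol : ∀ x ∈ X, ∀ y ∈ X, polar Q (φ x) (φ y) = polar Q x y := by
      intro x hx y hy
      simp only [polar]
      rw [← map_add, hφQ _ (X.add_mem hx hy), hφQ x hx, hφQ y hy]
    obtain ⟨σ₁, s1, s2, s3⟩ := ih (X ⊓ LinearMap.ker (polarBilin Q a)) (by omega) n1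
      (fun x hx => hφQ x hx.1) (fun x hx y hy => hφp x hx.1 y hy.1)
    have hQd : Q (a - φ a) ≠ 0 := by
      rw [qmap_sub, hφQ a ha, hφp a ha a ha]
      intro h0
      apply mul_ne_zero h2 hQa
      linear_combination h0
    have r1 : reflLin Q (a - φ a) a = φ a := reflLin_sub_apply Q a (φ a) (hφQ a ha).symm hQd
    have r2 : reflLin Q (a - φ a) (φ a) = a := by
      have := reflLin_reflLin Q (a - φ a) a
      rwa [r1] at this
    have r3 : ∀ x ∈ X ⊓ LinearMap.ker (polarBilin Q a), reflLin Q (a - φ a) x = x := by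
      intro x hx
      apply reflLin_of_polar_eq_zero
      have e1 : polar Q a x = 0 := hx.2
      rw [polar_sub_left, e1, polar_comm, hφp x hx.1 a ha, sub_zero]
    have r4 : ∀ x ∈ X ⊓ LinearMap.ker (polarBilin Q a), reflLin Q (a - φ a) (φ x) = φ x := by
      intro x hx
      apply reflLin_of_polar_eq_zero
      have e1 : polar Q a x = 0 := hx.2
      rw [polar_sub_left, hφp a ha x hx.1, hpol a ha x hx.1, e1, sub_zero]
    have t1 : σ₁.1 (φ a) = φ a := by
      apply s3
      · intro x hx; exact hφp x hx.1 a ha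
      · intro x hx
        have e1 : polar Q a x = 0 := hx.2
        rw [hpol x hx.1 a ha, polar_comm, e1]
    have t2 : σ₁.1 a = a := by
      apply s3
      · intro x hx
        have e1 : polar Q a x = 0 := hx.2
        rw [polar_comm, e1]
      · intro x hx
        rw [polar_comm]; exact hφp a ha x hx.1
    have hdec : ∀ x ∈ X, ∃ c : F, ∃ x₁ ∈ X ⊓ LinearMap.ker (polarBilin Q a), x = c • a + x₁ := by
      intro x hx
      refine ⟨polar Q a x / (2 * Q a), x - (polar Q a x / (2 * Q a)) • a,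
        ⟨X.sub_mem hx (X.smul_mem _ ha), ?_⟩, by abel⟩
      change polar Q a _ = 0
      rw [polar_sub_right, polar_smul_right, polar_self_two, smul_eq_mul]
      field_simp
      ring
    have hap : ∀ w, (σ₁ * refl Q (a - φ a)).1 w = σ₁.1 (reflLin Q (a - φ a) w) := by
      intro w
      simp only [Subgroup.coe_mul, LinearEquiv.mul_apply, refl_coe_apply]
    refine ⟨σ₁ * refl Q (a - φ a), ?_, ?_, ?_⟩
    · intro x hx
      obtain ⟨c, x₁, hx₁, rfl⟩ := hdec x hx
      rw [hap, map_add, map_smul, r1, r3 x₁ hx₁, map_add, map_smul, t1, s1 x₁ hx₁, map_add,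
        map_smul]
    · intro x hx
      obtain ⟨c, x₁, hx₁, rfl⟩ := hdec x hx
      rw [hap, map_add, map_smul, map_add, map_smul, r2, r4 x₁ hx₁, map_add, map_smul, t2,
        s2 x₁ hx₁]
    · intro w hw1 hw2
      rw [hap, reflLin_of_polar_eq_zero Q _ w (by
        rw [polar_sub_left, hw1 a ha, hw2 a ha, sub_zero])]
      exact s3 w (fun x hx => hw1 x hx.1) (fun x hx => hw2 x hx.1)

/-- every isometry can be corrected into the commutator subgroup by reflections in a universal
subspace -/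
theorem exists_corr [Fintype F] [FiniteDimensional F V] (hQ : (polarBilin Q).Nondegenerate)
    (h2 : (2 : F) ≠ 0) (P : Submodule F V) (hP : ∀ δ : F, ∃ c ∈ P, Q c = δ) (Pr : OG Q → Prop)
    (h1 : Pr 1) (hmul : ∀ u v, Pr u → Pr v → Pr (u * v))
    (hrefl : ∀ c ∈ P, Q c ≠ 0 → Pr (refl Q c)) (g : OG Q) :
    ∃ u : OG Q, Pr u ∧ g * u ∈ commutator (OG Q) := by
  have h3 := two_lt_card_of_two_ne_zero h2
  obtain ⟨ws, hws, rfl⟩ := exists_reflProd_eq_finite Q hQ (Or.inl (by omega)) g
  induction ws with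
  | nil => exact ⟨1, h1, by simp⟩
  | cons w ws ih =>
    obtain ⟨u, hu, hmem⟩ := ih (fun z hz => hws z (List.mem_cons_of_mem _ hz))
    have hQw := hws w List.mem_cons_self
    obtain ⟨c, hc, hQc⟩ := hP (Q w)
    refine ⟨u * refl Q c, hmul _ _ hu (hrefl c hc (by rw [hQc]; exact hQw)), ?_⟩
    have e : reflProd Q (w :: ws) * (u * refl Q c)
        = (refl Q w * (reflProd Q ws * u) * (refl Q w)⁻¹) * (refl Q w * refl Q c) := by
      rw [reflProd_cons]; group
    rw [e]
    refine Subgroup.mul_mem _ ?_ (refl_mul_refl_mem_commutator_of_eq _ hQ _ _ hQw hQc.symm)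
    exact (inferInstance : (commutator (OG Q)).Normal).conj_mem _ hmem _

variable {t k : ℕ} {D : Fin t → Submodule F V}

/-- an element of `Ω` stabilising the decomposition and swapping two given blocks -/
theorem ODec.exists_swap_mem [Fintype F] [FiniteDimensional F V] (h : ODec Q k D)
    (h2 : (2 : F) ≠ 0) (hk : 2 ≤ k) (hQ : (polarBilin Q).Nondegenerate) {j l : Fin t}
    (hjl : j ≠ l) :
    ∃ s : OG Q, s ∈ commutator (OG Q) ∧ StabD D s.1 ∧
      ∀ i, ∀ x ∈ D i, s.1 x ∈ D (Equiv.swap j l i) := by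
  obtain ⟨e, he⟩ := h.iso j l
  obtain ⟨φ, hφ⟩ := LinearMap.exists_extend ((D l).subtype.comp (e : D j →ₗ[F] D l))
  have hφ' : ∀ x (hx : x ∈ D j), φ x = (e ⟨x, hx⟩ : V) := by
    intro x hx
    have := LinearMap.congr_fun hφ ⟨x, hx⟩
    simpa using this
  have hφl : ∀ x ∈ D j, φ x ∈ D l := by
    intro x hx
    rw [hφ' x hx]; exact Subtype.property _
  obtain ⟨σ, s1, s2, s3⟩ := exists_swap (Q := Q) h2 φ k (D j) (h.finrank_eq j) (h.nd j)
    (fun x hx => by rw [hφ' x hx, he]) (fun x hx y hy => h.orth j l hjl x hx _ (hφl y hy))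
  obtain ⟨u, hu, hmem⟩ := exists_corr hQ h2 (D j)
    (fun δ => (h.nd j).univ h2 (by rw [h.finrank_eq]; exact hk) δ)
    (fun u => ∀ i, ∀ x ∈ D i, u.1 x ∈ D i) (fun i x hx => hx)
    (fun u v hu hv i x hx => hu i _ (hv i x hx))
    (fun c hc _ i x hx => h.refl_mem hc hx) σ
  have hσ : ∀ i, ∀ x ∈ D i, σ.1 x ∈ D (Equiv.swap j l i) := by
    intro i x hx
    by_cases hij : i = j
    · subst hij
      rw [Equiv.swap_apply_left, s1 x hx]
      exact hφl x hx
    · by_cases hil : i = l
      · subst hil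
        rw [Equiv.swap_apply_right]
        have e1 : x = φ (e.symm ⟨x, hx⟩ : V) := by
          rw [hφ' _ (Subtype.property _)]
          simp
        rw [e1, s2 _ (Subtype.property _)]
        exact Subtype.property _
      · rw [Equiv.swap_apply_of_ne_of_ne hij hil, s3 x]
        · exact hx
        · intro y hy
          exact h.orth j i (Ne.symm hij) y hy x hx
        · intro y hy
          exact h.orth l i (Ne.symm hil) _ (hφl y hy) x hx
  have hs : ∀ i, ∀ x ∈ D i, (σ * u).1 x ∈ D (Equiv.swap j l i) := by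
    intro i x hx
    exact hσ i _ (hu i x hx)
  exact ⟨σ * u, hmem, h.stabD_of_perm _ _ hs, hs⟩

end DecSwap

end Cfsg.Agent.Lib.Helper49
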