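import Mathlib
import Cfsg.Agent.Lib.Helper49.DecPartI
import Cfsg.Agent.Lib.Helper49.DecSwap

set_option autoImplicit false

namespace Cfsg.Agent.Lib.Helper49

open QuadraticMap Module Cfsg.Agent.Lib.Helper95

section DecMain

variable {F V : Type*} [Field F] [AddCommGroup V] [Module F V] {Q : QuadraticForm F V}

theorem NDon.sup {A C : Submodule F V} (hA : NDon Q A) (hC : NDon Q C)
    (hAC : ∀ a ∈ A, ∀ c ∈ C, polar Q a c = 0) : NDon Q (A ⊔ C) := by
  intro w hw hw0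
  obtain ⟨a, ha, c, hc, rfl⟩ := Submodule.mem_sup.1 hw
  by_cases ha0 : a = 0
  · subst ha0
    rw [zero_add] at hw0 ⊢
    obtain ⟨x, hx, hp⟩ := hC c hc hw0
    exact ⟨x, Submodule.mem_sup_right hx, hp⟩
  · obtain ⟨x, hx, hp⟩ := hA a ha ha0
    refine ⟨x, Submodule.mem_sup_left hx, ?_⟩
    rw [polar_add_left, polar_comm Q c x, hAC x hx c hc, add_zero]
    exact hp

variable {t k : ℕ} {D : Fin t → Submodule F V} [Fintype F] [FiniteDimensional F V]
  {M : Subgroup (OG Q)}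

/-- support reduction: a new vector of `CC` yields one supported on exactly two blocks -/
theorem ODec.exists_two_block (h : ODec Q k D) (h2 : (2 : F) ≠ 0) (hk : 3 ≤ k)
    (E : Eng1 Q M (SD Q D)) {z : V} (hz : CC Q M (SD Q D) z) (hzS : ¬ SD Q D z) :
    ∃ i j, i ≠ j ∧ ∃ a ∈ D i, ∃ c ∈ D j, a ≠ 0 ∧ c ≠ 0 ∧ CC Q M (SD Q D) (a + c) := by
  have hq := hz.1
  obtain ⟨f, hf, hzf⟩ := h.comps z
  obtain ⟨i, hi⟩ : ∃ i, f i ≠ 0 := by
    by_contra hcon
    push Not at hcon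
    apply hq
    rw [hzf, Finset.sum_eq_zero fun l _ => hcon l, map_zero]
  obtain ⟨j, hji, hj⟩ : ∃ j, j ≠ i ∧ f j ≠ 0 := by
    by_contra hcon
    push Not at hcon
    apply hzS
    refine ⟨hq, i, ?_⟩
    rw [hzf, Finset.sum_eq_single i (fun l _ hl => hcon l hl)
      (fun h' => absurd (Finset.mem_univ i) h')]
    exact hf i
  have hdi : 3 ≤ finrank F (D i) := by rw [h.finrank_eq]; exact hk
  have hdj : 3 ≤ finrank F (D j) := by rw [h.finrank_eq]; exact hk
  obtain ⟨u, hu, hpu, hQu⟩ := (h.nd i).exists_polar_norm h2 hdi (hf i) hi 1 (-(Q z)⁻¹)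
    (Or.inr one_ne_zero)
  obtain ⟨v, hv, hpv, hQv⟩ := (h.nd j).exists_polar_norm h2 hdj (hf j) hj 1 ((2 * Q z)⁻¹)
    (Or.inr one_ne_zero)
  have hzu : polar Q z u = 1 := by rw [hzf, h.polar_sum hf hu, hpu]
  have hzv : polar Q z v = 1 := by rw [hzf, h.polar_sum hf hv, hpv]
  have huv : polar Q u v = 0 := h.orth i j hji.symm u hu v hv
  have hQu0 : Q u ≠ 0 := by rw [hQu]; exact neg_ne_zero.2 (inv_ne_zero hq)
  have hQv0 : Q v ≠ 0 := by rw [hQv]; exact inv_ne_zero (mul_ne_zero h2 hq)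
  have hSu : SD Q D u := ⟨hQu0, i, hu⟩
  have hSv : SD Q D v := ⟨hQv0, j, hv⟩
  have c1 := E.CC_refl hz (E.CC_S_refl hSu (E.CC_S_refl hSv hz))
  have e1 : reflLin Q v z = z - (2 * Q z) • v := by
    rw [reflLin_apply, hQv, polar_comm, hzv, inv_inv, mul_one]
  have e2 : reflLin Q u (z - (2 * Q z) • v) = z - (2 * Q z) • v + Q z • u := by
    rw [reflLin_apply, hQu, polar_sub_right, polar_smul_right, huv, polar_comm, hzu, inv_neg,
      inv_inv, smul_zero, sub_zero, mul_one, neg_smul, sub_neg_eq_add]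
  have e3 : polar Q z (z - (2 * Q z) • v + Q z • u) = Q z := by
    rw [polar_add_right, polar_sub_right, polar_smul_right, polar_smul_right, polar_self_two, hzu,
      hzv]
    simp only [smul_eq_mul]; ring
  have e4 : reflLin Q z (z - (2 * Q z) • v + Q z • u) = Q z • u + (-(2 * Q z)) • v := by
    rw [reflLin_apply, e3, inv_mul_cancel₀ hq, one_smul, neg_smul]
    abel
  rw [e1, e2, e4] at c1
  refine ⟨i, j, hji.symm, Q z • u, (D i).smul_mem _ hu, (-(2 * Q z)) • v, (D j).smul_mem _ hv,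
    ?_, ?_, c1⟩
  · exact smul_ne_zero hq (ne_zero_of_Q_ne_zero Q hQu0)
  · exact smul_ne_zero (neg_ne_zero.2 (mul_ne_zero h2 hq)) (ne_zero_of_Q_ne_zero Q hQv0)

/-- **Maximality of the stabiliser of an orthogonal decomposition** (odd characteristic, blocks of
dimension at least three). -/
theorem ODec.commutator_le (h : ODec Q k D) (h2 : (2 : F) ≠ 0) (hk : 3 ≤ k)
    (hex : Fintype.card F ≠ 3 ∨ 4 ≤ k) (hQ : (polarBilin Q).Nondegenerate)
    (hM : ∀ g : OG Q, g ∈ commutator (OG Q) → StabD D g.1 → g ∈ M) {g : OG Q} (hg : g ∈ M)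
    (hgS : ¬ StabD D g.1) : commutator (OG Q) ≤ M := by
  classical
  have E := h.eng1 h2 hk hQ hM
  obtain ⟨z, hz, hzS⟩ := h.exists_CC_not_SD h2 hk hex E hg hgS
  obtain ⟨i₀, j₀, hij, a, ha, c, hc, ha0, hc0, hac⟩ := h.exists_two_block h2 hk E hz hzS
  have hR : RCl Q (CC Q M (SD Q D)) := ⟨fun x hx => hx.1, fun x y hx hy => E.CC_refl hx hy⟩
  have hFD : ∀ i, Full Q (CC Q M (SD Q D)) (D i) := fun i x hx h0 => E.CC_of_S ⟨h0, i, hx⟩
  have hd : ∀ i, 3 ≤ finrank F (D i) := fun i => by rw [h.finrank_eq]; exact hk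
  have hexD : ∀ i, Fintype.card F ≠ 3 ∨ 4 ≤ finrank F (D i) := fun i => by
    rw [h.finrank_eq]; exact hex
  have hF0 : Full Q (CC Q M (SD Q D)) (D i₀ ⊔ D j₀) :=
    hR.merge h2 (h.orth i₀ j₀ hij) (hFD i₀) (hFD j₀) (h.nd i₀) (h.nd j₀) (hd i₀) (hd j₀)
      (hexD i₀) (hexD j₀) ha ha0 hc hc0 hac
  -- a fixed vector supported on both blocks
  obtain ⟨a₀, ha₀, hQa₀⟩ := (h.nd i₀).exists_nonsing (by
    intro h0
    have := hd i₀
    rw [h0, finrank_bot] at this
    omega)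
  obtain ⟨c₀, hc₀, hQc₀⟩ := (h.nd j₀).univ h2 (by have := hd j₀; omega) (Q a₀)
  have hx₀ : CC Q M (SD Q D) (a₀ + c₀) := by
    apply hF0 _ (Submodule.add_mem_sup ha₀ hc₀)
    rw [qmap_add, hQc₀, h.orth i₀ j₀ hij a₀ ha₀ c₀ hc₀]
    intro h0
    apply mul_ne_zero h2 hQa₀
    linear_combination h0
  have key : ∀ s : Finset (Fin t), i₀ ∉ s → j₀ ∉ s →
      NDon Q (D i₀ ⊔ D j₀ ⊔ s.sup D) ∧ Full Q (CC Q M (SD Q D)) (D i₀ ⊔ D j₀ ⊔ s.sup D) ∧
      ∀ l, l ≠ i₀ → l ≠ j₀ → l ∉ s → ∀ w ∈ D i₀ ⊔ D j₀ ⊔ s.sup D, ∀ y ∈ D l, polar Q w y = 0 := by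
    intro s
    induction s using Finset.induction_on with
    | empty =>
      intro _ _
      rw [Finset.sup_empty, sup_bot_eq]
      refine ⟨(h.nd i₀).sup (h.nd j₀) (h.orth i₀ j₀ hij), hF0, ?_⟩
      intro l hl1 hl2 _ w hw y hy
      obtain ⟨w₁, hw₁, w₂, hw₂, rfl⟩ := Submodule.mem_sup.1 hw
      rw [polar_add_left, h.orth i₀ l hl1.symm w₁ hw₁ y hy, h.orth j₀ l hl2.symm w₂ hw₂ y hy,
        add_zero]
    | insert l s hl ih =>
      intro hi hj
      rw [Finset.mem_insert, not_or] at hi hj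
      obtain ⟨n1, f1, o1⟩ := ih hi.2 hj.2
      have hli : l ≠ i₀ := Ne.symm hi.1
      have hlj : l ≠ j₀ := Ne.symm hj.1
      have hW : D i₀ ⊔ D j₀ ⊔ (insert l s).sup D = (D i₀ ⊔ D j₀ ⊔ s.sup D) ⊔ D l := by
        rw [Finset.sup_insert, sup_comm (D l), sup_assoc, sup_assoc, sup_assoc]
      rw [hW]
      have hAC := o1 l hli hlj hl
      have hle : D i₀ ≤ D i₀ ⊔ D j₀ ⊔ s.sup D := le_sup_of_le_left le_sup_left
      have hfr : k ≤ finrank F ↥(D i₀ ⊔ D j₀ ⊔ s.sup D) := by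
        rw [← h.finrank_eq i₀]; exact Submodule.finrank_mono hle
      obtain ⟨sw, hsw1, hsw2, hsw3⟩ := h.exists_swap_mem h2 (by omega) hQ hlj.symm
      have hswM : sw ∈ M := hM sw hsw1 hsw2
      have hswS : ∀ b, SD Q D b → SD Q D (sw.1 b) := by
        rintro b ⟨hb0, i, hb⟩
        exact ⟨by rw [OG_apply]; exact hb0, _, hsw3 i b hb⟩
      have hx₁ := CC_map_of_S hswM hswS hx₀
      rw [map_add] at hx₁
      have m1 : sw.1 a₀ ∈ D i₀ := by
        have := hsw3 i₀ a₀ ha₀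
        rwa [Equiv.swap_apply_of_ne_of_ne hij hli.symm] at this
      have m2 : sw.1 c₀ ∈ D l := by
        have := hsw3 j₀ c₀ hc₀
        rwa [Equiv.swap_apply_left] at this
      have z1 : sw.1 a₀ ≠ 0 := by
        apply ne_zero_of_Q_ne_zero Q
        rw [OG_apply]; exact hQa₀
      have z2 : sw.1 c₀ ≠ 0 := by
        apply ne_zero_of_Q_ne_zero Q
        rw [OG_apply, hQc₀]; exact hQa₀
      refine ⟨n1.sup (h.nd l) hAC, ?_, ?_⟩
      · exact hR.merge h2 hAC f1 (hFD l) n1 (h.nd l) (by omega) (hd l)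
          (by rcases hex with h' | h'
              · exact Or.inl h'
              · right; omega) (hexD l) (hle m1) z1 m2 z2 hx₁
      · intro l' h1 h3 h4 w hw y hy
        rw [Finset.mem_insert, not_or] at h4
        obtain ⟨w₁, hw₁, w₂, hw₂, rfl⟩ := Submodule.mem_sup.1 hw
        rw [polar_add_left, o1 l' h1 h3 h4.2 w₁ hw₁ y hy, h.orth l l' (Ne.symm h4.1) w₂ hw₂ y hy,
          add_zero]
  obtain ⟨-, hfull, -⟩ := key ((Finset.univ.erase i₀).erase j₀) (by simp) (by simp)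
  have htop : D i₀ ⊔ D j₀ ⊔ ((Finset.univ.erase i₀).erase j₀).sup D = ⊤ := by
    rw [eq_top_iff, ← h.top]
    apply iSup_le
    intro i
    by_cases h1 : i = i₀
    · subst h1; exact le_sup_of_le_left le_sup_left
    · by_cases h3 : i = j₀
      · subst h3; exact le_sup_of_le_left le_sup_right
      · apply le_sup_of_le_right
        apply Finset.le_sup (f := D)
        simp [h1, h3]
  rw [htop] at hfull
  have h3 := two_lt_card_of_two_ne_zero h2
  exact E.commutator_le hQ (Or.inl (by omega)) fun x hx => hfull x trivial hx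

/-- some element of `Ω` does not stabilise the decomposition -/
theorem ODec.exists_not_stabD (h : ODec Q k D) (h2 : (2 : F) ≠ 0) (hk : 3 ≤ k)
    (hQ : (polarBilin Q).Nondegenerate) : ∃ g ∈ commutator (OG Q), ¬ StabD D g.1 := by
  obtain ⟨i, j, hij⟩ : ∃ i j : Fin t, i ≠ j := by
    obtain ⟨i, hi⟩ := exists_ne_fin h.two_le ⟨0, by have := h.two_le; omega⟩
    exact ⟨i, _, hi⟩
  have hd : ∀ i, finrank F (D i) = k := h.finrank_eq
  obtain ⟨a, ha, hQa⟩ := (h.nd i).exists_nonsing (by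
    intro h0
    have := hd i
    rw [h0, finrank_bot] at this
    omega)
  obtain ⟨c, hc, hQc⟩ := (h.nd j).univ h2 (by rw [hd]; omega) (Q a)
  have hac : polar Q a c = 0 := h.orth i j hij a ha c hc
  have hQx : Q (a + c) = 2 * Q a := by rw [qmap_add, hQc, hac]; ring
  have hQx0 : Q (a + c) ≠ 0 := by rw [hQx]; exact mul_ne_zero h2 hQa
  have n1 := (h.nd i).inf_ker h2 ha hQa
  have d1 := finrank_inf_ker_self h2 ha hQa
  rw [hd] at d1
  obtain ⟨y, hy, hQy⟩ := n1.univ h2 (by omega) (Q (a + c))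
  have hQy0 : Q y ≠ 0 := by rw [hQy]; exact hQx0
  have n2 := n1.inf_ker h2 hy hQy0
  have d2 := finrank_inf_ker_self h2 hy hQy0
  obtain ⟨w, hw, hQw⟩ := n2.exists_nonsing (by
    intro h0
    rw [h0, finrank_bot] at d2
    omega)
  have haw : polar Q a w = 0 := hw.1.2
  have hyw : polar Q y w = 0 := hw.2
  have hay : polar Q a y = 0 := hy.2
  refine ⟨refl Q (a + c) * refl Q y, refl_mul_refl_mem_commutator_of_eq _ hQ _ _ hQx0 hQy.symm, ?_⟩
  rintro ⟨σ, hσ⟩
  have e1 : (refl Q (a + c) * refl Q y).1 (a + w) = w + (-c) := by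
    simp only [Subgroup.coe_mul, LinearEquiv.mul_apply, refl_coe_apply]
    rw [reflLin_of_polar_eq_zero Q y (a + w) (by
      rw [polar_add_right, polar_comm Q y a, hay, hyw, add_zero]), reflLin_apply]
    have e2 : polar Q (a + c) (a + w) = Q (a + c) := by
      rw [polar_add_left, polar_add_right, polar_add_right, polar_self_two, haw,
        polar_comm Q c a, hac, h.orth j i hij.symm c hc w hw.1.1, hQx]
      ring
    rw [e2, inv_mul_cancel₀ hQx0, one_smul]
    abel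
  have e3 : (refl Q (a + c) * refl Q y).1 (a + w) ∈ D (σ i) := by
    rw [← hσ i]
    exact ⟨a + w, (D i).add_mem ha hw.1.1, rfl⟩
  rw [e1] at e3
  exact h.not_mem_block hij hw.1.1 ((D j).neg_mem hc) (ne_zero_of_Q_ne_zero Q hQw)
    (neg_ne_zero.2 (ne_zero_of_Q_ne_zero Q (by rw [hQc]; exact hQa))) _ e3

omit [Fintype F] in
/-- dimension count for an independent decomposition -/
theorem finrank_eq_mul_of_indep (D : Fin t → Submodule F V) (hfr : ∀ i, finrank F (D i) = k)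
    (hind : iSupIndep D) (htop : iSup D = ⊤) : finrank F V = t * k := by
  classical
  have hI := DirectSum.isInternal_submodule_of_iSupIndep_of_iSup_eq_top hind htop
  have e := LinearEquiv.ofBijective (DirectSum.coeLinearMap D) hI
  rw [← e.finrank_eq, Module.finrank_directSum]
  simp [hfr]

end DecMain

end Cfsg.Agent.Lib.Helper49
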