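import Mathlib
import Cfsg.Prelude.Def_FischerSpaces
import Cfsg.Agent.Lib.Helper49.ReflClassIdx
import Cfsg.Agent.Lib.Helper49.GenMat

set_option autoImplicit false

namespace Cfsg.Agent.Lib.Helper49

open Matrix QuadraticMap Module

section Mat

variable {ι : Type} [Fintype ι] [DecidableEq ι] {F : Type*} [Field F]
variable (Q : QuadraticForm F (ι → F))

theorem coe_eq_reflectionMatrix_iff (g : ↥(Cfsg.isometryGroup F ⇑Q)) (v : ι → F) :
    ((g : Matrix.GeneralLinearGroup ι F) : Matrix ι ι F) = Cfsg.reflectionMatrix ⇑Q v ↔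
      isoEquiv Q g = refl Q v := by
  constructor
  · intro h
    have := isoEquiv_eq_reflProd Q g [v] (by simpa using h)
    simpa using this
  · intro h
    have : g = (isoEquiv Q).symm (refl Q v) := by rw [← h, MulEquiv.symm_apply_apply]
    rw [this, coe_isoEquiv_symm_refl]

theorem closure_mat_eq_comap (P : (ι → F) → Prop) :
    Subgroup.closure {g : ↥(Cfsg.isometryGroup F ⇑Q) | ∃ v, P v ∧
      ((g : Matrix.GeneralLinearGroup ι F) : Matrix ι ι F) = Cfsg.reflectionMatrix ⇑Q v} =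
    (Subgroup.closure {h : OG Q | ∃ v, P v ∧ h = refl Q v}).comap (isoEquiv Q).toMonoidHom := by
  apply le_antisymm
  · rw [Subgroup.closure_le]
    rintro g ⟨v, hv, hg⟩
    exact Subgroup.subset_closure ⟨v, hv, (coe_eq_reflectionMatrix_iff Q g v).1 hg⟩
  · intro g hg
    rw [Subgroup.mem_comap] at hg
    have key : ∀ h : OG Q, h ∈ Subgroup.closure {h : OG Q | ∃ v, P v ∧ h = refl Q v} →
        (isoEquiv Q).symm h ∈ Subgroup.closure {g : ↥(Cfsg.isometryGroup F ⇑Q) | ∃ v, P v ∧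
      ((g : Matrix.GeneralLinearGroup ι F) : Matrix ι ι F) = Cfsg.reflectionMatrix ⇑Q v} := by
      intro h hh
      induction hh using Subgroup.closure_induction with
      | mem x hx =>
        obtain ⟨v, hv, rfl⟩ := hx
        exact Subgroup.subset_closure ⟨v, hv, coe_isoEquiv_symm_refl Q v⟩
      | one => simp
      | mul x y _ _ hx hy => rw [map_mul]; exact Subgroup.mul_mem _ hx hy
      | inv x _ hx => rw [map_inv]; exact Subgroup.inv_mem _ hx
    have := key _ hg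
    simpa using this

theorem reflectionSubgroup_eq_comap (c : F) :
    Cfsg.reflectionSubgroup ⇑Q c = (reflSub Q c).comap (isoEquiv Q).toMonoidHom :=
  closure_mat_eq_comap Q (fun v => Q v = c)

theorem closure_sq_class_eq_comap (c : F) :
    Subgroup.closure {g : ↥(Cfsg.isometryGroup F ⇑Q) | ∃ (v : ι → F) (t : F), t ≠ 0 ∧
      Q v = c * t ^ 2 ∧ ((g : Matrix.GeneralLinearGroup ι F) : Matrix ι ι F) =
        Cfsg.reflectionMatrix ⇑Q v} = (reflSub Q c).comap (isoEquiv Q).toMonoidHom := by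
  have h1 := closure_mat_eq_comap Q (fun v => ∃ t : F, t ≠ 0 ∧ Q v = c * t ^ 2)
  have e1 : {g : ↥(Cfsg.isometryGroup F ⇑Q) | ∃ (v : ι → F) (t : F), t ≠ 0 ∧
      Q v = c * t ^ 2 ∧ ((g : Matrix.GeneralLinearGroup ι F) : Matrix ι ι F) =
        Cfsg.reflectionMatrix ⇑Q v} = {g : ↥(Cfsg.isometryGroup F ⇑Q) | ∃ v,
      (∃ t : F, t ≠ 0 ∧ Q v = c * t ^ 2) ∧
      ((g : Matrix.GeneralLinearGroup ι F) : Matrix ι ι F) = Cfsg.reflectionMatrix ⇑Q v} := by
    ext g
    constructor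
    · rintro ⟨v, t, ht, hv, hg⟩
      exact ⟨v, ⟨t, ht, hv⟩, hg⟩
    · rintro ⟨v, ⟨t, ht, hv⟩, hg⟩
      exact ⟨v, t, ht, hv, hg⟩
  rw [e1, h1]
  congr 1
  apply le_antisymm
  · rw [Subgroup.closure_le]
    rintro _ ⟨v, ⟨t, ht, hv⟩, rfl⟩
    exact refl_mem_reflSub_of_sq Q ht hv
  · unfold reflSub
    apply Subgroup.closure_mono
    rintro _ ⟨v, hv, rfl⟩
    exact ⟨v, ⟨1, one_ne_zero, by rw [hv]; ring⟩, rfl⟩

theorem index_comap_isoEquiv (H : Subgroup (OG Q)) :
    (H.comap (isoEquiv Q).toMonoidHom).index = H.index :=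
  Subgroup.index_comap_of_surjective _ (isoEquiv Q).surjective

end Mat

end Cfsg.Agent.Lib.Helper49
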