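import Mathlib
import Cfsg.Prelude.Def_SporadicB
import Cfsg.Agent.Lib.Helper49.RankParity

set_option autoImplicit false

namespace Cfsg.Agent.Lib.Helper49

open Matrix QuadraticMap Module

section Abs

variable {F V : Type*} [Field F] [AddCommGroup V] [Module F V] (Q : QuadraticForm F V)

theorem finrank_range_dOG_refl (hQ : (polarBilin Q).Nondegenerate) (v : V) (hv : Q v ≠ 0) :
    finrank F (LinearMap.range (dOG Q (refl Q v))) = 1 := by
  have hv0 : v ≠ 0 := ne_zero_of_Q_ne_zero' Q hv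
  have : LinearMap.range (dOG Q (refl Q v)) = Submodule.span F {v} := by
    apply le_antisymm
    · rintro _ ⟨x, rfl⟩
      rw [dOG_apply, refl_coe_apply, reflLin_apply, sub_sub_cancel_left]
      exact Submodule.neg_mem _ (Submodule.smul_mem _ _ (Submodule.mem_span_singleton_self v))
    · rw [Submodule.span_singleton_le_iff_mem]
      obtain ⟨z, hz⟩ := exists_polar_ne_zero Q hQ hv0
      refine ⟨(-((Q v)⁻¹ * polar Q v z)⁻¹) • z, ?_⟩
      rw [map_smul, dOG_apply, refl_coe_apply, reflLin_apply, sub_sub_cancel_left, smul_neg,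
        neg_smul, neg_neg, smul_smul, inv_mul_cancel₀ (mul_ne_zero (inv_ne_zero hv) hz), one_smul]
  rw [this, finrank_span_singleton hv0]

theorem refl_ne_one (hQ : (polarBilin Q).Nondegenerate) (v : V) (hv : Q v ≠ 0) :
    refl Q v ≠ 1 := by
  intro h
  have h1 := finrank_range_dOG_refl Q hQ v hv
  rw [h] at h1
  have : LinearMap.range (dOG Q (1 : OG Q)) = ⊥ := by
    rw [eq_bot_iff]
    rintro _ ⟨x, rfl⟩
    simp
  rw [this, finrank_bot] at h1
  exact zero_ne_one h1

theorem refl_mul_refl_sq_of_ortho (u v : V) (h : polar Q u v = 0) :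
    (refl Q u * refl Q v) ^ 2 = 1 := by
  have h1 : refl Q u * refl Q v * (refl Q u)⁻¹ = refl Q v := by
    rw [refl_conj, refl_coe_apply, reflLin_of_polar_eq_zero Q _ _ h]
  rw [refl_inv] at h1
  rw [pow_two]
  calc refl Q u * refl Q v * (refl Q u * refl Q v)
      = (refl Q u * refl Q v * refl Q u) * refl Q v := by group
    _ = 1 := by rw [h1, refl_mul_self]

theorem refl_mul_refl_cube (u v : V) (hu : Q u = 1) (hv : Q v = 1)
    (h : polar Q u v = 1) : (refl Q u * refl Q v) ^ 3 = 1 := by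
  have h1 : refl Q u * refl Q v * (refl Q u)⁻¹ = refl Q (v - u) := by
    rw [refl_conj, refl_coe_apply, reflLin_apply, hu, h]
    simp
  have h3 : refl Q v * refl Q u * (refl Q v)⁻¹ = refl Q (v - u) := by
    rw [refl_conj, refl_coe_apply, reflLin_apply, hv, polar_comm, h]
    have : u - ((1 : F)⁻¹ * 1) • v = (-1 : F) • (v - u) := by
      simp
    rw [this, refl_smul Q _ (neg_ne_zero.2 one_ne_zero)]
  rw [refl_inv] at h1 h3
  calc (refl Q u * refl Q v) ^ 3
      = (refl Q u * refl Q v * refl Q u) * (refl Q v * refl Q u * refl Q v) := by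
        rw [pow_succ, pow_two]; group
    _ = 1 := by rw [h1, h3, refl_mul_self]

end Abs

section Mat

variable {ι : Type} [Fintype ι] [DecidableEq ι] {F : Type*} [Field F] [Fintype F]
variable (Q : QuadraticForm F (ι → F))

omit [Fintype ι] [DecidableEq ι] [Fintype F] in
theorem exists_Q_ne_zero'' [Nonempty ι] (hQ : (polarBilin Q).Nondegenerate) : ∃ v, Q v ≠ 0 := by
  by_contra hcon
  push Not at hcon
  have h1 : (fun _ : ι => (1 : F)) = 0 := by
    apply hQ.1
    intro y
    simp [polar, hcon]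
  exact one_ne_zero (congrFun h1 (Classical.arbitrary ι))

omit [Fintype F] in
theorem rank_one_set_eq (hQ : (polarBilin Q).Nondegenerate) :
    {g : ↥(Cfsg.isometryGroup F ⇑Q) |
      (((g : Matrix.GeneralLinearGroup ι F) : Matrix ι ι F) - 1).rank = 1} =
    {g | ∃ v, Q v ≠ 0 ∧ g = (isoEquiv Q).symm (refl Q v)} := by
  ext g
  simp only [Set.mem_ofPred_eq]
  rw [rank_sub_one_eq]
  constructor
  · intro h
    obtain ⟨a, ha, hg⟩ := eq_refl_of_finrank_range_dOG Q hQ _ h
    exact ⟨a, ha, by rw [← hg, MulEquiv.symm_apply_apply]⟩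
  · rintro ⟨v, hv, rfl⟩
    rw [MulEquiv.apply_symm_apply]
    exact finrank_range_dOG_refl Q hQ v hv

theorem isThreeTranspositionClass_rank_one [Nonempty ι] (h01 : ∀ x : F, x = 0 ∨ x = 1)
    (hQ : (polarBilin Q).Nondegenerate) (h : Fintype.card ι ≠ 4) :
    Cfsg.IsThreeTranspositionClass {g : ↥(Cfsg.isometryGroup F ⇑Q) |
      (((g : Matrix.GeneralLinearGroup ι F) : Matrix ι ι F) - 1).rank = 1} := by
  have h2 : (2 : F) = 0 := by
    rcases h01 2 with h | h
    · exact h
    · exfalso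
      have : (1 : F) = 0 := by linear_combination h
      exact one_ne_zero this
  have h1 : ∀ v, Q v ≠ 0 → Q v = 1 := fun v hv => (h01 (Q v)).resolve_left hv
  rw [rank_one_set_eq Q hQ]
  refine ⟨⟨?_, ?_⟩, ?_, ?_⟩
  · rintro _ ⟨v, hv, rfl⟩
    apply orderOf_eq_prime
    · rw [← map_pow, pow_two, refl_mul_self, map_one]
    · intro h0
      apply refl_ne_one Q hQ v hv
      have := congrArg (isoEquiv Q) h0
      simpa using this
  · rintro _ ⟨u, hu, rfl⟩ _ ⟨v, hv, rfl⟩
    rw [← map_mul, ← map_pow, ← map_pow]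
    rcases h01 (polar Q u v) with h0 | h0
    · left
      rw [refl_mul_refl_sq_of_ortho Q u v h0, map_one]
    · right
      rw [refl_mul_refl_cube Q u v (h1 u hu) (h1 v hv) h0, map_one]
  · obtain ⟨v₀, hv₀⟩ := exists_Q_ne_zero'' Q hQ
    refine ⟨(isoEquiv Q).symm (refl Q v₀), ⟨v₀, hv₀, rfl⟩, ?_⟩
    ext g
    change _ ↔ IsConj _ g
    rw [isConj_iff]
    constructor
    · rintro ⟨v, hv, rfl⟩
      obtain ⟨vs, -, hmap⟩ := exists_reflProd_map_char_two Q h2 hQ
        (Or.inr (by rwa [Module.finrank_fintype_fun_eq_card])) v₀ v (by rw [h1 v₀ hv₀, h1 v hv]) hv₀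
      refine ⟨(isoEquiv Q).symm (reflProd Q vs), ?_⟩
      rw [← map_inv, ← map_mul, ← map_mul, refl_conj, hmap]
    · rintro ⟨c, rfl⟩
      refine ⟨(isoEquiv Q c).1 v₀, by rw [OG_apply]; exact hv₀, ?_⟩
      rw [← refl_conj, map_mul, map_mul, map_inv, MulEquiv.symm_apply_apply]
  · have := closure_reflections_eq_top Q hQ (Or.inr h)
    rw [← this]
    congr 1
    ext g
    constructor
    · rintro ⟨v, hv, rfl⟩
      exact ⟨v, hv, coe_isoEquiv_symm_refl Q v⟩
    · rintro ⟨v, hv, hg⟩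
      exact ⟨v, hv, isometryGroup_ext (by rw [hg, coe_isoEquiv_symm_refl])⟩

end Mat

end Cfsg.Agent.Lib.Helper49
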