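import Mathlib
import Cfsg.Prelude.Def_SporadicB
import Cfsg.Agent.Lib.Helper49.ReflClassMat
import Cfsg.Agent.Lib.Helper49.ThreeTransp

set_option autoImplicit false

namespace Cfsg.Agent.Lib.Helper49

open Matrix QuadraticMap Module

section Abs

variable {F V : Type*} [Field F] [AddCommGroup V] [Module F V] (Q : QuadraticForm F V)

theorem refl_neg (v : V) : refl Q (-v) = refl Q v := by
  have e : -v = (-1 : F) • v := by simp
  rw [e, refl_smul Q v (neg_ne_zero.2 one_ne_zero)]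

theorem refl_mul_refl_cube' {c : F} (hc : c ≠ 0) (u v : V) (hu : Q u = c) (hv : Q v = c)
    (h : polar Q u v = c) : (refl Q u * refl Q v) ^ 3 = 1 := by
  have h1 : refl Q u * refl Q v * (refl Q u)⁻¹ = refl Q (v - u) := by
    rw [refl_conj, refl_coe_apply, reflLin_apply, hu, h, inv_mul_cancel₀ hc, one_smul]
  have h3 : refl Q v * refl Q u * (refl Q v)⁻¹ = refl Q (v - u) := by
    rw [refl_conj, refl_coe_apply, reflLin_apply, hv, polar_comm, h, inv_mul_cancel₀ hc, one_smul,
      ← refl_neg, neg_sub]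
  rw [refl_inv] at h1 h3
  calc (refl Q u * refl Q v) ^ 3
      = (refl Q u * refl Q v * refl Q u) * (refl Q v * refl Q u * refl Q v) := by
        rw [pow_succ, pow_two]; group
    _ = 1 := by rw [h1, h3, refl_mul_self]

theorem pair_span_facts {a : F} {u u' : V} (hu : Q u = a) (hu' : Q u' = a)
    (hd : polar Q u u' ^ 2 ≠ 4 * a ^ 2) : ∃ S : Submodule F V, u ∈ S ∧ u' ∈ S ∧ finrank F S = 2 ∧
      S ⊓ LinearMap.BilinForm.orthogonal (polarBilin Q) S = ⊥ := by
  obtain ⟨S, hS⟩ : ∃ S : Submodule F V, S = Submodule.span F (Set.range ![u, u']) := ⟨_, rfl⟩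
  have huS : u ∈ S := by
    rw [hS]; exact Submodule.subset_span ⟨0, rfl⟩
  have huS' : u' ∈ S := by
    rw [hS]; exact Submodule.subset_span ⟨1, rfl⟩
  have hli : LinearIndependent F ![u, u'] := by
    rw [LinearIndependent.pair_iff]
    intro s t hst
    apply pair_coeff_eq_zero Q hu hu' hd s t <;> rw [hst] <;> simp
  refine ⟨S, huS, huS', ?_, ?_⟩
  · rw [hS, finrank_span_eq_card hli]
    simp
  · rw [eq_bot_iff]
    rintro z ⟨hz1, hz2⟩
    rw [hS] at hz1
    obtain ⟨f, rfl⟩ := (Submodule.mem_span_range_iff_exists_fun F).1 hz1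
    rw [Fin.sum_univ_two] at hz2 ⊢
    simp only [Matrix.cons_val_zero, Matrix.cons_val_one] at hz2 ⊢
    obtain ⟨e1, e2⟩ := pair_coeff_eq_zero Q hu hu' hd (f 0) (f 1) (hz2 u huS) (hz2 u' huS')
    rw [e1, e2]
    simp

variable [Fintype F] [FiniteDimensional F V]

omit [Fintype F] [FiniteDimensional F V] in
/-- over the field with three elements -/
theorem refl_mul_refl_sq_or_cube (h01 : ∀ x : F, x = 0 ∨ x = 1 ∨ x = -1) {c : F} (hc : c ≠ 0)
    (u v : V) (hu : Q u = c) (hv : Q v = c) :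
    (refl Q u * refl Q v) ^ 2 = 1 ∨ (refl Q u * refl Q v) ^ 3 = 1 := by
  have hB : polar Q u v = 0 ∨ polar Q u v = c ∨ polar Q u v = -c := by
    rcases h01 c with h | h | h
    · exact absurd h hc
    · rw [h]; exact h01 _
    · rw [h, neg_neg]
      rcases h01 (polar Q u v) with h' | h' | h' <;> tauto
  rcases hB with h | h | h
  · exact Or.inl (refl_mul_refl_sq_of_ortho Q u v h)
  · exact Or.inr (refl_mul_refl_cube' Q hc u v hu hv h)
  · right
    rw [← refl_neg Q v]
    exact refl_mul_refl_cube' Q hc u (-v) hu (by rw [QuadraticMap.map_neg, hv])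
      (by rw [polar_neg_right, h, neg_neg])

theorem exists_reflSub_conj (h01 : ∀ x : F, x = 0 ∨ x = 1 ∨ x = -1) (h2 : (2 : F) ≠ 0)
    (h3 : (3 : F) = 0) (hQ : (polarBilin Q).Nondegenerate) (hn : 4 ≤ finrank F V) {c : F}
    (hc : c ≠ 0) (v v' : V) (hv : Q v = c) (hv' : Q v' = c) :
    ∃ g ∈ reflSub Q c, g * refl Q v * g⁻¹ = refl Q v' := by
  have key : ∀ v v' : V, Q v = c → Q v' = c → polar Q v v' = c →
      ∃ g ∈ reflSub Q c, g * refl Q v * g⁻¹ = refl Q v' := by
    intro v v' hv hv' hB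
    have h1 : Q (v - v') = c := by
      have := Q_sub_smul Q v v' 1
      simp only [one_smul, one_pow, one_mul] at this
      rw [this, hv, hv', polar_comm, hB]; ring
    refine ⟨refl Q (v - v'), refl_mem_reflSub Q h1, ?_⟩
    rw [refl_conj, refl_coe_apply, reflLin_sub_apply Q v v' (by rw [hv, hv']) (by rw [h1]; exact hc)]
  have hB : polar Q v v' = 0 ∨ polar Q v v' = c ∨ polar Q v v' = -c := by
    rcases h01 c with h | h | h
    · exact absurd h hc
    · rw [h]; exact h01 _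
    · rw [h, neg_neg]
      rcases h01 (polar Q v v') with h' | h' | h' <;> tauto
  rcases hB with h | h | h
  · have h4 : (4 : F) * c ^ 2 ≠ 0 := by
      have : (4 : F) = 2 * 2 := by norm_num
      rw [this]
      exact mul_ne_zero (mul_ne_zero h2 h2) (pow_ne_zero _ hc)
    obtain ⟨S, hvS, hvS', hfr, hnd⟩ := pair_span_facts Q hv hv' (by rw [h]; simpa using h4.symm)
    obtain ⟨w, hw, hwQ⟩ := exists_mem_orthogonal_Q_eq Q h2 hQ S hnd (by omega) (neg_ne_zero.2 hc)
    have hwv := hw v hvS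
    have hwv' := hw v' hvS'
    have hQ'' : Q (w - v - v') = c := by
      have e : w - v - v' = w - (1 : F) • (v + v') := by rw [one_smul]; abel
      rw [e, Q_sub_smul, hwQ, Q_add_eq, hv, hv', h, polar_add_left, hwv, hwv']
      ring
    have hB1 : polar Q v (w - v - v') = c := by
      rw [polar_sub_right, polar_sub_right, hwv, polar_self, hv, h, nsmul_eq_mul]
      push_cast
      linear_combination (-c) * h3
    have hB2 : polar Q (w - v - v') v' = c := by
      rw [polar_sub_left, polar_sub_left, polar_comm Q w v', hwv', polar_self, hv', h, nsmul_eq_mul]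
      push_cast
      linear_combination (-c) * h3
    obtain ⟨g₁, hg₁, e₁⟩ := key v _ hv hQ'' hB1
    obtain ⟨g₂, hg₂, e₂⟩ := key _ v' hQ'' hv' hB2
    refine ⟨g₂ * g₁, Subgroup.mul_mem _ hg₂ hg₁, ?_⟩
    rw [← e₂, ← e₁]
    group
  · exact key v v' hv hv' h
  · rw [← refl_neg Q v']
    exact key v (-v') hv (by rw [QuadraticMap.map_neg, hv']) (by rw [polar_neg_right, h, neg_neg])

end Abs

section Mat

variable {ι : Type} [Fintype ι] [DecidableEq ι] {F : Type*} [Field F] [Fintype F]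
variable (Q : QuadraticForm F (ι → F))

omit [Fintype F] in
theorem mem_reflectionsOfNorm_iff (c : F) (g : ↥(Cfsg.isometryGroup F ⇑Q)) :
    g ∈ Cfsg.reflectionsOfNorm ⇑Q c ↔ ∃ v, Q v = c ∧ isoEquiv Q g = refl Q v := by
  constructor
  · rintro ⟨v, hv, hg⟩
    exact ⟨v, hv, (coe_eq_reflectionMatrix_iff Q g v).1 hg⟩
  · rintro ⟨v, hv, hg⟩
    exact ⟨v, hv, (coe_eq_reflectionMatrix_iff Q g v).2 hg⟩

theorem isThreeTranspositionClass_reflectionSubgroup (h01 : ∀ x : F, x = 0 ∨ x = 1 ∨ x = -1)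
    (h2 : (2 : F) ≠ 0) (h3 : (3 : F) = 0) (hQ : (polarBilin Q).Nondegenerate)
    (hn : 4 ≤ Fintype.card ι) {c : F} (hc : c ≠ 0) :
    Cfsg.IsThreeTranspositionClass {g : ↥(Cfsg.reflectionSubgroup ⇑Q c) |
      (g : ↥(Cfsg.isometryGroup F ⇑Q)) ∈ Cfsg.reflectionsOfNorm ⇑Q c} := by
  have hn' : 4 ≤ finrank F (ι → F) := by rwa [Module.finrank_fintype_fun_eq_card]
  have hinj : ∀ a b : ↥(Cfsg.reflectionSubgroup ⇑Q c),
      isoEquiv Q (a : ↥(Cfsg.isometryGroup F ⇑Q)) = isoEquiv Q (b : ↥(Cfsg.isometryGroup F ⇑Q)) →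
      a = b := fun a b h => Subtype.ext ((isoEquiv Q).injective h)
  refine ⟨⟨?_, ?_⟩, ?_, ?_⟩
  · intro d hd
    obtain ⟨v, hv, hdv⟩ := (mem_reflectionsOfNorm_iff Q c _).1 hd
    apply orderOf_eq_prime
    · apply hinj
      rw [Subgroup.coe_pow, map_pow, hdv, pow_two, refl_mul_self, Subgroup.coe_one, map_one]
    · intro h0
      apply refl_ne_one Q hQ v (by rw [hv]; exact hc)
      rw [← hdv, h0, Subgroup.coe_one, map_one]
  · intro d hd e he
    obtain ⟨v, hv, hdv⟩ := (mem_reflectionsOfNorm_iff Q c _).1 hd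
    obtain ⟨w, hw, hew⟩ := (mem_reflectionsOfNorm_iff Q c _).1 he
    rcases refl_mul_refl_sq_or_cube Q h01 hc v w hv hw with h | h
    · left
      apply hinj
      rw [Subgroup.coe_pow, Subgroup.coe_mul, map_pow, map_mul, hdv, hew, h, Subgroup.coe_one,
        map_one]
    · right
      apply hinj
      rw [Subgroup.coe_pow, Subgroup.coe_mul, map_pow, map_mul, hdv, hew, h, Subgroup.coe_one,
        map_one]
  · obtain ⟨v₀, -, hv₀⟩ := exists_mem_orthogonal_Q_eq Q h2 hQ ⊥ (by simp) (by simp; omega) hc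
    have hmem : ∀ k : OG Q, k ∈ reflSub Q c → (isoEquiv Q).symm k ∈ Cfsg.reflectionSubgroup ⇑Q c := by
      intro k hk
      rw [reflectionSubgroup_eq_comap, Subgroup.mem_comap]
      simpa using hk
    refine ⟨⟨(isoEquiv Q).symm (refl Q v₀), hmem _ (refl_mem_reflSub Q hv₀)⟩, ?_, ?_⟩
    · exact (mem_reflectionsOfNorm_iff Q c _).2 ⟨v₀, hv₀, by simp⟩
    · ext g
      change _ ↔ IsConj _ g
      rw [isConj_iff]
      constructor
      · intro hg
        obtain ⟨v, hv, hgv⟩ := (mem_reflectionsOfNorm_iff Q c _).1 hg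
        obtain ⟨k, hk, hkv⟩ := exists_reflSub_conj Q h01 h2 h3 hQ hn' hc v₀ v hv₀ hv
        refine ⟨⟨(isoEquiv Q).symm k, hmem k hk⟩, ?_⟩
        apply hinj
        simp only [Subgroup.coe_mul, Subgroup.coe_inv, map_mul, map_inv, MulEquiv.apply_symm_apply]
        rw [hkv, hgv]
      · rintro ⟨k, rfl⟩
        refine (mem_reflectionsOfNorm_iff Q c _).2
          ⟨(isoEquiv Q (k : ↥(Cfsg.isometryGroup F ⇑Q))).1 v₀, by rw [OG_apply, hv₀], ?_⟩
        simp only [Subgroup.coe_mul, Subgroup.coe_inv, map_mul, map_inv, MulEquiv.apply_symm_apply]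
        rw [refl_conj]
  · exact Subgroup.closure_closure_coe_preimage

end Mat

end Cfsg.Agent.Lib.Helper49
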