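import Mathlib
import Cfsg.Agent.Lib.Helper6.FA.Iso
import Cfsg.Agent.Lib.Helper23.AutOut3

set_option autoImplicit false
set_option maxRecDepth 1000000

/-! Rung EXT of helper6's ladder for S2715. -/

namespace Cfsg.Agent.Lib.Helper49.FA

open Matrix Cfsg.Lie Cfsg.Agent.Lib.Helper6.D4 Cfsg.Agent.Lib.Helper6.FA Cfsg.Agent.Lib.Helper23

variable {F : Type*} [Field F]

theorem XG_eq_xE (hA : AddFact chevD4 F) (r : Fin 24) (t : F) : hA.XG r.val t = xE r t := by
  apply Subtype.ext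
  apply Units.ext
  show chevD4.x F r.val t = xM F r t
  rw [xM_eq_x]

theorem simple_D4_val : ∀ i : Fin 4, chevD4.simple i = (![18, 14, 13, 12] : Fin 4 → ℕ) i := by
  decide +kernel

theorem neg_simple_D4_val : ∀ i : Fin 4,
    chevD4.neg (chevD4.simple i) = (![5, 9, 10, 11] : Fin 4 → ℕ) i := by
  decide +kernel

/-- the fundamental roots as elements of `Fin 24` -/
def sR : Fin 4 → Fin 24 := ![18, 14, 13, 12]

/-- the negatives of the fundamental roots as elements of `Fin 24` -/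
def sN : Fin 4 → Fin 24 := ![5, 9, 10, 11]

theorem sR_val : ∀ i : Fin 4, (sR i).val = chevD4.simple i := by
  decide +kernel

theorem sN_val : ∀ i : Fin 4, (sN i).val = chevD4.neg (chevD4.simple i) := by
  decide +kernel

theorem sR_mem : ∀ i : Fin 4, sR i ∈ ([18, 14, 13, 12, 5, 9, 10, 11] : List (Fin 24)) := by
  decide

theorem sN_mem : ∀ i : Fin 4, sN i ∈ ([18, 14, 13, 12, 5, 9, 10, 11] : List (Fin 24)) := by
  decide

theorem XG_simple (hA : AddFact chevD4 F) (i : Fin 4) (t : F) :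
    hA.XG (chevD4.simple i) t = xE (sR i) t := by
  rw [← sR_val, XG_eq_xE]

theorem XG_neg_simple (hA : AddFact chevD4 F) (i : Fin 4) (t : F) :
    hA.XG (chevD4.neg (chevD4.simple i)) t = xE (sN i) t := by
  rw [← sN_val, XG_eq_xE]

theorem hom_ext8 {M : Type*} [Group M] (f g : ↥(chevD4.group F) →* M)
    (h : ∀ r ∈ ([18, 14, 13, 12, 5, 9, 10, 11] : List (Fin 24)), ∀ t : F,
      f (xE r t) = g (xE r t)) : f = g := by
  have b := bundle_of_mem F (D := chevD4) (by simp)
  apply Cfsg.Agent.Lib.Helper22.hom_ext_GS b.hA b.hR b.hN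
  · intro i hi t
    have h1 := XG_simple b.hA ⟨i, hi⟩ t
    have h2 := h _ (sR_mem ⟨i, hi⟩) t
    rw [← h1] at h2
    exact h2
  · intro i hi t
    have h1 := XG_neg_simple b.hA ⟨i, hi⟩ t
    have h2 := h _ (sN_mem ⟨i, hi⟩) t
    rw [← h1] at h2
    exact h2

end Cfsg.Agent.Lib.Helper49.FA
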