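import Mathlib
import Cfsg.Agent.Lib.Helper49.FAEXT
import Cfsg.Agent.Lib.Helper49.D4Out1

set_option autoImplicit false
set_option maxRecDepth 1000000

/-! Rung COMM of helper6's ladder for S2715. -/

namespace Cfsg.Agent.Lib.Helper49.FA

open Matrix Cfsg.Lie Cfsg.Agent.Lib.Helper6.D4 Cfsg.Agent.Lib.Helper6.FA Cfsg.Agent.Lib.Helper23
open Cfsg.Agent.Lib.Helper49

variable {F : Type*} [Field F]

theorem ringAut_comm' [Finite F] (σ τ : F ≃+* F) : σ * τ = τ * σ := by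
  have := Fintype.ofFinite F
  obtain ⟨p, hp⟩ := CharP.exists F
  obtain ⟨n, hpp, hn⟩ := FiniteField.card F p
  have : Fact p.Prime := ⟨hpp⟩
  obtain ⟨φ, -, -, hgen, -⟩ := exists_frob (F := F) (p := p) (f := n) hn
  obtain ⟨a, rfl⟩ := hgen σ
  obtain ⟨b, rfl⟩ := hgen τ
  rw [← pow_add, ← pow_add, add_comm]

theorem isStd_of_xE (hA : AddFact chevD4 F) (φ' : ↥(chevD4.group F) ≃* ↥(chevD4.group F))
    (σ : F ≃+* F) (hφ' : ∀ r t, φ' (xE r t) = xE r (σ t)) : IsStd hA φ' 1 1 σ := by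
  rw [isStd_D4_iff]
  intro i t
  constructor
  · rw [XG_simple hA i, hφ']
    simp only [Equiv.Perm.coe_one, id_eq, Pi.one_apply, Units.val_one, one_mul]
    rw [XG_simple hA i]
  · rw [XG_neg_simple hA i, hφ']
    simp only [Equiv.Perm.coe_one, id_eq, Pi.one_apply, inv_one, Units.val_one, one_mul]
    rw [XG_neg_simple hA i]

theorem isStd_graph_field (b : Bundle chevD4 F) {g f : ↥(chevD4.group F) ≃* ↥(chevD4.group F)}
    {π : Equiv.Perm (Fin chevD4.rank)} (hg : GraphFor g π) {σ : F ≃+* F}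
    (hf : ∀ (y : ↥(chevD4.group F)) (r : ℕ) (t : F), r < chevD4.nroots →
      ((y : GL chevD4.Idx F) : Matrix chevD4.Idx chevD4.Idx F) = chevD4.x F r t →
      ((f y : GL chevD4.Idx F) : Matrix chevD4.Idx chevD4.Idx F) = chevD4.x F r (σ t)) :
    IsStd b.hA (f.trans g) 1 π σ := by
  have hA := b.hA
  rw [isStd_D4_iff]
  have h1 : ∀ r < chevD4.nroots, ∀ t, f (hA.XG r t) = hA.XG r (σ t) := fun r hr t =>
    Subtype.ext ((hA.eq_X_iff _ _ _).1 (hf _ _ _ hr (hA.coe_X _ _)))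
  intro i t
  constructor
  · show g (f _) = _
    rw [h1 _ (b.hR.simple_lt i.2)]
    apply Subtype.ext
    apply (hA.eq_X_iff _ _ _).1
    rw [((hg (hA.XG (chevD4.simple i) (σ t)) i (σ t)).1 (hA.coe_X _ _)), graphExp_D4, pow_one]
    simp
  · show g (f _) = _
    rw [h1 _ (b.hR.neg_lt (b.hR.simple_lt i.2))]
    apply Subtype.ext
    apply (hA.eq_X_iff _ _ _).1
    rw [((hg (hA.XG (chevD4.neg (chevD4.simple i)) (σ t)) i (σ t)).2 (hA.coe_X _ _)), graphExp_D4,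
      pow_one]
    simp

theorem comm [Finite F] (φ' g f : ↥(chevD4.group F) ≃* ↥(chevD4.group F)) (σ : F ≃+* F)
    (hφ' : ∀ r t, φ' (xE r t) = xE r (σ t)) (hg : chevD4.IsGraphAut g)
    (hf : chevD4.IsFieldAut f) (y : ↥(chevD4.group F)) : g (f (φ' y)) = φ' (g (f y)) := by
  have b := bundle_of_mem F hD4
  obtain ⟨π, -, hg⟩ := hg
  obtain ⟨σf, hf⟩ := hf
  have h1 : IsStd b.hA (f.trans g : MulAut ↥(chevD4.group F)) 1 π σf := isStd_graph_field b hg hf
  have h2 : IsStd b.hA (φ' : MulAut ↥(chevD4.group F)) 1 1 σ := isStd_of_xE b.hA φ' σ hφ'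
  have h3 := isStd_mul b.hA h1 h2
  have h4 := isStd_mul b.hA h2 h1
  rw [mulPar_one, mul_one] at h3
  rw [mulPar_one, one_mul, ringAut_comm' σ σf] at h4
  exact DFunLike.congr_fun (b.isStd_unique h3 h4) y

end Cfsg.Agent.Lib.Helper49.FA
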