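import Mathlib
import Cfsg.Agent.Lib.Helper49.FAEXT
import Cfsg.Agent.Lib.Helper49.D4Out1
import Cfsg.Agent.Lib.Helper49.GamO2

set_option autoImplicit false
set_option maxRecDepth 1000000

/-! Rung DIAG of helper6's ladder for S2715. -/

namespace Cfsg.Agent.Lib.Helper49.FA

open Matrix Cfsg.Lie Cfsg.Agent.Lib.Helper6.D4 Cfsg.Agent.Lib.Helper6.FA Cfsg.Agent.Lib.Helper23
open Cfsg.Agent.Lib.Helper49

variable {F : Type*} [Field F]

theorem diag_conj_Rm (dd : I → F) (lam : F) (hl : lam ≠ 0) (h : ∀ p, dd p * dd p.swap = lam)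
    (p q : I) (t : F) :
    Matrix.diagonal dd * Rm p q t * Matrix.diagonal (fun i => (dd i)⁻¹) =
      Rm p q (dd p * dd q / lam * t) := by
  have hne : ∀ i, dd i ≠ 0 := fun i h0 => hl (by rw [← h i, h0, zero_mul])
  have hinv : ∀ i, (dd i.swap)⁻¹ = dd i / lam := fun i => by
    rw [← h i]
    have := hne i
    have := hne i.swap
    field_simp
  ext i j
  rw [Matrix.mul_diagonal, Matrix.diagonal_mul]
  simp only [Rm, N, Matrix.add_apply, Matrix.smul_apply, Matrix.sub_apply, Matrix.one_apply,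
    Matrix.single_apply, smul_eq_mul]
  have e1 : dd i * (if i = j then (1 : F) else 0) * (dd j)⁻¹ = if i = j then 1 else 0 := by
    split_ifs with h1
    · subst h1
      rw [mul_one, mul_inv_cancel₀ (hne i)]
    · simp
  have e2 : ∀ (a b : I), dd i * (if a = i ∧ b.swap = j then (1 : F) else 0) * (dd j)⁻¹ =
      dd a * dd b / lam * (if a = i ∧ b.swap = j then (1 : F) else 0) := by
    intro a b
    split_ifs with h1
    · obtain ⟨rfl, rfl⟩ := h1
      rw [hinv]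
      ring
    · simp
  have e3 := e2 p q
  have e4 := e2 q p
  linear_combination e1 + t * e3 - t * e4

/-- the diagonal matrix as an element of `GL` -/
def dgGL (dd : I → F) (hne : ∀ i, dd i ≠ 0) : GL I F :=
  ⟨Matrix.diagonal dd, Matrix.diagonal (fun i => (dd i)⁻¹), by
    rw [Matrix.diagonal_mul_diagonal, ← Matrix.diagonal_one]
    congr 1
    funext i
    exact mul_inv_cancel₀ (hne i), by
    rw [Matrix.diagonal_mul_diagonal, ← Matrix.diagonal_one]
    congr 1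
    funext i
    exact inv_mul_cancel₀ (hne i)⟩

theorem dgGL_semi (dd : I → F) (hne : ∀ i, dd i ≠ 0) (lam : Fˣ)
    (h : ∀ p, dd p * dd p.swap = lam) :
    (⟨dgGL dd hne, 1⟩ : GamL I F) ∈ GamO (Cfsg.quadFormPlus 4 F) := by
  refine ⟨lam, fun v => ?_⟩
  show Cfsg.quadFormPlus 4 F (Matrix.diagonal dd *ᵥ fun i => v i) = lam * Cfsg.quadFormPlus 4 F v
  unfold Cfsg.quadFormPlus
  rw [Finset.mul_sum]
  apply Finset.sum_congr rfl
  intro i _
  rw [Matrix.mulVec_diagonal, Matrix.mulVec_diagonal, ← h (Sum.inl i)]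
  simp only [Sum.swap_inl]
  ring

theorem cGam_dg (dd : I → F) (hne : ∀ i, dd i ≠ 0) (lam : Fˣ)
    (h : ∀ p, dd p * dd p.swap = lam) (r : Fin 24) (t : F) :
    cGam (Cfsg.quadFormPlus 4 F) ⟨_, dgGL_semi dd hne lam h⟩ (rE r t) =
      rE r (dd (P r) * dd (Qt r) / lam * t) := by
  apply cGam_induced (Cfsg.quadFormPlus 4 F) ⟨_, dgGL_semi dd hne lam h⟩ ⟨Rr r t, Rr_mem r t⟩
    ⟨Rr r _, Rr_mem r _⟩
  show mat (Rr r _) = Matrix.diagonal dd * (mat (Rr r t)).map (1 : F ≃+* F) *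
    Matrix.diagonal (fun i => (dd i)⁻¹)
  have e1 : (mat (Rr r t)).map (1 : F ≃+* F) = mat (Rr r t) := by
    ext i j
    rfl
  rw [e1, mat_Rr, mat_Rr, diag_conj_Rm dd lam lam.ne_zero h]

theorem PQ_sR : ∀ i : Fin 4, (P (sR i), Qt (sR i)) =
    (![(.inl 0, .inr 1), (.inl 1, .inr 2), (.inl 2, .inr 3), (.inl 2, .inl 3)] : Fin 4 → I × I) i := by
  decide

theorem PQ_sN : ∀ i : Fin 4, (P (sN i), Qt (sN i)) =
    (![(.inl 1, .inr 0), (.inl 2, .inr 1), (.inl 3, .inr 2), (.inr 3, .inr 2)] : Fin 4 → I × I) i := by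
  decide

theorem mem8 : ∀ r ∈ ([18, 14, 13, 12, 5, 9, 10, 11] : List (Fin 24)),
    ∃ i : Fin 4, r = sR i ∨ r = sN i := by
  decide

/-- the entries of the diagonal similarity -/
def ddOf (c : Fin 4 → Fˣ) : I → F :=
  Sum.elim (fun i => ((![c 0 * c 1 * c 2, c 1 * c 2, c 2, 1] : Fin 4 → Fˣ) i : F))
    (fun i => ((c 2 * (c 3)⁻¹ * ((![c 0 * c 1 * c 2, c 1 * c 2, c 2, 1] : Fin 4 → Fˣ) i)⁻¹ : Fˣ) : F))

theorem ddOf_ne (c : Fin 4 → Fˣ) (i : I) : ddOf c i ≠ 0 := by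
  rcases i with i | i <;> exact Units.ne_zero _

theorem ddOf_swap (c : Fin 4 → Fˣ) (p : I) :
    ddOf c p * ddOf c p.swap = ((c 2 * (c 3)⁻¹ : Fˣ) : F) := by
  rcases p with i | i
  · simp only [ddOf, Sum.swap_inl, Sum.elim_inl, Sum.elim_inr]
    rw [← Units.val_mul]
    congr 1
    rw [mul_comm, inv_mul_cancel_right]
  · simp only [ddOf, Sum.swap_inr, Sum.elim_inl, Sum.elim_inr]
    rw [← Units.val_mul]
    congr 1
    rw [inv_mul_cancel_right]

theorem ddOf_sR (c : Fin 4 → Fˣ) (i : Fin 4) :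
    ddOf c (P (sR i)) * ddOf c (Qt (sR i)) / ((c 2 * (c 3)⁻¹ : Fˣ) : F) = c i := by
  have h1 := congrArg Prod.fst (PQ_sR i)
  have h2 := congrArg Prod.snd (PQ_sR i)
  simp only at h1 h2
  rw [h1, h2]
  have := (c 0).ne_zero
  have := (c 1).ne_zero
  have := (c 2).ne_zero
  have := (c 3).ne_zero
  fin_cases i <;> simp [ddOf] <;> field_simp

theorem ddOf_sN (c : Fin 4 → Fˣ) (i : Fin 4) :
    ddOf c (P (sN i)) * ddOf c (Qt (sN i)) / ((c 2 * (c 3)⁻¹ : Fˣ) : F) = ((c i)⁻¹ : Fˣ) := by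
  have h1 := congrArg Prod.fst (PQ_sN i)
  have h2 := congrArg Prod.snd (PQ_sN i)
  simp only at h1 h2
  rw [h1, h2]
  have := (c 0).ne_zero
  have := (c 1).ne_zero
  have := (c 2).ne_zero
  have := (c 3).ne_zero
  fin_cases i <;> simp [ddOf] <;> field_simp

theorem diag (e : ↥(chevD4.group F) ≃* Cfsg.POmega F (Cfsg.quadFormPlus 4 F))
    (he : ∀ r t, e (xE r t) = rE r t) (d : ↥(chevD4.group F) ≃* ↥(chevD4.group F))
    (hd : chevD4.IsDiagonalAut d) :
    MulAut.congr e d ∈ Cfsg.gammaPOmega F (Cfsg.quadFormPlus 4 F) := by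
  have b := bundle_of_mem F hD4
  obtain ⟨χ, hχ, hd⟩ := hd
  have hg : GraphFor (MulEquiv.refl ↥(chevD4.group F)) 1 := by
    intro g i t
    constructor
    · intro h
      rw [graphExp_D4, pow_one]
      exact h
    · intro h
      rw [graphExp_D4, pow_one]
      exact h
  have h1 := isStd_comp hD4 b hχ hd (g := MulEquiv.refl _) (π := 1) hg (σ := RingEquiv.refl F)
    (f := MulEquiv.refl _) (fun y r t _ h => h)
  rw [isStd_D4_iff] at h1
  set c : Fin 4 → Fˣ := fun j => χ (chevD4.simple j) with hc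
  have hdR : ∀ (i : Fin 4) (t : F), d (xE (sR i) t) = xE (sR i) (c i * t) := by
    intro i t
    have h2 := (h1 i t).1
    rw [XG_simple b.hA i] at h2
    have h3 : d (xE (sR i) t) = b.hA.XG (chevD4.simple i) ((c i : F) * t) := h2
    rw [h3, XG_simple b.hA i]
  have hdN : ∀ (i : Fin 4) (t : F), d (xE (sN i) t) = xE (sN i) (((c i)⁻¹ : Fˣ) * t) := by
    intro i t
    have h2 := (h1 i t).2
    rw [XG_neg_simple b.hA i] at h2
    have h3 : d (xE (sN i) t) = b.hA.XG (chevD4.neg (chevD4.simple i)) (((c i)⁻¹ : Fˣ) * t) := h2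
    rw [h3, XG_neg_simple b.hA i]
  set β := cGam (Cfsg.quadFormPlus 4 F)
    ⟨_, dgGL_semi (ddOf c) (ddOf_ne c) (c 2 * (c 3)⁻¹) (ddOf_swap c)⟩ with hβ
  have key : e.toMonoidHom.comp d.toMonoidHom = β.toMonoidHom.comp e.toMonoidHom := by
    apply hom_ext8
    intro r hr t
    obtain ⟨i, rfl | rfl⟩ := mem8 r hr
    · show e (d (xE (sR i) t)) = β (e (xE (sR i) t))
      rw [hdR, he, he, hβ, cGam_dg (ddOf c) (ddOf_ne c) _ (ddOf_swap c), ddOf_sR]
    · show e (d (xE (sN i) t)) = β (e (xE (sN i) t))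
      rw [hdN, he, he, hβ, cGam_dg (ddOf c) (ddOf_ne c) _ (ddOf_swap c), ddOf_sN]
  have hfin : MulAut.congr e d = β := by
    ext y
    have h2 := DFunLike.congr_fun key (e.symm y)
    have h3 : e (d (e.symm y)) = β (e (e.symm y)) := h2
    rw [MulEquiv.apply_symm_apply] at h3
    exact h3
  rw [hfin, gammaPOmega_eq_range]
  exact ⟨_, rfl⟩

end Cfsg.Agent.Lib.Helper49.FA
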