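import Mathlib
import Cfsg.Agent.Lib.Helper6.FA.Iso
import Cfsg.Prelude.Def_StandardType

set_option autoImplicit false

/-! Rung FLD of helper6's ladder for S2715. -/

namespace Cfsg.Agent.Lib.Helper49.FA

open Matrix Cfsg.Lie Cfsg.Agent.Lib.Helper6.D4 Cfsg.Agent.Lib.Helper6.FA

variable {F : Type*} [Field F]

theorem Rm_map (σ : F ≃+* F) (p q : I) (t : F) : (Rm p q t).map σ = Rm p q (σ t) := by
  ext i j
  simp only [Rm, N, Matrix.map_apply, Matrix.add_apply, Matrix.smul_apply, Matrix.sub_apply,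
    Matrix.one_apply, Matrix.single_apply, smul_eq_mul, map_add, map_mul, map_sub]
  congr 1
  · split_ifs <;> simp
  · congr 1
    congr 1 <;> split_ifs <;> simp

theorem fld (σ : F ≃+* F) (φ : MulAut (Cfsg.POmega F (Cfsg.quadFormPlus 4 F)))
    (hφ : Cfsg.IsFieldAutPOmegaOf (Cfsg.quadFormPlus 4 F) σ φ) (r : Fin 24) (t : F) :
    φ (rE r t) = rE r (σ t) := by
  apply hφ ⟨Rr r t, Rr_mem r t⟩ ⟨Rr r (σ t), Rr_mem r (σ t)⟩
  show mat (Rr r (σ t)) = (mat (Rr r t)).map σ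
  rw [mat_Rr, mat_Rr, Rm_map]

end Cfsg.Agent.Lib.Helper49.FA
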