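import Mathlib
import Cfsg.Prelude.Def_LieTypeDatum

set_option autoImplicit false

/-! Rung INN of helper6's ladder for S2715. -/

namespace Cfsg.Agent.Lib.Helper49.FA

open Matrix

variable {F : Type*} [Field F]

theorem inn_le {ι : Type} [Fintype ι] [DecidableEq ι] (Q : (ι → F) → F) (z : Cfsg.POmega F Q) :
    MulAut.conj z ∈ Cfsg.gammaPOmega F Q := by
  obtain ⟨s0, rfl⟩ := QuotientGroup.mk_surjective z
  apply Subgroup.subset_closure
  refine ⟨((s0 : ↥(Cfsg.isometryGroup F Q)) : GL ι F), RingEquiv.refl F, ⟨1, fun v => ?_⟩, ?_⟩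
  · have h := (s0 : ↥(Cfsg.isometryGroup F Q)).2
    simpa using h v
  · intro s s' hs
    have e : s' = s0 * s * s0⁻¹ := by
      apply Subtype.ext
      apply Subtype.ext
      apply Units.ext
      rw [hs]
      have : ((((s : ↥(Cfsg.isometryGroup F Q)) : GL ι F) : Matrix ι ι F)).map (RingEquiv.refl F) =
          (((s : ↥(Cfsg.isometryGroup F Q)) : GL ι F) : Matrix ι ι F) := by
        ext i j
        rfl
      rw [this]
      rfl
    rw [e, MulAut.conj_apply]
    rfl

end Cfsg.Agent.Lib.Helper49.FA
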