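import Mathlib
import Cfsg.Agent.Lib.Helper6.OA.Diag
import Cfsg.Agent.Lib.Helper49.DecGeo

set_option autoImplicit false
set_option linter.unusedSectionVars false

/-! Ladder GS (helper6), rung EIG (`exists_pair`, through the two eigenspaces). -/

namespace Cfsg.Agent.Lib.Helper49GS

open Matrix QuadraticMap Module
open Cfsg.Agent.Lib.Helper18 Cfsg.Agent.Lib.Helper18.OmegaCenter Cfsg.Agent.Lib.Helper6.OA

variable {ι : Type} [Fintype ι] [DecidableEq ι] {F : Type*} [Field F] [Fintype F]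
variable {Q : QuadraticForm F (ι → F)} {k : ℕ} {ν : Fˣ} {D : ↥(GO ⇑Q)}

/-- the `c`-eigenspace -/
def eigS (h : ↥(Cfsg.isometryGroup F ⇑Q)) (c : F) : Submodule F (ι → F) where
  carrier := {v | mat h *ᵥ v = c • v}
  add_mem' := by
    intro a b ha hb
    show mat h *ᵥ (a + b) = c • (a + b)
    rw [Matrix.mulVec_add, smul_add, show mat h *ᵥ a = c • a from ha, show mat h *ᵥ b = c • b from hb]
  zero_mem' := by
    show mat h *ᵥ (0 : ι → F) = c • (0 : ι → F)
    simp
  smul_mem' := by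
    intro r a ha
    show mat h *ᵥ (r • a) = c • (r • a)
    rw [Matrix.mulVec_smul, show mat h *ᵥ a = c • a from ha, smul_comm]

theorem mem_eigS (h : ↥(Cfsg.isometryGroup F ⇑Q)) (c : F) (v : ι → F) :
    v ∈ eigS h c ↔ mat h *ᵥ v = c • v := Iff.rfl

theorem eigS_nd (S : Setup Q k ν D) (h : ↥(Cfsg.isometryGroup F ⇑Q)) (hh : h * h = 1) (c : F)
    (hc : c * c = 1) : Cfsg.Agent.Lib.Helper49.NDon Q (eigS h c) := by
  have hHH : ∀ v, mat h *ᵥ (mat h *ᵥ v) = v := by
    intro v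
    have := act_mul h h v
    rw [hh, act_one] at this
    exact this.symm
  intro w hw hw0
  rw [mem_eigS] at hw
  obtain ⟨x, hx⟩ : ∃ x, polar ⇑Q w x ≠ 0 := by
    by_contra hcon
    push Not at hcon
    apply hw0
    apply S.nd.1 w
    intro y
    rw [polarBilin_apply_apply]
    exact hcon y
  refine ⟨x + c • (mat h *ᵥ x), ?_, ?_⟩
  · rw [mem_eigS, Matrix.mulVec_add, Matrix.mulVec_smul, hHH, smul_add, smul_smul, hc, one_smul, add_comm]
  · have h1 : polar ⇑Q w (mat h *ᵥ x) = c * polar ⇑Q w x := by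
      have := polar_act h w x
      rw [act_def, act_def, hw, polar_smul_left, smul_eq_mul] at this
      calc polar ⇑Q w (mat h *ᵥ x) = (c * c) * polar ⇑Q w (mat h *ᵥ x) := by rw [hc, one_mul]
        _ = c * (c * polar ⇑Q w (mat h *ᵥ x)) := by ring
        _ = c * polar ⇑Q w x := by rw [this]
    rw [polar_add_right, polar_smul_right, h1, smul_eq_mul, ← mul_assoc, hc, one_mul, ← two_mul]
    exact mul_ne_zero S.h2 hx

theorem exists_pair (S : Setup Q k ν D) (h : ↥(Cfsg.isometryGroup F ⇑Q)) (hh : h * h = 1) :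
    ∃ (u w : ι → F) (c : F), mat h *ᵥ u = c • u ∧ mat h *ᵥ w = c • w ∧ c ≠ 0 ∧ Q u ≠ 0 ∧ Q w ≠ 0 ∧
      polar ⇑Q u w = 0 := by
  have hHH : ∀ v, mat h *ᵥ (mat h *ᵥ v) = v := by
    intro v
    have := act_mul h h v
    rw [hh, act_one] at this
    exact this.symm
  have htop : eigS h 1 ⊔ eigS h (-1) = ⊤ := by
    rw [eq_top_iff]
    intro v _
    have e : v = (2 : F)⁻¹ • (v + mat h *ᵥ v) + (2 : F)⁻¹ • (v - mat h *ᵥ v) := by
      rw [← smul_add, add_add_sub_cancel, ← two_smul F v, smul_smul, inv_mul_cancel₀ S.h2, one_smul]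
    rw [e]
    refine Submodule.add_mem_sup (Submodule.smul_mem _ _ ?_) (Submodule.smul_mem _ _ ?_)
    · rw [mem_eigS, Matrix.mulVec_add, hHH, one_smul, add_comm]
    · rw [mem_eigS, Matrix.mulVec_sub, hHH, neg_smul, one_smul, neg_sub]
  have hdim : Fintype.card ι ≤ finrank F (eigS h 1) + finrank F (eigS h (-1)) := by
    have := Submodule.finrank_add_le_finrank_add_finrank (eigS h 1) (eigS h (-1))
    rw [htop, finrank_top, Module.finrank_fintype_fun_eq_card] at this
    exact this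
  have h7 := S.hd
  rcases (by omega : 2 ≤ finrank F (eigS h 1) ∨ 2 ≤ finrank F (eigS h (-1))) with hd | hd
  · obtain ⟨a, ha, b, hb, hQa, hQb, hab⟩ :=
      (eigS_nd S h hh 1 (by ring)).exists_orth_pair S.h2 hd
    exact ⟨a, b, 1, ha, hb, one_ne_zero, hQa, hQb, hab⟩
  · obtain ⟨a, ha, b, hb, hQa, hQb, hab⟩ :=
      (eigS_nd S h hh (-1) (by ring)).exists_orth_pair S.h2 hd
    exact ⟨a, b, -1, ha, hb, neg_ne_zero.2 one_ne_zero, hQa, hQb, hab⟩

end Cfsg.Agent.Lib.Helper49GS
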