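import Mathlib
import Cfsg.Agent.Lib.Helper6.OA.Diag

set_option autoImplicit false
set_option linter.unusedSectionVars false

/-! Ladder GS (helper6), rung RFL. -/

namespace Cfsg.Agent.Lib.Helper49GS

open Matrix QuadraticMap Module
open Cfsg.Agent.Lib.Helper18 Cfsg.Agent.Lib.Helper18.OmegaCenter Cfsg.Agent.Lib.Helper6.OA

variable {ι : Type} [Fintype ι] [DecidableEq ι] {F : Type*} [Field F] [Fintype F]
variable {Q : QuadraticForm F (ι → F)} {k : ℕ} {ν : Fˣ} {D : ↥(GO ⇑Q)}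

theorem refl_smul (S : Setup Q k ν D) (c : F) (hc : c ≠ 0) (v : ι → F) :
    refl Q (c • v) = refl Q v := Cfsg.Agent.Lib.Helper18.refl_smul Q hc v

theorem refl_comm (S : Setup Q k ν D) (u v : ι → F) (huv : polar ⇑Q u v = 0) :
    refl Q u * refl Q v = refl Q v * refl Q u := by
  have hvu : polar ⇑Q v u = 0 := by rw [polar_comm]; exact huv
  apply ext_act
  intro x
  rw [act_mul, act_mul, act_refl, act_refl, act_refl, act_refl, polar_sub_right, polar_sub_right,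
    polar_smul_right, polar_smul_right, huv, hvu]
  simp only [smul_zero, sub_zero]
  abel

theorem sgn_two (S : Setup Q k ν D) (u v : ι → F) (huv : ¬ IsSquare (Q u * Q v)) :
    dh Q (refl Q u * refl Q v) = 1 ∧ sgn ⇑Q 1 (refl Q u * refl Q v) = -1 := by
  have hu : Q u ≠ 0 := by
    intro h; apply huv; rw [h, zero_mul]; exact IsSquare.zero
  have hv : Q v ≠ 0 := by
    intro h; apply huv; rw [h, mul_zero]; exact IsSquare.zero
  refine ⟨by rw [map_mul, S.dh_refl hu, S.dh_refl hv]; simp, ?_⟩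
  rcases sq_or_nonsq S.h2 S.nsq hu with ⟨s, hs⟩ | ⟨s, hs⟩ <;>
  rcases sq_or_nonsq S.h2 S.nsq hv with ⟨t, ht⟩ | ⟨t, ht⟩
  · exact absurd ⟨s * t, by rw [hs, ht]; ring⟩ huv
  · have hs0 : s ≠ 0 := by rintro rfl; apply hu; rw [hs]; simp
    have ht0 : t ≠ 0 := by rintro rfl; apply hv; rw [ht]; simp
    rw [map_mul, (sgn_pair_refl_sq Q S.h2 S.nsq hs0 hs).1, (sgn_pair_refl_nonsq Q S.h2 S.nsq ht0 ht).1]
    simp
  · have hs0 : s ≠ 0 := by rintro rfl; apply hu; rw [hs]; simp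
    have ht0 : t ≠ 0 := by rintro rfl; apply hv; rw [ht]; simp
    rw [map_mul, (sgn_pair_refl_nonsq Q S.h2 S.nsq hs0 hs).1, (sgn_pair_refl_sq Q S.h2 S.nsq ht0 ht).1]
    simp
  · exact absurd ⟨(ν : F) * s * t, by rw [hs, ht]; ring⟩ huv

end Cfsg.Agent.Lib.Helper49GS
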