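import Mathlib
import Cfsg.Agent.Lib.Helper6.OA.Diag
import Cfsg.Agent.Lib.Helper49.GSRFL
import Cfsg.Agent.Lib.Helper49.GSEIG

set_option autoImplicit false
set_option linter.unusedSectionVars false

/-! Ladder GS (helper6), rung CA. -/

namespace Cfsg.Agent.Lib.Helper49GS

open Matrix QuadraticMap Module
open Cfsg.Agent.Lib.Helper18 Cfsg.Agent.Lib.Helper18.OmegaCenter Cfsg.Agent.Lib.Helper6.OA

variable {ι : Type} [Fintype ι] [DecidableEq ι] {F : Type*} [Field F] [Fintype F]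
variable {Q : QuadraticForm F (ι → F)} {k : ℕ} {ν : Fˣ} {D : ↥(GO ⇑Q)}

theorem comm_refl_of_eig (S : Setup Q k ν D) (h : ↥(Cfsg.isometryGroup F ⇑Q)) (c : F) (hc : c ≠ 0)
    (v : ι → F) (hv : mat h *ᵥ v = c • v) : h * refl Q v = refl Q v * h := by
  have := conj_refl Q h v
  rw [act_def, hv, refl_smul S c hc] at this
  exact mul_inv_eq_iff_eq_mul.1 this

theorem caseA (S : Setup Q k ν D) (h : ↥(Cfsg.isometryGroup F ⇑Q)) (hh : h * h = 1) :
    ∃ t : ↥(Cfsg.isometryGroup F ⇑Q), dh Q t = 1 ∧ sgn ⇑Q 1 t = -1 ∧ t * h = h * t := by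
  obtain ⟨u, w, c, hu, hw, hc, hQu, hQw, huw⟩ := exists_pair S h hh
  obtain ⟨x, y, hxy⟩ := exists_binary_eq S.h2 hQu hQw ((ν : F) * Q u)
  have hQb : Q (x • u + y • w) = (ν : F) * Q u := by
    rw [QuadraticMap.map_add Q, QuadraticMap.map_smul, QuadraticMap.map_smul, polar_smul_left,
      polar_smul_right, huw]
    simp only [smul_eq_mul, mul_zero, add_zero]
    linear_combination hxy
  have hb : mat h *ᵥ (x • u + y • w) = c • (x • u + y • w) := by
    rw [Matrix.mulVec_add, Matrix.mulVec_smul, Matrix.mulVec_smul, hu, hw, smul_add, smul_comm x c,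
      smul_comm y c]
  have hns : ¬ IsSquare (Q u * Q (x • u + y • w)) := by
    rw [hQb]
    rintro ⟨r, hr⟩
    apply S.nsq
    refine ⟨r / Q u, ?_⟩
    field_simp
    linear_combination hr
  obtain ⟨h1, h2⟩ := sgn_two S u _ hns
  refine ⟨_, h1, h2, ?_⟩
  rw [mul_assoc, ← comm_refl_of_eig S h c hc _ hb, ← mul_assoc, ← comm_refl_of_eig S h c hc _ hu,
    mul_assoc]

end Cfsg.Agent.Lib.Helper49GS
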