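import Mathlib
import Cfsg.Agent.Lib.Helper6.OA.Diag
import Cfsg.Agent.Lib.Helper50.QuadClass

set_option autoImplicit false
set_option linter.unusedSectionVars false

/-! Ladder GS (helper6), rung PERP. -/

namespace Cfsg.Agent.Lib.Helper49GS

open Matrix QuadraticMap Module
open Cfsg.Agent.Lib.Helper18 Cfsg.Agent.Lib.Helper18.OmegaCenter Cfsg.Agent.Lib.Helper6.OA

variable {ι : Type} [Fintype ι] [DecidableEq ι] {F : Type*} [Field F] [Fintype F]
variable {Q : QuadraticForm F (ι → F)} {k : ℕ} {ν : Fˣ} {D : ↥(GO ⇑Q)}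

/-- the abstract computation: a self-adjoint similarity `G` with `G² = μ` non-square -/
theorem perp_aux (h2 : (2 : F) ≠ 0) (hnd : (polarBilin Q).Nondegenerate) (hd : 3 ≤ Fintype.card ι)
    (G : Matrix ι ι F) (μ : F) (hns : ¬ IsSquare μ)
    (hGG : ∀ v, G *ᵥ (G *ᵥ v) = μ • v) (hQG : ∀ v, Q (G *ᵥ v) = μ * Q v)
    (hpol : ∀ x y, polar ⇑Q (G *ᵥ x) (G *ᵥ y) = μ * polar ⇑Q x y)
    (hsa : ∀ x y, polar ⇑Q (G *ᵥ x) y = polar ⇑Q x (G *ᵥ y)) :
    ∃ a : ι → F, Q a ≠ 0 ∧ polar ⇑Q a (G *ᵥ a) = 0 := by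
  have hμ0 : μ ≠ 0 := by
    rintro rfl
    exact hns IsSquare.zero
  let R : QuadraticForm F (ι → F) :=
    LinearMap.BilinMap.toQuadraticMap ((polarBilin Q).compl₂ (Matrix.toLin' G))
  have hR : ∀ v, R v = polar ⇑Q v (G *ᵥ v) := by
    intro v
    show ((polarBilin Q).compl₂ (Matrix.toLin' G)) v v = _
    rw [LinearMap.compl₂_apply, Matrix.toLin'_apply, polarBilin_apply_apply]
  have hcard : Fintype.card F ^ 2 < Nat.card (⊤ : Submodule F (ι → F)) := by
    have e : Nat.card (⊤ : Submodule F (ι → F)) = Fintype.card F ^ Fintype.card ι := by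
      rw [Nat.card_congr (Submodule.topEquiv (R := F) (M := ι → F)).toEquiv, Nat.card_eq_fintype_card,
        Fintype.card_fun]
    rw [e]
    exact Nat.pow_lt_pow_right Fintype.one_lt_card (by omega)
  obtain ⟨u, -, hu0, hRu⟩ := Cfsg.Agent.Lib.Helper50.Quad.exists_singular (Q := R) ⊤ hcard
  rw [hR] at hRu
  by_cases hQu : Q u = 0
  swap
  · exact ⟨u, hQu, hRu⟩
  -- a vector `w₁` not orthogonal to `u`
  obtain ⟨w₁, hw₁⟩ : ∃ w, polar ⇑Q u w ≠ 0 := by
    by_contra hcon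
    push Not at hcon
    apply hu0
    apply hnd.1 u
    intro w
    rw [polarBilin_apply_apply]
    exact hcon w
  set α := polar ⇑Q u w₁ with hα
  set β := polar ⇑Q (G *ᵥ u) w₁ with hβ
  have hΔ : μ * α ^ 2 - β ^ 2 ≠ 0 := by
    intro h0
    apply hns
    refine ⟨β / α, ?_⟩
    field_simp
    linear_combination h0
  set Δ := μ * α ^ 2 - β ^ 2 with hΔd
  set w₀ : ι → F := (μ * α / Δ) • w₁ + (-β / Δ) • (G *ᵥ w₁) with hw₀
  have p1 : polar ⇑Q u w₀ = 1 := by
    rw [hw₀, polar_add_right, polar_smul_right, polar_smul_right, ← hsa u w₁, ← hα, ← hβ, smul_eq_mul,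
      smul_eq_mul]
    field_simp
    rw [hΔd]; ring
  have p2 : polar ⇑Q (G *ᵥ u) w₀ = 0 := by
    rw [hw₀, polar_add_right, polar_smul_right, polar_smul_right, hpol, ← hα, ← hβ, smul_eq_mul,
      smul_eq_mul]
    field_simp
    ring
  clear_value w₀
  have huu : polar ⇑Q u u = 0 := by
    rw [polar_self, hQu]; simp
  set b : F := -polar ⇑Q w₀ (G *ᵥ w₀) / (2 * μ) with hb
  set a' : F := 1 - Q w₀ with ha'
  refine ⟨w₀ + a' • u + b • (G *ᵥ u), ?_, ?_⟩
  · have : Q (w₀ + a' • u + b • (G *ᵥ u)) = 1 := by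
      rw [QuadraticMap.map_add Q, QuadraticMap.map_add Q, QuadraticMap.map_smul, QuadraticMap.map_smul,
        hQG, hQu]
      simp only [polar_add_left, polar_smul_left, polar_smul_right]
      rw [polar_comm ⇑Q w₀ u, p1, polar_comm ⇑Q w₀ (G *ᵥ u), p2, hRu]
      simp only [smul_eq_mul, mul_zero, add_zero, mul_one]
      rw [ha']; ring
    rw [this]; exact one_ne_zero
  · have q1 : polar ⇑Q w₀ u = 1 := by rw [polar_comm]; exact p1
    have q2 : polar ⇑Q w₀ (G *ᵥ u) = 0 := by rw [polar_comm]; exact p2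
    have q3 : polar ⇑Q u (G *ᵥ w₀) = 0 := by rw [← hsa]; exact p2
    have q4 : polar ⇑Q (G *ᵥ u) (G *ᵥ w₀) = μ := by rw [hpol, p1, mul_one]
    have q5 : polar ⇑Q (G *ᵥ u) (G *ᵥ u) = 0 := by rw [hpol, huu, mul_zero]
    have q6 : polar ⇑Q (G *ᵥ u) u = 0 := by rw [polar_comm]; exact hRu
    rw [Matrix.mulVec_add, Matrix.mulVec_add, Matrix.mulVec_smul, Matrix.mulVec_smul, hGG]
    simp only [polar_add_left, polar_add_right, polar_smul_left, polar_smul_right, smul_eq_mul,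
      q1, q2, q3, q4, q5, q6, huu, hRu]
    rw [hb]
    field_simp
    ring

theorem exists_perp (S : Setup Q k ν D) (g : ↥(GO ⇑Q)) (l : Fˣ) (hsq : g * g = sc Q l)
    (hmu : S.muBar g = -1) :
    ∃ a : ι → F, Q a ≠ 0 ∧ polar ⇑Q a ((g.1 : Matrix ι ι F) *ᵥ a) = 0 := by
  have hμ0 : ((mu Q S.hv g : Fˣ) : F) ≠ 0 := (mu Q S.hv g).ne_zero
  have hGG : ∀ v, (g.1 : Matrix ι ι F) *ᵥ ((g.1 : Matrix ι ι F) *ᵥ v) = (l : F) • v := by
    intro v
    have := congrArg (fun a : ↥(GO ⇑Q) => (a.1 : Matrix ι ι F)) hsq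
    simp only [coe_mul', sc_coe] at this
    rw [Matrix.mulVec_mulVec, this, Matrix.smul_mulVec, Matrix.one_mulVec]
  have hQG : ∀ v, Q ((g.1 : Matrix ι ι F) *ᵥ v) = ((mu Q S.hv g : Fˣ) : F) * Q v := mu_spec Q S.hv g
  have hpol := S.polar_sim g
  have hll : mu Q S.hv g * mu Q S.hv g = l * l := by
    have := congrArg (mu Q S.hv) hsq
    rwa [map_mul, mu_sc] at this
  have hns : ¬ IsSquare ((mu Q S.hv g : Fˣ) : F) := by
    rintro ⟨r, hr⟩
    have hr0 : r ≠ 0 := by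
      rintro rfl
      exact hμ0 (by rw [hr]; simp)
    have : S.muBar g = 1 := (S.muBar_eq_one_iff g).2 ⟨Units.mk0 r hr0, Units.ext (by rw [hr]; simp)⟩
    rw [hmu] at this
    exact absurd this (by decide)
  have hadj : ∀ x y, (l : F) * polar ⇑Q ((g.1 : Matrix ι ι F) *ᵥ x) y =
      ((mu Q S.hv g : Fˣ) : F) * polar ⇑Q x ((g.1 : Matrix ι ι F) *ᵥ y) := by
    intro x y
    have := hpol x ((g.1 : Matrix ι ι F) *ᵥ y)
    rw [hGG, polar_smul_right, smul_eq_mul] at this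
    exact this
  have hcase : (l : F) = ((mu Q S.hv g : Fˣ) : F) ∨ (l : F) = -((mu Q S.hv g : Fˣ) : F) := by
    have h1 := congrArg Units.val hll
    simp only [Units.val_mul] at h1
    exact mul_self_eq_mul_self_iff.1 h1.symm
  rcases hcase with hl | hl
  · rw [hl] at hGG hadj
    exact perp_aux S.h2 S.nd (by have := S.hd; omega) _ _ hns hGG hQG hpol
      (fun x y => mul_left_cancel₀ hμ0 (hadj x y))
  · obtain ⟨u, hu⟩ := S.exists_norm 1
    refine ⟨u, by rw [hu]; exact one_ne_zero, ?_⟩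
    have ha := hadj u u
    rw [hl, polar_comm ⇑Q ((g.1 : Matrix ι ι F) *ᵥ u) u] at ha
    have h3 : (2 : F) * ((mu Q S.hv g : Fˣ) : F) * polar ⇑Q u ((g.1 : Matrix ι ι F) *ᵥ u) = 0 := by
      linear_combination -ha
    rcases mul_eq_zero.1 h3 with h4 | h4
    · exact absurd h4 (mul_ne_zero S.h2 hμ0)
    · exact h4

end Cfsg.Agent.Lib.Helper49GS
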