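import Mathlib
import Cfsg.Agent.Lib.Helper6.OA.Diag
import Cfsg.Agent.Lib.Helper49.GSRFL
import Cfsg.Agent.Lib.Helper49.GSPERP

set_option autoImplicit false
set_option linter.unusedSectionVars false

/-! Ladder GS (helper6), rung CB. -/

namespace Cfsg.Agent.Lib.Helper49GS

open Matrix QuadraticMap Module
open Cfsg.Agent.Lib.Helper18 Cfsg.Agent.Lib.Helper18.OmegaCenter Cfsg.Agent.Lib.Helper6.OA

variable {ι : Type} [Fintype ι] [DecidableEq ι] {F : Type*} [Field F] [Fintype F]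
variable {Q : QuadraticForm F (ι → F)} {k : ℕ} {ν : Fˣ} {D : ↥(GO ⇑Q)}

theorem caseB (S : Setup Q k ν D) (g : ↥(GO ⇑Q)) (l : Fˣ) (hsq : g * g = sc Q l)
    (hmu : S.muBar g = -1) :
    ∃ t : ↥(Cfsg.isometryGroup F ⇑Q), dh Q t = 1 ∧ sgn ⇑Q 1 t = -1 ∧ iO Q t * g = g * iO Q t := by
  obtain ⟨a, ha, hperp⟩ := exists_perp S g l hsq hmu
  have hμ0 : ((mu Q S.hv g : Fˣ) : F) ≠ 0 := (mu Q S.hv g).ne_zero
  have hGG : ∀ v, (g.1 : Matrix ι ι F) *ᵥ ((g.1 : Matrix ι ι F) *ᵥ v) = (l : F) • v := by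
    intro v
    have := congrArg (fun a : ↥(GO ⇑Q) => (a.1 : Matrix ι ι F)) hsq
    simp only [coe_mul', sc_coe] at this
    rw [Matrix.mulVec_mulVec, this, Matrix.smul_mulVec, Matrix.one_mulVec]
  have hns : ¬ IsSquare ((mu Q S.hv g : Fˣ) : F) := by
    rintro ⟨r, hr⟩
    have hr0 : r ≠ 0 := by
      rintro rfl
      exact hμ0 (by rw [hr]; simp)
    have : S.muBar g = 1 := (S.muBar_eq_one_iff g).2 ⟨Units.mk0 r hr0, Units.ext (by rw [hr]; simp)⟩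
    rw [hmu] at this
    exact absurd this (by decide)
  have hns2 : ¬ IsSquare (Q a * Q ((g.1 : Matrix ι ι F) *ᵥ a)) := by
    rw [mu_spec Q S.hv g]
    rintro ⟨r, hr⟩
    apply hns
    refine ⟨r / Q a, ?_⟩
    field_simp
    linear_combination hr
  obtain ⟨h1, h2⟩ := sgn_two S a _ hns2
  refine ⟨_, h1, h2, ?_⟩
  have e1 := S.sim_refl g a
  have e2 := S.sim_refl g ((g.1 : Matrix ι ι F) *ᵥ a)
  rw [hGG, refl_smul S _ l.ne_zero] at e2
  rw [refl_comm S _ _ hperp]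
  conv_rhs => rw [← refl_comm S _ _ hperp]
  rw [map_mul, map_mul, ← mul_assoc g, e1, mul_assoc, mul_assoc, e2]

end Cfsg.Agent.Lib.Helper49GS
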