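import Mathlib
import Cfsg.Agent.Lib.Helper6.OA.Diag
import Cfsg.Agent.Lib.Helper49.Gram

set_option autoImplicit false
set_option linter.unusedSectionVars false

/-! Ladder GS (helper6), rung CC: an isometry with square `-1` has determinant `1`. -/

namespace Cfsg.Agent.Lib.Helper49GS

open Matrix QuadraticMap Module
open Cfsg.Agent.Lib.Helper18 Cfsg.Agent.Lib.Helper18.OmegaCenter Cfsg.Agent.Lib.Helper6.OA

/-- pure matrix lemma -/
theorem det_eq_one_of_sq_neg {n : Type*} [Fintype n] [DecidableEq n] {F : Type*} [Field F]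
    (h2 : (2 : F) ≠ 0) (hn : Even (Fintype.card n)) (H Γ : Matrix n n F) (hΓ : Γ.det ≠ 0)
    (hiso : Hᵀ * Γ * H = Γ) (hH : H * H = -1) : H.det = 1 := by
  -- `(1 - Hᵀ) Γ = Γ (1 + H)`
  have e1 : (1 - Hᵀ) * Γ = Γ * (1 + H) := by
    have : Hᵀ * Γ = - (Γ * H) := by
      calc Hᵀ * Γ = Hᵀ * Γ * (-(H * H)) := by rw [hH]; simp
        _ = -(Hᵀ * Γ * H * H) := by rw [Matrix.mul_neg, Matrix.mul_assoc (Hᵀ * Γ)]
        _ = -(Γ * H) := by rw [hiso]
    rw [Matrix.sub_mul, Matrix.one_mul, this, Matrix.mul_add, Matrix.mul_one, sub_neg_eq_add]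
  have e2 : (1 - H).det = (1 + H).det := by
    have h3 := congrArg Matrix.det e1
    rw [Matrix.det_mul, Matrix.det_mul] at h3
    have h4 : (1 - Hᵀ).det = (1 - H).det := by
      rw [← Matrix.det_transpose (1 - H), Matrix.transpose_sub, Matrix.transpose_one]
    rw [h4, mul_comm] at h3
    exact mul_left_cancel₀ hΓ h3
  have e3 : H * (1 + H) = -(1 - H) := by
    rw [Matrix.mul_add, Matrix.mul_one, hH]; abel
  have e4 : (1 + H) * (1 - H) = (2 : F) • (1 : Matrix n n F) := by
    rw [Matrix.add_mul, Matrix.one_mul, Matrix.mul_sub, Matrix.mul_one, hH, two_smul]; abel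
  have e5 : (1 + H).det ≠ 0 := by
    intro h0
    have h5 := congrArg Matrix.det e4
    rw [Matrix.det_mul, h0, zero_mul, Matrix.det_smul, Matrix.det_one, mul_one] at h5
    exact pow_ne_zero _ h2 h5.symm
  have h6 := congrArg Matrix.det e3
  rw [Matrix.det_mul, Matrix.det_neg, hn.neg_one_pow, one_mul, e2] at h6
  exact mul_right_cancel₀ e5 (by rw [h6, one_mul])

variable {ι : Type} [Fintype ι] [DecidableEq ι] {F : Type*} [Field F] [Fintype F]
variable {Q : QuadraticForm F (ι → F)} {k : ℕ} {ν : Fˣ} {D : ↥(GO ⇑Q)}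

theorem caseC (S : Setup Q k ν D) (h : ↥(Cfsg.isometryGroup F ⇑Q)) (hh : h * h = negIso Q) :
    dh Q h = 1 := by
  apply Units.ext
  rw [dh_coe, Units.val_one]
  have hH : mat h * mat h = -1 := by
    have := congrArg mat hh
    rw [mat_negIso] at this
    exact this
  refine det_eq_one_of_sq_neg S.h2 ⟨k, by rw [S.dim, two_mul]⟩ (mat h)
    (LinearMap.BilinForm.toMatrix' (polarBilin Q)) ?_ ?_ hH
  · have := (LinearMap.BilinForm.nondegenerate_toMatrix'_iff (B := polarBilin Q)).2 S.nd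
    exact Matrix.nondegenerate_iff_det_ne_zero.1 this
  · rw [LinearMap.BilinForm.mul_toMatrix'_mul, Matrix.transpose_transpose]
    congr 1
    refine LinearMap.ext fun x => LinearMap.ext fun y => ?_
    rw [LinearMap.BilinForm.comp_apply, Matrix.toLin'_apply, Matrix.toLin'_apply,
      polarBilin_apply_apply, polarBilin_apply_apply]
    exact polar_act h x y

end Cfsg.Agent.Lib.Helper49GS
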