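import Cfsg.Agent.Lib.Helper49.GamOC2
import Cfsg.Agent.Lib.Helper6.OA.Inst

set_option autoImplicit false
set_option linter.unusedSimpArgs false
set_option linter.unusedSectionVars false

/-! Bridge to the similarity layer `Helper6.OA`, and the map `Out(PΩ) → Aut F`. -/

namespace Cfsg.Agent.Lib.Helper49

open QuadraticMap Module Matrix
open scoped MatrixGroups
open Cfsg.Agent.Lib.Helper6.OA
open Cfsg.Agent.Lib.Helper18 Cfsg.Agent.Lib.Helper18.OmegaCenter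

variable {ι : Type} [Fintype ι] [DecidableEq ι] {F : Type*} [Field F]

theorem cGam_goIncl (Q : (ι → F) → F) (g : ↥(GO Q)) : cGam Q (goIncl Q g) = cG Q g :=
  (eq_cGam_of_induced Q (goIncl Q g) (cG Q g) (induced_cG Q g)).symm

theorem outHom_goIncl_eq_one_iff (Q : (ι → F) → F) (g : ↥(GO Q)) :
    outHom Q (goIncl Q g) = 1 ↔ cG Q g ∈ Cfsg.Inn (Cfsg.POmega F Q) := by
  unfold outHom
  rw [MonoidHom.comp_apply, QuotientGroup.mk'_apply, QuotientGroup.eq_one_iff, cGam_goIncl]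

variable [Fintype F] (Q : QuadraticForm F (ι → F))

/-- the field automorphism attached to an outer automorphism -/
noncomputable def sigBar (hQ : (polarBilin Q).Nondegenerate) (hd : 7 ≤ Fintype.card ι)
    (htop : Cfsg.gammaPOmega F ⇑Q = ⊤) : Cfsg.Out (Cfsg.POmega F ⇑Q) →* (F ≃+* F) :=
  (outHom ⇑Q).liftOfSurjective (outHom_surjective _ htop)
    ⟨sigHom ⇑Q, fun x hx => sigHom_eq_one_of_outHom Q hQ hd x hx⟩

theorem sigBar_outHom (hQ : (polarBilin Q).Nondegenerate) (hd : 7 ≤ Fintype.card ι)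
    (htop : Cfsg.gammaPOmega F ⇑Q = ⊤) (x : ↥(GamO ⇑Q)) :
    sigBar Q hQ hd htop (outHom ⇑Q x) = sigHom ⇑Q x :=
  MonoidHom.liftOfRightInverse_comp_apply _ _ _
    ⟨sigHom ⇑Q, fun x hx => sigHom_eq_one_of_outHom Q hQ hd x hx⟩ x

theorem sigBar_surjective (hQ : (polarBilin Q).Nondegenerate) (hd : 7 ≤ Fintype.card ι)
    (htop : Cfsg.gammaPOmega F ⇑Q = ⊤) (d : ℕ) (hd2 : Fintype.card ι = 2 * (d + 1)) :
    Function.Surjective (sigBar Q hQ hd htop) := by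
  intro σ
  obtain ⟨x, rfl⟩ := sigHom_surjective Q hQ d hd2 σ
  exact ⟨_, sigBar_outHom Q hQ hd htop x⟩

theorem mem_ker_sigBar_iff (hQ : (polarBilin Q).Nondegenerate) (hd : 7 ≤ Fintype.card ι)
    (htop : Cfsg.gammaPOmega F ⇑Q = ⊤) (y : Cfsg.Out (Cfsg.POmega F ⇑Q)) :
    y ∈ (sigBar Q hQ hd htop).ker ↔ ∃ g : ↥(GO ⇑Q), y = outHom ⇑Q (goIncl ⇑Q g) := by
  constructor
  · intro hy
    obtain ⟨x, rfl⟩ := outHom_surjective _ htop y
    rw [MonoidHom.mem_ker, sigBar_outHom, ← MonoidHom.mem_ker, ← range_goIncl] at hy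
    obtain ⟨g, rfl⟩ := hy
    exact ⟨g, rfl⟩
  · rintro ⟨g, rfl⟩
    rw [MonoidHom.mem_ker, sigBar_outHom]
    rfl

theorem ker_sigBar_equiv (hQ : (polarBilin Q).Nondegenerate) (hd : 7 ≤ Fintype.card ι)
    (htop : Cfsg.gammaPOmega F ⇑Q = ⊤) {k : ℕ} {ν : Fˣ} {D : ↥(GO ⇑Q)} (S : Setup Q k ν D)
    (hneg : negIso Q ∈ Cfsg.Omega F ⇑Q) :
    Nonempty (↥(sigBar Q hQ hd htop).ker ≃* DihedralGroup 4) := by
  obtain ⟨φ, hφs, hφk⟩ := S.pgo_mod_Inn hneg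
  let ψ : ↥(Cfsg.pgoAut F ⇑Q) →* Cfsg.Out (Cfsg.POmega F ⇑Q) :=
    (QuotientGroup.mk' (Cfsg.Inn (Cfsg.POmega F ⇑Q))).comp (Cfsg.pgoAut F ⇑Q).subtype
  have hk : ψ.ker = φ.ker := by
    rw [hφk]
    ext x
    rw [MonoidHom.mem_ker, Subgroup.mem_subgroupOf]
    exact QuotientGroup.eq_one_iff _
  have hr : ψ.range = (sigBar Q hQ hd htop).ker := by
    ext y
    rw [mem_ker_sigBar_iff]
    constructor
    · rintro ⟨⟨β, hβ⟩, rfl⟩
      rw [pgoAut_eq] at hβ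
      obtain ⟨g, rfl⟩ := hβ
      refine ⟨g, ?_⟩
      unfold outHom
      rw [MonoidHom.comp_apply (QuotientGroup.mk' _) (cGam ⇑Q), cGam_goIncl]
      rfl
    · rintro ⟨g, rfl⟩
      refine ⟨⟨cG ⇑Q g, S.cG_mem_pgo g⟩, ?_⟩
      unfold outHom
      rw [MonoidHom.comp_apply (QuotientGroup.mk' _) (cGam ⇑Q), cGam_goIncl]
      rfl
  exact ⟨(MulEquiv.subgroupCongr hr.symm).trans ((QuotientGroup.quotientKerEquivRange ψ).symm.trans
    ((QuotientGroup.quotientMulEquivOfEq hk).trans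
      (QuotientGroup.quotientKerEquivOfSurjective φ hφs)))⟩

end Cfsg.Agent.Lib.Helper49
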