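import Cfsg.Agent.Lib.Helper49.GamO9
import Cfsg.Agent.Lib.Helper49.GamO10
import Cfsg.Agent.Lib.Helper49.GamO11

set_option autoImplicit false
set_option linter.unusedSimpArgs false
set_option linter.unusedSectionVars false

/-! `q` odd, even dimension: invariants of similarities under conjugation by semi-isometries. -/

namespace Cfsg.Agent.Lib.Helper49

open QuadraticMap Module Matrix
open scoped MatrixGroups
open Cfsg.Agent.Lib.Helper6.OA
open Cfsg.Agent.Lib.Helper18 Cfsg.Agent.Lib.Helper18.OmegaCenter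

variable {ι : Type} [Fintype ι] [DecidableEq ι] {F : Type*} [Field F]

/-- similarities to `Out` -/
def gOut (Q : (ι → F) → F) : ↥(GO Q) →* Cfsg.Out (Cfsg.POmega F Q) := (outHom Q).comp (goIncl Q)

theorem gOut_apply (Q : (ι → F) → F) (g : ↥(GO Q)) : gOut Q g = outHom Q (goIncl Q g) := rfl

/-- semi-isometries -/
def IsSemiIso (Q : (ι → F) → F) (x : GamL ι F) : Prop := ∀ v, Q (semiFun x v) = x.right (Q v)

theorem IsSemiIso.mem {Q : (ι → F) → F} {x : GamL ι F} (h : IsSemiIso Q x) : x ∈ GamO Q :=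
  (mem_GamO Q).2 ⟨1, fun v => by rw [h v, Units.val_one, one_mul]⟩

theorem IsSemiIso.one (Q : (ι → F) → F) : IsSemiIso Q (1 : GamL ι F) := fun v => by
  rw [semiFun_one]; rfl

theorem IsSemiIso.mul {Q : (ι → F) → F} {x y : GamL ι F} (hx : IsSemiIso Q x) (hy : IsSemiIso Q y) :
    IsSemiIso Q (x * y) := fun v => by
  rw [semiFun_mul, hx, hy]; rfl

theorem IsSemiIso.pow {Q : (ι → F) → F} {x : GamL ι F} (hx : IsSemiIso Q x) (j : ℕ) :
    IsSemiIso Q (x ^ j) := by
  induction j with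
  | zero => rw [pow_zero]; exact IsSemiIso.one Q
  | succ j ih => rw [pow_succ]; exact ih.mul hx

theorem units_int_eq_of_iff {a b : ℤˣ} (h : a = 1 ↔ b = 1) : a = b := by
  rcases Int.units_eq_one_or a with ha | ha <;> rcases Int.units_eq_one_or b with hb | hb
  · rw [ha, hb]
  · exact absurd (h.1 ha) (by rw [hb]; decide)
  · exact absurd (h.2 hb) (by rw [ha]; decide)
  · rw [ha, hb]

variable [Fintype F] {Q : QuadraticForm F (ι → F)} {k : ℕ} {ν : Fˣ} {D : ↥(GO ⇑Q)}

section setup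

variable (S : Setup Q k ν D)
include S

theorem inv_of_gOut_eq_one (g : ↥(GO ⇑Q)) (h : gOut ⇑Q g = 1) : S.muBar g = 1 ∧ S.eps g = 1 := by
  have h1 : cG ⇑Q g ∈ Cfsg.Inn (Cfsg.POmega F ⇑Q) := (outHom_goIncl_eq_one_iff _ g).1 h
  have h2 := S.Inn_le_pso h1
  rw [psoAut_eq] at h2
  obtain ⟨b, hb, e⟩ := h2
  exact (S.N1_iff g).1 ⟨b, hb, e.symm⟩

theorem gOut_eq_one_of_inv (hneg : negIso Q ∉ Cfsg.Omega F ⇑Q) (g : ↥(GO ⇑Q))
    (h1 : S.muBar g = 1) (h2 : S.eps g = 1) : gOut ⇑Q g = 1 := by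
  obtain ⟨b, hb, e⟩ := (S.N1_iff g).2 ⟨h1, h2⟩
  rw [gOut_apply, outHom_goIncl_eq_one_iff, ← S.pso_eq_Inn_of_not hneg, psoAut_eq, e]
  exact ⟨b, hb, rfl⟩

/-- conjugation by a semi-isometry preserves the two sign invariants -/
theorem exists_conj (x : ↥(GamO ⇑Q)) (hx : IsSemiIso ⇑Q x.1) (g : ↥(GO ⇑Q)) :
    ∃ g' : ↥(GO ⇑Q), x * goIncl ⇑Q g * x⁻¹ = goIncl ⇑Q g' ∧ S.muBar g' = S.muBar g ∧
      S.eps g' = S.eps g := by
  have hker : x * goIncl ⇑Q g * x⁻¹ ∈ (sigHom ⇑Q).ker := by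
    rw [MonoidHom.mem_ker, map_mul, map_mul, map_inv]
    have : sigHom ⇑Q (goIncl ⇑Q g) = 1 := rfl
    rw [this, mul_one, mul_inv_cancel]
  rw [← range_goIncl] at hker
  obtain ⟨g', hg'⟩ := hker
  have hleft : (x.1 * SemidirectProduct.inl g.1 * x.1⁻¹ : GamL ι F) = SemidirectProduct.inl g'.1 := by
    have := congrArg Subtype.val hg'
    exact this.symm
  have hmu : (mu Q S.hv g' : F) = x.1.right (mu Q S.hv g : F) := by
    apply mu_unique
    intro v
    rw [← semiFun_inl, ← hleft, semiFun_mul, semiFun_mul, hx, semiFun_inl, mu_spec Q S.hv, map_mul,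
      ← hx, semiFun_semiFun_inv]
  have hdet : (g'.1 : Matrix ι ι F).det = x.1.right (g.1 : Matrix ι ι F).det := by
    have h1 := det_mul_left (x.1 * SemidirectProduct.inl g.1) x.1⁻¹
    rw [hleft, det_mul_left] at h1
    have h2 := det_mul_left x.1 x.1⁻¹
    rw [mul_inv_cancel] at h2
    simp only [SemidirectProduct.left_inl, SemidirectProduct.mul_right, SemidirectProduct.right_inl,
      mul_one, SemidirectProduct.one_left, Units.val_one, Matrix.det_one] at h1 h2
    rw [h1, mul_right_comm, ← h2, one_mul]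
  have heps : (eps' Q S.hv k g' : F) = x.1.right (eps' Q S.hv k g : F) := by
    change ((GeneralLinearGroup.det g'.1 * ((mu Q S.hv g')⁻¹) ^ k : Fˣ) : F) =
      x.1.right ((GeneralLinearGroup.det g.1 * ((mu Q S.hv g)⁻¹) ^ k : Fˣ) : F)
    simp only [Units.val_mul, GeneralLinearGroup.val_det_apply, Units.val_pow_eq_pow_val,
      Units.val_inv_eq_inv_val, map_mul, map_pow, map_inv₀]
    rw [hdet, hmu]
  refine ⟨g', hg'.symm, ?_, ?_⟩
  · apply units_int_eq_of_iff
    rw [S.muBar_eq_one_iff, S.muBar_eq_one_iff]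
    constructor
    · rintro ⟨l, hl⟩
      refine ⟨Units.map (x.1.right.symm : F ≃+* F).toRingHom.toMonoidHom l, Units.ext ?_⟩
      have h1 := congrArg Units.val hl
      rw [hmu, Units.val_mul] at h1
      have h2 := congrArg x.1.right.symm h1
      rw [RingEquiv.symm_apply_apply, map_mul] at h2
      rw [h2]
      rfl
    · rintro ⟨l, hl⟩
      refine ⟨Units.map (x.1.right : F ≃+* F).toRingHom.toMonoidHom l, Units.ext ?_⟩
      rw [hmu, hl, Units.val_mul, map_mul]
      rfl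
  · apply units_int_eq_of_iff
    rw [S.eps_eq_one_iff, S.eps_eq_one_iff]
    rcases S.eps'_cases g with h | h
    · rw [h] at heps ⊢
      simp only [Units.val_one, map_one] at heps
      exact ⟨fun _ => rfl, fun _ => Units.ext heps⟩
    · rw [h] at heps ⊢
      simp only [Units.val_neg, Units.val_one, map_neg, map_one] at heps
      have : eps' Q S.hv k g' = -1 := Units.ext (by rw [heps]; simp)
      rw [this]

/-- when `-1 ∉ Ω`, semi-isometries centralise the image of the similarity group in `Out` -/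
theorem outHom_comm (hneg : negIso Q ∉ Cfsg.Omega F ⇑Q) (x : ↥(GamO ⇑Q))
    (hx : IsSemiIso ⇑Q x.1) (g : ↥(GO ⇑Q)) :
    gOut ⇑Q g * outHom ⇑Q x = outHom ⇑Q x * gOut ⇑Q g := by
  obtain ⟨g', h1, h2, h3⟩ := exists_conj S x hx g
  have h4 : gOut ⇑Q (g' * g⁻¹) = 1 := by
    apply gOut_eq_one_of_inv S hneg
    · rw [map_mul, map_inv, h2, mul_inv_cancel]
    · rw [map_mul, map_inv, h3, mul_inv_cancel]
  rw [map_mul, map_inv, mul_inv_eq_one] at h4
  have h5 := congrArg (outHom ⇑Q) h1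
  rw [map_mul, map_mul, map_inv, ← gOut_apply, ← gOut_apply, h4, mul_inv_eq_iff_eq_mul] at h5
  exact h5.symm

end setup

end Cfsg.Agent.Lib.Helper49
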