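import Cfsg.Agent.Lib.Helper49.GamO12

set_option autoImplicit false
set_option linter.unusedSimpArgs false
set_option linter.unusedSectionVars false

/-! `q` odd, even dimension, `-1 ∉ Ω`, non-square discriminant: `Out(PΩ) ≅ 2 × 2f`. -/

namespace Cfsg.Agent.Lib.Helper49

open QuadraticMap Module Matrix
open scoped MatrixGroups
open Cfsg.Agent.Lib.Helper6.OA
open Cfsg.Agent.Lib.Helper18 Cfsg.Agent.Lib.Helper18.OmegaCenter

variable {ι : Type} [Fintype ι] [DecidableEq ι] {F : Type*} [Field F]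
variable [Fintype F] {Q : QuadraticForm F (ι → F)} {k : ℕ} {ν : Fˣ} {D : ↥(GO ⇑Q)}

theorem isSemiIso_inl (h : ↥(Cfsg.isometryGroup F ⇑Q)) :
    IsSemiIso ⇑Q (SemidirectProduct.inl h.1 : GamL ι F) := fun v => by
  rw [semiFun_inl]
  exact h.2 v v

theorem exists_semiIso_det (S : Setup Q k ν D) {p : ℕ} (hp : p % 2 = 1) (d : ℕ)
    (hd2 : Fintype.card ι = 2 * (d + 1)) (φ : F ≃+* F) (hφ : ∀ t, φ t = t ^ p) :
    ∃ x : GamL ι F, x.right = φ ∧ IsSemiIso ⇑Q x ∧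
      (x.left : Matrix ι ι F).det = (gramM Q).det ^ (p / 2) := by
  obtain ⟨g, hg⟩ := exists_semi_isometry Q S.nd d hd2 φ
  have h1 : IsSemiIso ⇑Q (⟨g, φ⟩ : GamL ι F) := hg
  have hΔ0 : (gramM Q).det ≠ 0 := gram_std_det_ne_zero Q S.nd
  have h2 := det_sq_mul Q (⟨g, φ⟩ : GamL ι F) 1 (fun v => by rw [one_mul]; exact h1 v)
  simp only [one_pow, one_mul] at h2
  rw [hφ] at h2
  obtain ⟨a, ha⟩ : ∃ a, p = 2 * a + 1 := ⟨p / 2, by omega⟩
  have e2 : p / 2 = a := by omega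
  rw [e2]
  have h3 : (g : Matrix ι ι F).det ^ 2 = ((gramM Q).det ^ a) ^ 2 := by
    apply mul_right_cancel₀ hΔ0
    rw [h2, ha]
    ring
  rcases sq_eq_sq_iff_eq_or_eq_neg.1 h3 with h4 | h4
  · exact ⟨⟨g, φ⟩, rfl, h1, h4⟩
  · obtain ⟨v, hv⟩ := S.hv
    refine ⟨(⟨g, φ⟩ : GamL ι F) * SemidirectProduct.inl (Cfsg.Agent.Lib.Helper18.refl Q v).1, ?_, h1.mul (isSemiIso_inl _), ?_⟩
    · simp
    · rw [det_mul_left]
      change (g : Matrix ι ι F).det * φ (mat (Cfsg.Agent.Lib.Helper18.refl Q v)).det = _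
      rw [mat_refl, det_reflectionMatrix Q hv, h4]
      simp

theorem out_caseB (S : Setup Q k ν D) (hneg : negIso Q ∉ Cfsg.Omega F ⇑Q) {p f : ℕ}
    [Fact p.Prime] (hp : p ≠ 2) (hf : 1 ≤ f) (hF : Fintype.card F = p ^ f)
    (htop : Cfsg.gammaPOmega F ⇑Q = ⊤) (hΔ : ¬ IsSquare (gramM Q).det)
    (hcard : Nat.card (Cfsg.Out (Cfsg.POmega F ⇑Q)) = 4 * f) (d : ℕ)
    (hd2 : Fintype.card ι = 2 * (d + 1)) :
    Nonempty (Cfsg.Out (Cfsg.POmega F ⇑Q) ≃* Multiplicative (ZMod 2 × ZMod (2 * f))) := by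
  have hp2 : p % 2 = 1 := Nat.odd_iff.1 ((Fact.out : p.Prime).odd_of_ne_two hp)
  obtain ⟨φ, hφ, hordφ, -, -⟩ := exists_frob hF
  obtain ⟨x, hxr, hxs, hxd⟩ := exists_semiIso_det S hp2 d hd2 φ hφ
  have hright : (x ^ f).right = 1 := by
    have := map_pow (SemidirectProduct.rightHom : GamL ι F →* _) x f
    rw [SemidirectProduct.rightHom_eq_right] at this
    rw [this, hxr, ← hordφ]
    exact pow_orderOf_eq_one φ
  have hiso : (x ^ f).left ∈ Cfsg.isometryGroup F ⇑Q := by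
    intro u _
    have h1 := hxs.pow f u
    rw [hright] at h1
    unfold semiFun at h1
    rw [hright] at h1
    exact h1
  have hpow : (⟨x, hxs.mem⟩ : ↥(GamO ⇑Q)) ^ f = goIncl ⇑Q (iO Q ⟨(x ^ f).left, hiso⟩) := by
    apply Subtype.ext
    ext1
    · rfl
    · exact hright
  have hdet : dh Q ⟨(x ^ f).left, hiso⟩ = -1 := by
    apply Units.ext
    rw [dh_coe]
    change ((x ^ f).left : Matrix ι ι F).det = _
    rw [det_pow_left x hp2 (fun t => by rw [hxr, hφ]) _ hxd f, ← hF]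
    have hΔ0 : (gramM Q).det ≠ 0 := gram_std_det_ne_zero Q S.nd
    have hch : ringChar F ≠ 2 := ringChar_ne_two S.h2
    rcases FiniteField.pow_dichotomy hch hΔ0 with h | h
    · exact absurd ((FiniteField.isSquare_iff hch hΔ0).2 h) hΔ
    · rw [h]; simp
  have hξf : outHom ⇑Q ⟨x, hxs.mem⟩ ^ f = gOut ⇑Q (iO Q ⟨(x ^ f).left, hiso⟩) := by
    rw [← map_pow, hpow]; rfl
  have hne : outHom ⇑Q ⟨x, hxs.mem⟩ ^ f ≠ 1 := by
    intro h
    rw [hξf] at h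
    have := (inv_of_gOut_eq_one S _ h).2
    rw [S.eps_iO_eq_one_iff, hdet] at this
    exact S.neg_one_ne_one this
  have h2f : outHom ⇑Q ⟨x, hxs.mem⟩ ^ (2 * f) = 1 := by
    rw [mul_comm, pow_mul, hξf, ← map_pow]
    apply gOut_eq_one_of_inv S hneg
    · rw [map_pow, S.muBar_iO, one_pow]
    · rw [map_pow, Int.units_sq]
  have hdvd : f ∣ orderOf (outHom ⇑Q ⟨x, hxs.mem⟩) := by
    have h1 := sigHom_eq_one_of_outHom Q S.nd S.hd
      (⟨x, hxs.mem⟩ ^ orderOf (outHom ⇑Q ⟨x, hxs.mem⟩))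
      (by rw [map_pow]; exact pow_orderOf_eq_one _)
    rw [map_pow] at h1
    have h3 : sigHom ⇑Q ⟨x, hxs.mem⟩ = φ := hxr
    rw [h3] at h1
    rw [← hordφ]
    exact orderOf_dvd_of_pow_eq_one h1
  have hord : orderOf (outHom ⇑Q ⟨x, hxs.mem⟩) = 2 * f := by
    have hdvd2 := orderOf_dvd_of_pow_eq_one h2f
    obtain ⟨c, hc⟩ := hdvd
    rw [hc, mul_comm 2 f] at hdvd2
    have hk2 : c ∣ 2 := Nat.dvd_of_mul_dvd_mul_left (by omega) hdvd2
    rcases (Nat.dvd_prime Nat.prime_two).1 hk2 with rfl | rfl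
    · exfalso
      apply hne
      rw [mul_one] at hc
      rw [← hc]
      exact pow_orderOf_eq_one _
    · rw [hc, mul_comm]
  have : Finite (Cfsg.Out (Cfsg.POmega F ⇑Q)) := Nat.finite_of_card_ne_zero (by omega)
  apply prod_of_two_gens f hf hcard (outHom ⇑Q ⟨x, hxs.mem⟩) (gOut ⇑Q D)
    (outHom_comm S hneg _ hxs D) _ hord
  · rintro ⟨j, hj⟩
    have hj' : outHom ⇑Q ⟨x, hxs.mem⟩ ^ j = gOut ⇑Q D := hj
    have h1 := congrArg (sigBar Q S.nd S.hd htop) hj'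
    rw [map_zpow, sigBar_outHom, gOut_apply, sigBar_outHom] at h1
    have h3 : sigHom ⇑Q ⟨x, hxs.mem⟩ = φ := hxr
    have h4 : sigHom ⇑Q (goIncl ⇑Q D) = 1 := rfl
    rw [h3, h4, ← orderOf_dvd_iff_zpow_eq_one, hordφ] at h1
    obtain ⟨l, rfl⟩ := h1
    rw [_root_.zpow_mul, zpow_natCast, hξf, ← map_zpow] at hj'
    have h5 : gOut ⇑Q (D * (iO Q ⟨(x ^ f).left, hiso⟩ ^ l)⁻¹) = 1 := by
      rw [map_mul, map_inv, hj', mul_inv_cancel]
    have h6 := (inv_of_gOut_eq_one S _ h5).1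
    rw [map_mul, map_inv, map_zpow, S.muBar_iO, _root_.one_zpow, inv_one, mul_one, S.muBar_D] at h6
    exact absurd h6 (by decide)
  · rw [← map_mul, S.Dsq]
    exact gOut_eq_one_of_inv S hneg _ (S.muBar_sc ν) (S.eps_sc ν)

end Cfsg.Agent.Lib.Helper49
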