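import Mathlib
import Cfsg.Agent.Lib.Helper59.TwoGroupRecog

set_option autoImplicit false

/-! Abstract group lemmas used for `Out(PΩ⁻)`, `q` odd. -/

namespace Cfsg.Agent.Lib.Helper49

open Cfsg.Agent.Lib.Helper59

open DihedralGroup in
theorem aut_dihedral_pow_eight (α : MulAut (DihedralGroup 4)) : α ^ 8 = 1 := by
  have h4 : orderOf (α (r 1)) = 4 := by rw [MulEquiv.orderOf_eq]; exact orderOf_r_one
  obtain ⟨i, hi, hi2⟩ : ∃ i : ZMod 4, α (r 1) = r i ∧ i * i = 1 := by
    cases h : α (r 1) with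
    | r i =>
      refine ⟨i, rfl, ?_⟩
      rw [h, orderOf_r] at h4
      clear h
      revert h4
      revert i
      decide
    | sr i => rw [h, orderOf_sr] at h4; omega
  have hr : ∀ k : ZMod 4, α (r k) = r (i * k) := by
    intro k
    obtain ⟨n, rfl⟩ := ZMod.natCast_zmod_surjective k
    rw [← r_one_pow, map_pow, hi, r_pow]
  obtain ⟨j, hj⟩ : ∃ j : ZMod 4, α (sr 0) = sr j := by
    cases h : α (sr 0) with
    | r j =>
      exfalso
      have h1 : α (r (i * j)) = r j := by rw [hr, ← mul_assoc, hi2, one_mul]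
      have h2 := α.injective (h.trans h1.symm)
      simp at h2
    | sr j => exact ⟨j, rfl⟩
  have hs : ∀ k : ZMod 4, α (sr k) = sr (j + i * k) := by
    intro k
    have : (sr k : DihedralGroup 4) = sr 0 * r k := by rw [sr_mul_r, zero_add]
    rw [this, map_mul, hj, hr, sr_mul_r]
  have hr2 : ∀ k : ZMod 4, (α ^ 2) (r k) = r k := by
    intro k
    rw [pow_two, MulAut.mul_apply, hr, hr, ← mul_assoc, hi2, one_mul]
  have hs2 : ∀ k : ZMod 4, (α ^ 2) (sr k) = sr (j + i * j + k) := by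
    intro k
    rw [pow_two, MulAut.mul_apply, hs, hs]
    congr 1
    linear_combination k * hi2
  have e8 : α ^ 8 = α ^ 2 * α ^ 2 * α ^ 2 * α ^ 2 := by group
  ext g
  rw [e8]
  simp only [MulAut.mul_apply, MulAut.one_apply]
  cases g with
  | r k => simp only [hr2]
  | sr k =>
    simp only [hs2]
    congr 1
    have h0 : (4 : ZMod 4) = 0 := by decide
    linear_combination (j + i * j) * h0

theorem aut_pow_eight_of_equiv {N : Type*} [Group N] (e : N ≃* DihedralGroup 4) (α : MulAut N) :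
    α ^ 8 = 1 := by
  apply (MulAut.congr e).injective
  rw [map_pow, map_one]
  exact aut_dihedral_pow_eight _

theorem prod_of_dihedral_ker {G H : Type*} [Group G] [Group H] [Finite G] (s : G →* H) (f : ℕ)
    (hf : Odd f) (hG : Nat.card G = 8 * f) (e : ↥s.ker ≃* DihedralGroup 4) (ξ : G)
    (hξ : orderOf (s ξ) = f) : Nonempty (G ≃* DihedralGroup 4 × Multiplicative (ZMod f)) := by
  have hN : Nat.card ↥s.ker = 8 := by
    rw [Nat.card_congr e.toEquiv, DihedralGroup.nat_card]
  have hcomm : ∀ n : ↥s.ker, ξ ^ 8 * n.1 = n.1 * ξ ^ 8 := by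
    intro n
    have h1 : MulAut.conjNormal (ξ ^ 8) n = n := by
      rw [map_pow, aut_pow_eight_of_equiv e]
      rfl
    have h2 := congrArg Subtype.val h1
    rw [MulAut.conjNormal_apply] at h2
    rw [mul_inv_eq_iff_eq_mul] at h2
    exact h2
  have hz : (ξ ^ 8) ^ f = 1 := by
    have hmem : ξ ^ f ∈ s.ker := by
      rw [MonoidHom.mem_ker, map_pow, ← hξ, pow_orderOf_eq_one]
    have h1 : (⟨ξ ^ f, hmem⟩ : ↥s.ker) ^ 8 = 1 := by
      rw [← hN]; exact pow_card_eq_one'
    have h2 := congrArg Subtype.val h1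
    rw [← pow_mul, mul_comm, pow_mul]
    exact h2
  let g1 : DihedralGroup 4 →* G := s.ker.subtype.comp e.symm.toMonoidHom
  let g2 : Multiplicative (ZMod f) →* G := AddMonoidHom.toMultiplicativeLeft (zmodPow (ξ ^ 8) f hz)
  have hg2 : ∀ k : ℤ, g2 (Multiplicative.ofAdd (k : ZMod f)) = (ξ ^ 8) ^ k := fun k =>
    zE_intCast (ξ ^ 8) f hz k
  let Ψ : DihedralGroup 4 × Multiplicative (ZMod f) →* G := g1.noncommCoprod g2 (by
    intro d j
    obtain ⟨k, hk⟩ := ZMod.intCast_surjective (Multiplicative.toAdd j)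
    have : j = Multiplicative.ofAdd (k : ZMod f) := by rw [hk]; rfl
    rw [this, hg2]
    exact (Commute.zpow_left (hcomm (e.symm d)) k).symm)
  have hinj : Function.Injective Ψ := by
    rw [injective_iff_map_eq_one]
    rintro ⟨d, j⟩ h
    obtain ⟨k, hk⟩ := ZMod.intCast_surjective (Multiplicative.toAdd j)
    have hj : j = Multiplicative.ofAdd (k : ZMod f) := by rw [hk]; rfl
    have h1 : g1 d * g2 j = 1 := h
    rw [hj, hg2] at h1
    have h2 := congrArg s h1
    have h3 : s (g1 d) = 1 := (e.symm d).2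
    rw [map_mul, h3, one_mul, map_one, map_zpow, map_pow, ← zpow_natCast, ← zpow_mul,
      ← orderOf_dvd_iff_zpow_eq_one, hξ] at h2
    have hcop : IsCoprime (f : ℤ) ((8 : ℕ) : ℤ) := by
      rw [Nat.isCoprime_iff_coprime]
      have : Nat.Coprime f (2 ^ 3) := Nat.Coprime.pow_right 3 (Nat.coprime_two_right.2 hf)
      simpa using this
    have h4 : (f : ℤ) ∣ k := hcop.dvd_of_dvd_mul_left h2
    have h5 : (k : ZMod f) = 0 := (ZMod.intCast_zmod_eq_zero_iff_dvd k f).2 h4
    have hj1 : j = 1 := by rw [hj, h5]; rfl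
    obtain ⟨l, rfl⟩ := h4
    rw [zpow_mul, zpow_natCast, hz, one_zpow, mul_one] at h1
    have h6 : e.symm d = 1 := Subtype.ext h1
    have h7 : d = 1 := by
      have := congrArg e h6
      simpa using this
    rw [h7, hj1]
    rfl
  have : NeZero f := ⟨by rintro rfl; simp at hf⟩
  have hbij : Function.Bijective Ψ := by
    apply hinj.bijective_of_nat_card_le
    rw [hG, Nat.card_prod, DihedralGroup.nat_card]
    simp
  exact ⟨(MulEquiv.ofBijective Ψ hbij).symm⟩

theorem prod_of_two_gens {G : Type*} [Group G] [Finite G] (f : ℕ) (hf : 1 ≤ f)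
    (hG : Nat.card G = 4 * f) (ξ τ : G) (hc : τ * ξ = ξ * τ) (hτ : τ * τ = 1)
    (hξ : orderOf ξ = 2 * f) (hn : τ ∉ Subgroup.zpowers ξ) :
    Nonempty (G ≃* Multiplicative (ZMod 2 × ZMod (2 * f))) := by
  have h1 : τ ^ 2 = 1 := by rw [pow_two, hτ]
  have h2 : ξ ^ (2 * f) = 1 := by rw [← hξ, pow_orderOf_eq_one]
  let g1 : Multiplicative (ZMod 2) →* G := AddMonoidHom.toMultiplicativeLeft (zmodPow τ 2 h1)
  let g2 : Multiplicative (ZMod (2 * f)) →* G :=
    AddMonoidHom.toMultiplicativeLeft (zmodPow ξ (2 * f) h2)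
  have hg1 : ∀ k : ℤ, g1 (Multiplicative.ofAdd (k : ZMod 2)) = τ ^ k := fun k =>
    zE_intCast τ 2 h1 k
  have hg2 : ∀ k : ℤ, g2 (Multiplicative.ofAdd (k : ZMod (2 * f))) = ξ ^ k := fun k =>
    zE_intCast ξ (2 * f) h2 k
  let Ψ : Multiplicative (ZMod 2) × Multiplicative (ZMod (2 * f)) →* G := g1.noncommCoprod g2 (by
    intro i j
    obtain ⟨k, hk⟩ := ZMod.intCast_surjective (Multiplicative.toAdd i)
    obtain ⟨l, hl⟩ := ZMod.intCast_surjective (Multiplicative.toAdd j)
    have e1 : i = Multiplicative.ofAdd (k : ZMod 2) := by rw [hk]; rfl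
    have e2 : j = Multiplicative.ofAdd (l : ZMod (2 * f)) := by rw [hl]; rfl
    rw [e1, e2, hg1, hg2]
    exact Commute.zpow_zpow hc k l)
  have hinj : Function.Injective Ψ := by
    rw [injective_iff_map_eq_one]
    rintro ⟨i, j⟩ h
    have h3 : g1 i * g2 j = 1 := h
    have hmem : g2 j ∈ Subgroup.zpowers ξ := zE_mem_zpowers ξ (2 * f) h2 _
    have hi : i = 1 := by
      obtain ⟨k, hk⟩ := ZMod.intCast_surjective (Multiplicative.toAdd i)
      have e1 : i = Multiplicative.ofAdd (k : ZMod 2) := by rw [hk]; rfl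
      rcases Int.even_or_odd' k with ⟨c, rfl | rfl⟩
      · rw [e1]
        have : (((2 * c : ℤ)) : ZMod 2) = 0 := by
          rw [ZMod.intCast_zmod_eq_zero_iff_dvd]; exact ⟨c, by simp⟩
        rw [this]; rfl
      · exfalso
        apply hn
        rw [e1, hg1, zpow_add, zpow_mul, zpow_ofNat, h1, one_zpow, one_mul, zpow_one] at h3
        rw [eq_inv_of_mul_eq_one_left h3]
        exact inv_mem hmem
    rw [hi, map_one, one_mul] at h3
    have hj : Multiplicative.toAdd j = 0 := (zE_eq_one_iff ξ (2 * f) hξ h2 _).1 h3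
    rw [hi]
    have : j = 1 := hj
    rw [this]
    rfl
  have : NeZero (2 * f) := ⟨by omega⟩
  have hbij : Function.Bijective Ψ := by
    apply hinj.bijective_of_nat_card_le
    rw [hG, Nat.card_prod]
    simp
    omega
  exact ⟨((MulEquiv.prodMultiplicative (ZMod 2) (ZMod (2 * f))).trans
    (MulEquiv.ofBijective Ψ hbij)).symm⟩

end Cfsg.Agent.Lib.Helper49
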