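import Mathlib
import Cfsg.Agent.Lib.Helper49.GamO9

set_option autoImplicit false

/-! More abstract group lemmas: splitting off a central cyclic complement. -/

namespace Cfsg.Agent.Lib.Helper49

open Cfsg.Agent.Lib.Helper59

/-- a central cyclic complement to the kernel of a homomorphism -/
theorem prod_of_central_complement {G H K : Type*} [Group G] [Group H] [Group K] [Finite G]
    (s : G →* H) (f : ℕ) (hf : 1 ≤ f) (e : ↥s.ker ≃* K) (hG : Nat.card G = Nat.card K * f) (ξ : G)
    (hξ : orderOf (s ξ) = f) (hz : ξ ^ f = 1) (hcomm : ∀ n : ↥s.ker, ξ * n.1 = n.1 * ξ) :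
    Nonempty (G ≃* K × Multiplicative (ZMod f)) := by
  let g1 : K →* G := s.ker.subtype.comp e.symm.toMonoidHom
  let g2 : Multiplicative (ZMod f) →* G := AddMonoidHom.toMultiplicativeLeft (zmodPow ξ f hz)
  have hg2 : ∀ k : ℤ, g2 (Multiplicative.ofAdd (k : ZMod f)) = ξ ^ k := fun k =>
    zE_intCast ξ f hz k
  let Ψ : K × Multiplicative (ZMod f) →* G := g1.noncommCoprod g2 (by
    intro d j
    obtain ⟨k, hk⟩ := ZMod.intCast_surjective (Multiplicative.toAdd j)
    have : j = Multiplicative.ofAdd (k : ZMod f) := by rw [hk]; rfl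
    rw [this, hg2]
    exact (Commute.zpow_left (hcomm (e.symm d)) k).symm)
  have hinj : Function.Injective Ψ := by
    rw [injective_iff_map_eq_one]
    rintro ⟨d, j⟩ h
    obtain ⟨k, hk⟩ := ZMod.intCast_surjective (Multiplicative.toAdd j)
    have hj : j = Multiplicative.ofAdd (k : ZMod f) := by rw [hk]; rfl
    have h1 : g1 d * g2 j = 1 := h
    rw [hj, hg2] at h1
    have h2 := congrArg s h1
    have h3 : s (g1 d) = 1 := (e.symm d).2
    rw [map_mul, h3, one_mul, map_one, map_zpow, ← orderOf_dvd_iff_zpow_eq_one, hξ] at h2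
    have h5 : (k : ZMod f) = 0 := (ZMod.intCast_zmod_eq_zero_iff_dvd k f).2 h2
    have hj1 : j = 1 := by rw [hj, h5]; rfl
    obtain ⟨l, rfl⟩ := h2
    rw [zpow_mul, zpow_natCast, hz, one_zpow, mul_one] at h1
    have h6 : e.symm d = 1 := Subtype.ext h1
    have h7 : d = 1 := by
      have := congrArg e h6
      simpa using this
    rw [h7, hj1]
    rfl
  have : NeZero f := ⟨by omega⟩
  have hbij : Function.Bijective Ψ := by
    apply hinj.bijective_of_nat_card_le
    rw [hG, Nat.card_prod]
    simp
  exact ⟨(MulEquiv.ofBijective Ψ hbij).symm⟩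

/-- a normal subgroup of order two is central -/
theorem comm_of_card_two {G : Type*} [Group G] (N : Subgroup G) [N.Normal] (hN : Nat.card ↥N = 2)
    (ξ : G) (n : ↥N) : ξ * n.1 = n.1 * ξ := by
  have : Finite ↥N := Nat.finite_of_card_ne_zero (by omega)
  by_cases h1 : n = 1
  · rw [h1]; simp
  · have hmem : ξ * n.1 * ξ⁻¹ ∈ N := ‹N.Normal›.conj_mem n.1 n.2 ξ
    have hne : (⟨ξ * n.1 * ξ⁻¹, hmem⟩ : ↥N) ≠ 1 := by
      intro h
      apply h1
      have h2 := congrArg Subtype.val h
      simp only [Subgroup.coe_one] at h2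
      apply Subtype.ext
      rw [mul_inv_eq_one] at h2
      simpa using h2
    have key : ∀ a b : ↥N, a ≠ 1 → b ≠ 1 → a = b := by
      classical
      intro a b ha hb
      by_contra hab
      have h3 : ({1, a, b} : Finset ↥N).card = 3 := by
        rw [Finset.card_insert_of_notMem, Finset.card_insert_of_notMem, Finset.card_singleton]
        · simpa using hab
        · simp only [Finset.mem_insert, Finset.mem_singleton, not_or]
          exact ⟨ha.symm, hb.symm⟩
      have := Fintype.ofFinite ↥N
      have h4 := Finset.card_le_univ ({1, a, b} : Finset ↥N)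
      rw [h3, ← Nat.card_eq_fintype_card, hN] at h4
      omega
    have h5 := congrArg Subtype.val (key _ _ hne h1)
    simp only at h5
    rw [mul_inv_eq_iff_eq_mul] at h5
    exact h5

open DihedralGroup in
/-- an automorphism of `D₈` fixing a non-square involution is trivial or conjugation by it -/
theorem aut_dihedral_fix (α : MulAut (DihedralGroup 4)) (b : DihedralGroup 4) (hb2 : b * b = 1)
    (hbs : ∀ n : DihedralGroup 4, n * n ≠ b) (hfix : α b = b) : α = 1 ∨ α = MulAut.conj b := by
  have h4 : orderOf (α (r 1)) = 4 := by rw [MulEquiv.orderOf_eq]; exact orderOf_r_one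
  obtain ⟨i, hi, hi2⟩ : ∃ i : ZMod 4, α (r 1) = r i ∧ (i = 1 ∨ i = -1) := by
    cases h : α (r 1) with
    | r i =>
      refine ⟨i, rfl, ?_⟩
      rw [h, orderOf_r] at h4
      clear h
      revert h4
      revert i
      decide
    | sr i => rw [h, orderOf_sr] at h4; omega
  have hr : ∀ k : ZMod 4, α (r k) = r (i * k) := by
    intro k
    obtain ⟨n, rfl⟩ := ZMod.natCast_zmod_surjective k
    rw [← r_one_pow, map_pow, hi, r_pow]
  obtain ⟨j, rfl⟩ : ∃ j : ZMod 4, b = sr j := by
    cases b with
    | r k =>
      exfalso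
      rw [r_mul_r] at hb2
      have h0 : k + k = 0 := by
        have := hb2
        rw [one_def] at this
        injection this
      have hk : ∀ k : ZMod 4, k + k = 0 → k = 0 ∨ k = 2 := by decide
      rcases hk k h0 with rfl | rfl
      · exact hbs 1 (by rw [one_mul]; rfl)
      · exact hbs (r 1) (by rw [r_mul_r]; rfl)
    | sr j => exact ⟨j, rfl⟩
  have hs : ∀ k : ZMod 4, α (sr k) = sr (j + i * (k - j)) := by
    intro k
    have : (sr k : DihedralGroup 4) = sr j * r (k - j) := by rw [sr_mul_r]; congr 1; ring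
    rw [this, map_mul, hfix, hr, sr_mul_r]
  rcases hi2 with rfl | rfl
  · left
    ext g
    cases g with
    | r k => rw [hr, one_mul]; rfl
    | sr k => rw [hs, one_mul]; simp
  · right
    ext g
    rw [MulAut.conj_apply, inv_sr]
    cases g with
    | r k =>
      rw [hr, sr_mul_r, sr_mul_sr]
      congr 1
      ring
    | sr k =>
      rw [hs, sr_mul_sr, r_mul_sr]
      congr 1
      ring

/-- splitting `D₈ × C_f` when the complement fixes a non-square involution -/
theorem prod_of_dihedral_fix {G H : Type*} [Group G] [Group H] [Finite G] (s : G →* H) (f : ℕ)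
    (hf : 1 ≤ f) (hG : Nat.card G = 8 * f) (e : ↥s.ker ≃* DihedralGroup 4) (ξ : G)
    (hξ : orderOf (s ξ) = f) (hz : ξ ^ f = 1) (B : ↥s.ker) (hB2 : B * B = 1)
    (hBs : ∀ n : ↥s.ker, n * n ≠ B) (hBc : ξ * B.1 = B.1 * ξ) :
    Nonempty (G ≃* DihedralGroup 4 × Multiplicative (ZMod f)) := by
  have hG' : Nat.card G = Nat.card (DihedralGroup 4) * f := by rw [hG, DihedralGroup.nat_card]
  have hfixB : MulAut.conjNormal ξ B = B := by
    apply Subtype.ext
    rw [MulAut.conjNormal_apply, hBc]
    group
  have key := aut_dihedral_fix (MulAut.congr e (MulAut.conjNormal ξ)) (e B)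
    (by rw [← map_mul, hB2, map_one])
    (by
      intro n hn
      apply hBs (e.symm n)
      apply e.injective
      rw [map_mul, MulEquiv.apply_symm_apply, hn])
    (by
      change e (MulAut.conjNormal ξ (e.symm (e B))) = e B
      rw [MulEquiv.symm_apply_apply, hfixB])
  have hcase : (MulAut.conjNormal ξ : MulAut ↥s.ker) = 1 ∨
      (MulAut.conjNormal ξ : MulAut ↥s.ker) = MulAut.conj B := by
    rcases key with h | h
    · left
      apply (MulAut.congr e).injective
      rw [h, map_one]
    · right
      apply (MulAut.congr e).injective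
      rw [h]
      ext g
      change e B * g * (e B)⁻¹ = e (B * e.symm g * B⁻¹)
      simp
  have hone : (MulAut.conjNormal ξ : MulAut ↥s.ker) = 1 →
      Nonempty (G ≃* DihedralGroup 4 × Multiplicative (ZMod f)) := by
    intro h1
    apply prod_of_central_complement s f hf e hG' ξ hξ hz
    intro n
    have h2 := congrArg (fun a : MulAut ↥s.ker => ((a n : ↥s.ker) : G)) h1
    simp only [MulAut.conjNormal_apply, MulAut.one_apply] at h2
    rw [mul_inv_eq_iff_eq_mul] at h2
    exact h2
  rcases hcase with h1 | h1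
  · exact hone h1
  · rcases Nat.even_or_odd' f with ⟨c, rfl | rfl⟩
    · -- `f` even: correct the generator by `B`
      apply prod_of_central_complement s (2 * c) hf e hG' (ξ * B.1)
      · have : s B.1 = 1 := B.2
        rw [map_mul, this, mul_one, hξ]
      · have hc : Commute ξ B.1 := hBc
        rw [hc.mul_pow, hz, one_mul, pow_mul, pow_two]
        have : B.1 * B.1 = 1 := congrArg Subtype.val hB2
        rw [this, one_pow]
      · intro n
        have h2 := congrArg (fun a : MulAut ↥s.ker => ((a (B * n * B⁻¹) : ↥s.ker) : G)) h1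
        simp only [MulAut.conjNormal_apply, MulAut.conj_apply, Subgroup.coe_mul,
          Subgroup.coe_inv] at h2
        have hBB : B.1 * B.1 = 1 := congrArg Subtype.val hB2
        have hBi : B.1⁻¹ = B.1 := inv_eq_of_mul_eq_one_left hBB
        rw [hBi] at h2
        have h3 : B.1 * (B.1 * n.1 * B.1) * B.1 = n.1 := by
          calc B.1 * (B.1 * n.1 * B.1) * B.1 = (B.1 * B.1) * n.1 * (B.1 * B.1) := by group
            _ = n.1 := by rw [hBB]; simp
        rw [h3, mul_inv_eq_iff_eq_mul] at h2
        calc ξ * B.1 * n.1 = ξ * (B.1 * n.1 * B.1) * B.1 := by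
              have : ξ * (B.1 * n.1 * B.1) * B.1 = ξ * B.1 * n.1 * (B.1 * B.1) := by group
              rw [this, hBB, mul_one]
          _ = n.1 * ξ * B.1 := by rw [h2]
          _ = n.1 * (ξ * B.1) := by rw [mul_assoc]
    · -- `f` odd: the action is trivial
      apply hone
      have h2 : (MulAut.conjNormal ξ : MulAut ↥s.ker) ^ 2 = 1 := by
        rw [h1, ← map_pow, pow_two, hB2, map_one]
      have h3 : (MulAut.conjNormal ξ : MulAut ↥s.ker) ^ (2 * c + 1) = 1 := by
        rw [← map_pow, hz, map_one]
      rw [pow_succ, pow_mul, h2, one_pow, one_mul] at h3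
      exact h3

end Cfsg.Agent.Lib.Helper49
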