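import Mathlib

set_option autoImplicit false

/-! A finite field has an element of nonzero absolute trace. -/

namespace Cfsg.Agent.Lib.Helper49

variable {F : Type*} [Field F] [Fintype F]

theorem exists_sum_pow_ne_zero {p f : ℕ} [Fact p.Prime] (hF : Fintype.card F = p ^ f) :
    ∃ l : F, ∑ j ∈ Finset.range f, l ^ (p ^ j) ≠ 0 := by
  have : CharP F p := charP_of_card_eq_prime_pow hF
  let _ : Algebra (ZMod p) F := ZMod.algebra F p
  have hfin : Module.finrank (ZMod p) F = f := by
    have h1 := Module.card_eq_pow_finrank (K := ZMod p) (V := F)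
    rw [ZMod.card, hF] at h1
    exact (Nat.pow_right_injective (Fact.out : p.Prime).two_le h1).symm
  obtain ⟨l, hl⟩ := Algebra.trace_surjective (ZMod p) F 1
  refine ⟨l, ?_⟩
  have h := FiniteField.algebraMap_trace_eq_sum_pow (ZMod p) F l
  rw [hl, hfin, map_one, Nat.card_zmod] at h
  rw [← h]
  exact one_ne_zero

end Cfsg.Agent.Lib.Helper49
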