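import Cfsg.Agent.Lib.Helper49.GamO6
import Cfsg.Agent.Lib.Helper49.GamO7
import Cfsg.Agent.Lib.Helper18.OmegaFrames
import Cfsg.Agent.Lib.Helper18.OrthOmega
import Cfsg.Agent.Lib.Helper49.HypPairs
import Cfsg.Agent.Lib.Helper49.OmegaCrit
import Cfsg.Agent.Lib.Helper49.RankParity
import Cfsg.Agent.S0790
import Cfsg.Agent.S0791

set_option autoImplicit false

/-! The order of `Aut(PΩ⁻)` given `Aut = PΓO`. -/

namespace Cfsg.Agent.Lib.Helper49

open Cfsg.Agent.Lib.Helper18 Cfsg.Agent.Lib.Helper18.OmegaCenter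

theorem pow_mod_four_eq_three_iff {q : ℕ} (hq : q % 2 = 1) (m : ℕ) :
    q ^ m % 4 = 3 ↔ ¬ Even (m * (q - 1) / 2) := by
  obtain ⟨k, rfl⟩ : ∃ k, q = 2 * k + 1 := ⟨q / 2, by omega⟩
  have e1 : m * (2 * k + 1 - 1) / 2 = m * k := by
    rw [Nat.add_sub_cancel, mul_left_comm, Nat.mul_div_cancel_left _ (by norm_num)]
  rw [e1, Nat.even_mul, Nat.pow_mod]
  rcases Nat.even_or_odd' k with ⟨j, rfl | rfl⟩
  · have : (2 * (2 * j) + 1) % 4 = 1 := by omega
    rw [this, one_pow]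
    simp
  · have : (2 * (2 * j + 1) + 1) % 4 = 3 := by omega
    rw [this]
    rcases Nat.even_or_odd' m with ⟨i, rfl | rfl⟩
    · have : 3 ^ (2 * i) % 4 = 1 := by
        rw [pow_mul, Nat.pow_mod]; norm_num
      rw [this]
      simp
    · have : 3 ^ (2 * i + 1) % 4 = 3 := by
        rw [pow_succ, pow_mul, Nat.mul_mod, Nat.pow_mod]; norm_num
      rw [this]
      simp [Nat.even_add_one, parity_simps]

variable {F : Type*} [Field F] [Fintype F]

/-- `|O⁻_{2m}(q)|` in terms of `|PΩ⁻|` -/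
theorem card_isometryGroup_minus (p f : ℕ) [Fact p.Prime] (hF : Fintype.card F = p ^ f) (m : ℕ)
    (hm : 4 ≤ m) (a b : F)
    (hab : ∀ z₁ z₂ : F, z₁ ^ 2 + a * z₁ * z₂ + b * z₂ ^ 2 = 0 → z₁ = 0 ∧ z₂ = 0) :
    Nat.card ↥(Cfsg.isometryGroup F (Cfsg.quadFormMinus (m - 1) F a b)) =
      (if p = 2 then 2 else (if Even (m * (p ^ f - 1) / 2) then 4 else 8)) *
        Nat.card (Cfsg.POmega F (Cfsg.quadFormMinus (m - 1) F a b)) := by
  have hneg := fun hodd => Cfsg.Agent.S0791.result hF hodd m (by omega) a b hab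
  rw [← minusQF_coe (m - 1) F a b] at hneg ⊢
  have hQ := minusQF_nondegenerate (m - 1) F a b (minus_disc_ne_zero a b hab)
  have hfr : Frame3 (minusQF (m - 1) F a b) _ _ := frame_minus (m - 1) (by omega) a b
  have h := card_isometryGroup_eq (minusQF (m - 1) F a b)
  have : Nonempty ((Fin (m - 1) ⊕ Fin (m - 1)) ⊕ Fin 2) := ⟨Sum.inr 0⟩
  have hchar : CharP F p := charP_of_card_eq_prime_pow hF
  by_cases hp : p = 2
  · subst hp
    have h2 : (2 : F) = 0 := by
      have := CharP.cast_eq_zero F 2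
      exact_mod_cast this
    have hidx : (Cfsg.Omega F ⇑(minusQF (m - 1) F a b)).index = 2 :=
      index_Omega_char_two (minusQF (m - 1) F a b) h2 hQ (Or.inr (by simp; omega))
    have hZ := card_center_eq_one (minusQF (m - 1) F a b) hQ hfr (Or.inl h2)
    rw [hZ, hidx] at h
    rw [h, if_pos rfl]
    ring
  · have hpodd : Odd p := (Fact.out : p.Prime).odd_of_ne_two hp
    have hodd : Odd (p ^ f) := hpodd.pow
    have h2 : (2 : F) ≠ 0 := Cfsg.Agent.S0790.two_ne_zero_of_odd_card (hF ▸ hodd)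
    have hidx : (Cfsg.Omega F ⇑(minusQF (m - 1) F a b)).index = 4 :=
      index_commutator (minusQF (m - 1) F a b) h2 hQ (by simp)
    rw [if_neg hp]
    have hiff := pow_mod_four_eq_three_iff (Nat.odd_iff.1 hodd) m
    by_cases h4 : (p ^ f) ^ m % 4 = 3
    · have hZ := card_center_eq_two (minusQF (m - 1) F a b) hQ hfr h2 ((hneg hodd).2 h4)
      rw [hZ, hidx] at h
      rw [h, if_neg (hiff.1 h4)]
      ring
    · have hZ := card_center_eq_one (minusQF (m - 1) F a b) hQ hfr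
        (Or.inr (fun hh => h4 ((hneg hodd).1 hh)))
      rw [hZ, hidx] at h
      have : Even (m * (p ^ f - 1) / 2) := by
        by_contra hne
        exact h4 (hiff.2 hne)
      rw [h, if_pos this]
      ring

theorem card_mulAut_minus (p f : ℕ) [Fact p.Prime] (hF : Fintype.card F = p ^ f) (m : ℕ)
    (hm : 4 ≤ m) (a b : F)
    (hab : ∀ z₁ z₂ : F, z₁ ^ 2 + a * z₁ * z₂ + b * z₂ ^ 2 = 0 → z₁ = 0 ∧ z₂ = 0)
    (htop : Cfsg.gammaPOmega F (Cfsg.quadFormMinus (m - 1) F a b) = ⊤) :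
    Nat.card (MulAut (Cfsg.POmega F (Cfsg.quadFormMinus (m - 1) F a b))) =
      (if p = 2 then 2 else (if Even (m * (p ^ f - 1) / 2) then 4 else 8)) * f *
        Nat.card (Cfsg.POmega F (Cfsg.quadFormMinus (m - 1) F a b)) := by
  have h1 := card_isometryGroup_minus p f hF m hm a b hab
  obtain ⟨-, -, -, -, hf⟩ := exists_frob hF
  have hQ := minusQF_nondegenerate (m - 1) F a b (minus_disc_ne_zero a b hab)
  rw [← minusQF_coe (m - 1) F a b] at h1 htop ⊢
  rw [card_mulAut_of_gamma_top (minusQF (m - 1) F a b) hQ (m - 1) (by simp; omega)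
    (by simp; omega) htop, hf, h1]
  ring

end Cfsg.Agent.Lib.Helper49
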