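import Cfsg.Agent.Lib.Helper49.GamO8
import Cfsg.Agent.Lib.Helper49.GamOMinus
import Cfsg.Agent.Lib.Helper49.GamOC2a

set_option autoImplicit false
set_option linter.unusedSimpArgs false
set_option linter.unusedSectionVars false

/-! Characteristic two, minus type: the outer automorphism group is cyclic. -/

namespace Cfsg.Agent.Lib.Helper49

open QuadraticMap Module Matrix
open scoped MatrixGroups

variable {F : Type*} [Field F] (n : ℕ) (a b : F)

/-- the matrix of squaring in `F[t]/(t²+at+b)` (on the last two coordinates) -/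
def sqMat : Matrix ((Fin n ⊕ Fin n) ⊕ Fin 2) ((Fin n ⊕ Fin n) ⊕ Fin 2) F :=
  fromBlocks 1 0 0 !![1, b; 0, a]

/-- its inverse -/
def sqMatInv : Matrix ((Fin n ⊕ Fin n) ⊕ Fin 2) ((Fin n ⊕ Fin n) ⊕ Fin 2) F :=
  fromBlocks 1 0 0 !![1, -b / a; 0, 1 / a]

/-- as an element of `GL` -/
def sqGL (ha : a ≠ 0) : GL ((Fin n ⊕ Fin n) ⊕ Fin 2) F where
  val := sqMat n a b
  inv := sqMatInv n a b
  val_inv := by
    unfold sqMat sqMatInv
    rw [fromBlocks_multiply]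
    have : !![1, b; 0, a] * !![1, -b / a; 0, 1 / a] = (1 : Matrix (Fin 2) (Fin 2) F) := by
      ext i j
      fin_cases i <;> fin_cases j <;> simp [Matrix.mul_apply, Fin.sum_univ_two] <;> field_simp <;> ring
    rw [this]
    simp
  inv_val := by
    unfold sqMat sqMatInv
    rw [fromBlocks_multiply]
    have : !![1, -b / a; 0, 1 / a] * !![1, b; 0, a] = (1 : Matrix (Fin 2) (Fin 2) F) := by
      ext i j
      fin_cases i <;> fin_cases j <;> simp [Matrix.mul_apply, Fin.sum_univ_two] <;> field_simp <;> ring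
    rw [this]
    simp

theorem sqMat_mulVec_inl (v : (Fin n ⊕ Fin n) ⊕ Fin 2 → F) (i : Fin n ⊕ Fin n) :
    (sqMat n a b *ᵥ v) (Sum.inl i) = v (Sum.inl i) := by
  unfold sqMat
  conv_lhs => rw [← Sum.elim_comp_inl_inr v, fromBlocks_mulVec]
  simp

theorem sqMat_mulVec_inr0 (v : (Fin n ⊕ Fin n) ⊕ Fin 2 → F) :
    (sqMat n a b *ᵥ v) (Sum.inr 0) = v (Sum.inr 0) + b * v (Sum.inr 1) := by
  unfold sqMat
  conv_lhs => rw [← Sum.elim_comp_inl_inr v, fromBlocks_mulVec]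
  simp [Matrix.mulVec, dotProduct, Fin.sum_univ_two]

theorem sqMat_mulVec_inr1 (v : (Fin n ⊕ Fin n) ⊕ Fin 2 → F) :
    (sqMat n a b *ᵥ v) (Sum.inr 1) = a * v (Sum.inr 1) := by
  unfold sqMat
  conv_lhs => rw [← Sum.elim_comp_inl_inr v, fromBlocks_mulVec]
  simp [Matrix.mulVec, dotProduct, Fin.sum_univ_two]

variable {n a}

/-- the semilinear squaring map -/
def sqGam (ha : a ≠ 0) (φ : F ≃+* F) : GamL ((Fin n ⊕ Fin n) ⊕ Fin 2) F := ⟨sqGL n a b ha, φ⟩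

section

variable (ha : a ≠ 0) (φ : F ≃+* F) (hφ : ∀ x, φ x = x ^ 2)
include hφ

theorem semiFun_sqGam_inl (v : (Fin n ⊕ Fin n) ⊕ Fin 2 → F) (i : Fin n ⊕ Fin n) :
    semiFun (sqGam b ha φ) v (Sum.inl i) = v (Sum.inl i) ^ 2 := by
  unfold semiFun
  change (sqMat n a b *ᵥ _) _ = _
  rw [sqMat_mulVec_inl]
  exact hφ _

theorem semiFun_sqGam_inr0 (v : (Fin n ⊕ Fin n) ⊕ Fin 2 → F) :
    semiFun (sqGam b ha φ) v (Sum.inr 0) = v (Sum.inr 0) ^ 2 + b * v (Sum.inr 1) ^ 2 := by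
  unfold semiFun
  change (sqMat n a b *ᵥ _) _ = _
  rw [sqMat_mulVec_inr0]
  change φ _ + b * φ _ = _
  rw [hφ, hφ]

theorem semiFun_sqGam_inr1 (v : (Fin n ⊕ Fin n) ⊕ Fin 2 → F) :
    semiFun (sqGam b ha φ) v (Sum.inr 1) = a * v (Sum.inr 1) ^ 2 := by
  unfold semiFun
  change (sqMat n a b *ᵥ _) _ = _
  rw [sqMat_mulVec_inr1]
  change a * φ _ = _
  rw [hφ]

theorem Q_sqGam [CharP F 2] (v : (Fin n ⊕ Fin n) ⊕ Fin 2 → F) :
    Cfsg.quadFormMinus n F a b (semiFun (sqGam b ha φ) v) = Cfsg.quadFormMinus n F a b v ^ 2 := by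
  unfold Cfsg.quadFormMinus
  simp only [semiFun_sqGam_inl b ha φ hφ, semiFun_sqGam_inr0 b ha φ hφ, semiFun_sqGam_inr1 b ha φ hφ]
  have h2 : (2 : F) = 0 := CharTwo.two_eq_zero
  rw [CharTwo.add_sq (∑ i, _), CharTwo.sum_sq]
  congr 1
  · apply Finset.sum_congr rfl
    intro i _
    ring
  · linear_combination (a ^ 2 * b * v (Sum.inr 1) ^ 4 + b * v (Sum.inr 0) ^ 2 * v (Sum.inr 1) ^ 2
      - v (Sum.inr 0) ^ 2 * (a * v (Sum.inr 0) * v (Sum.inr 1))
      - v (Sum.inr 0) ^ 2 * (b * v (Sum.inr 1) ^ 2)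
      - (a * v (Sum.inr 0) * v (Sum.inr 1)) * (b * v (Sum.inr 1) ^ 2)) * h2

theorem sqGam_mem [CharP F 2] : sqGam b ha φ ∈ GamO (Cfsg.quadFormMinus n F a b) := by
  rw [mem_GamO]
  refine ⟨1, fun v => ?_⟩
  rw [Q_sqGam b ha φ hφ, Units.val_one, one_mul]
  exact (hφ _).symm

theorem semiFun_pow_inl (j : ℕ) (v : (Fin n ⊕ Fin n) ⊕ Fin 2 → F) (i : Fin n ⊕ Fin n) :
    semiFun (sqGam b ha φ ^ j) v (Sum.inl i) = v (Sum.inl i) ^ 2 ^ j := by
  induction j with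
  | zero => simp [semiFun_one]
  | succ j ih => rw [pow_succ', semiFun_mul, semiFun_sqGam_inl b ha φ hφ, ih, ← pow_mul, pow_succ]

theorem semiFun_pow_inr1 (j : ℕ) (v : (Fin n ⊕ Fin n) ⊕ Fin 2 → F) :
    a * semiFun (sqGam b ha φ ^ j) v (Sum.inr 1) = (a * v (Sum.inr 1)) ^ 2 ^ j := by
  induction j with
  | zero => simp [semiFun_one]
  | succ j ih =>
    rw [pow_succ', semiFun_mul, semiFun_sqGam_inr1 b ha φ hφ, pow_succ 2 j, pow_mul, ← ih]
    ring

theorem semiFun_pow_inr0 (j : ℕ) (v : (Fin n ⊕ Fin n) ⊕ Fin 2 → F) (hv : v (Sum.inr 1) = 0) :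
    semiFun (sqGam b ha φ ^ j) v (Sum.inr 0) = v (Sum.inr 0) ^ 2 ^ j := by
  induction j with
  | zero => simp [semiFun_one]
  | succ j ih =>
    have h1 := semiFun_pow_inr1 b ha φ hφ j v
    rw [hv, mul_zero, zero_pow (by positivity)] at h1
    have h2 : semiFun (sqGam b ha φ ^ j) v (Sum.inr 1) = 0 := (mul_eq_zero.1 h1).resolve_left ha
    rw [pow_succ', semiFun_mul, semiFun_sqGam_inr0 b ha φ hφ, ih, h2, ← pow_mul, pow_succ 2 j]
    simp

theorem Q_pow [CharP F 2] (j : ℕ) (v : (Fin n ⊕ Fin n) ⊕ Fin 2 → F) :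
    Cfsg.quadFormMinus n F a b (semiFun (sqGam b ha φ ^ j) v) =
      Cfsg.quadFormMinus n F a b v ^ 2 ^ j := by
  induction j with
  | zero => simp [semiFun_one]
  | succ j ih => rw [pow_succ', semiFun_mul, Q_sqGam b ha φ hφ, ih, ← pow_mul, pow_succ]

end

theorem semiFun_sum {ι : Type} [Fintype ι] [DecidableEq ι] (x : GamL ι F) {κ : Type*}
    (s : Finset κ) (g : κ → ι → F) : semiFun x (∑ k ∈ s, g k) = ∑ k ∈ s, semiFun x (g k) :=
  map_sum (AddMonoidHom.mk' (semiFun x) (semiFun_add x)) g s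

section fin

variable [Fintype F] [CharP F 2] {f : ℕ} (hF : Fintype.card F = 2 ^ f)
  (ha : a ≠ 0) (φ : F ≃+* F) (hφ : ∀ x, φ x = x ^ 2) (hord : φ ^ f = 1)
  (hab : ∀ z₁ z₂ : F, z₁ ^ 2 + a * z₁ * z₂ + b * z₂ ^ 2 = 0 → z₁ = 0 ∧ z₂ = 0)

include hord in
theorem sqGam_pow_right : (sqGam (n := n) b ha φ ^ f).right = 1 := by
  have := map_pow (SemidirectProduct.rightHom : GamL ((Fin n ⊕ Fin n) ⊕ Fin 2) F →* _)
    (sqGam b ha φ) f
  rw [SemidirectProduct.rightHom_eq_right] at this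
  rw [this]
  exact hord

include hord in
theorem semiFun_sqGam_pow (v : (Fin n ⊕ Fin n) ⊕ Fin 2 → F) :
    semiFun (sqGam b ha φ ^ f) v = ((sqGam (n := n) b ha φ ^ f).left : Matrix _ _ F) *ᵥ v := by
  unfold semiFun
  rw [sqGam_pow_right b ha φ hord]
  rfl

include hF hφ in
theorem semiFun_sqGam_pow_fix (v : (Fin n ⊕ Fin n) ⊕ Fin 2 → F) (hv : v (Sum.inr 1) = 0) :
    semiFun (sqGam b ha φ ^ f) v = v := by
  funext i
  rcases i with i | i
  · rw [semiFun_pow_inl b ha φ hφ, ← hF, FiniteField.pow_card]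
  · fin_cases i
    · change semiFun (sqGam b ha φ ^ f) v (Sum.inr 0) = v (Sum.inr 0)
      rw [semiFun_pow_inr0 b ha φ hφ f v hv, ← hF, FiniteField.pow_card]
    · change semiFun (sqGam b ha φ ^ f) v (Sum.inr 1) = v (Sum.inr 1)
      have h1 := semiFun_pow_inr1 b ha φ hφ f v
      rw [← hF, FiniteField.pow_card] at h1
      exact mul_left_cancel₀ ha h1

include hF hφ hab in
theorem exists_semiFun_sqGam_pow_ne :
    ∃ v : (Fin n ⊕ Fin n) ⊕ Fin 2 → F, semiFun (sqGam b ha φ ^ f) v ≠ v := by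
  by_contra hcon
  push Not at hcon
  have : Fact (Nat.Prime 2) := ⟨Nat.prime_two⟩
  obtain ⟨l, hl⟩ := exists_sum_pow_ne_zero hF
  set v : (Fin n ⊕ Fin n) ⊕ Fin 2 → F := Pi.single (Sum.inr 1) (l / a) with hv
  set w : (Fin n ⊕ Fin n) ⊕ Fin 2 → F := ∑ j ∈ Finset.range f, semiFun (sqGam b ha φ ^ j) v with hw
  have hfix : semiFun (sqGam b ha φ) w = w := by
    rw [hw, semiFun_sum]
    have h1 := Finset.sum_range_succ (fun j => semiFun (sqGam b ha φ ^ j) v) f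
    rw [Finset.sum_range_succ', hcon v, pow_zero, semiFun_one] at h1
    have h2 := add_right_cancel h1
    rw [← h2]
    apply Finset.sum_congr rfl
    intro j _
    rw [pow_succ', semiFun_mul]
  have hu : a * w (Sum.inr 1) = ∑ j ∈ Finset.range f, l ^ 2 ^ j := by
    rw [hw, Finset.sum_apply, Finset.mul_sum]
    apply Finset.sum_congr rfl
    intro j _
    rw [semiFun_pow_inr1 b ha φ hφ, hv, Pi.single_eq_same, mul_div_cancel₀ _ ha]
  have h1 := congrFun hfix (Sum.inr 1)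
  rw [semiFun_sqGam_inr1 b ha φ hφ] at h1
  have h0 := congrFun hfix (Sum.inr 0)
  rw [semiFun_sqGam_inr0 b ha φ hφ] at h0
  have hw1 : w (Sum.inr 1) ≠ 0 := by
    intro h
    rw [h, mul_zero] at hu
    exact hl hu.symm
  have hw1' : a * w (Sum.inr 1) = 1 := by
    have : w (Sum.inr 1) * (a * w (Sum.inr 1)) = w (Sum.inr 1) * 1 := by
      rw [mul_one]; linear_combination h1
    exact mul_left_cancel₀ hw1 this
  have h2 : (2 : F) = 0 := CharTwo.two_eq_zero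
  have := hab (a * w (Sum.inr 0)) 1 (by
    linear_combination (a ^ 2) * h0 + a ^ 2 * w (Sum.inr 0) * h2 - b * (a * w (Sum.inr 1) + 1) * hw1')
  exact one_ne_zero this.2

include hF hφ hord in
theorem sqGam_pow_left_mem :
    (sqGam b ha φ ^ f).left ∈ Cfsg.isometryGroup F (Cfsg.quadFormMinus n F a b) := by
  intro u _
  change Cfsg.quadFormMinus n F a b (((sqGam (n := n) b ha φ ^ f).left : Matrix _ _ F) *ᵥ u) =
    Cfsg.quadFormMinus n F a b u
  rw [← semiFun_sqGam_pow b ha φ hord, Q_pow b ha φ hφ, ← hF, FiniteField.pow_card]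

include hF hφ hord hab in
theorem rank_sqGam_pow :
    (((sqGam (n := n) b ha φ ^ f).left :
      Matrix ((Fin n ⊕ Fin n) ⊕ Fin 2) ((Fin n ⊕ Fin n) ⊕ Fin 2) F) - 1).rank = 1 := by
  set M : Matrix ((Fin n ⊕ Fin n) ⊕ Fin 2) ((Fin n ⊕ Fin n) ⊕ Fin 2) F :=
    ((sqGam (n := n) b ha φ ^ f).left :
      Matrix ((Fin n ⊕ Fin n) ⊕ Fin 2) ((Fin n ⊕ Fin n) ⊕ Fin 2) F) with hM
  set e : (Fin n ⊕ Fin n) ⊕ Fin 2 → F := Pi.single (Sum.inr 1) 1 with he
  have hfix : ∀ v : (Fin n ⊕ Fin n) ⊕ Fin 2 → F, v (Sum.inr 1) = 0 → M *ᵥ v = v := by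
    intro v hv
    rw [hM, ← semiFun_sqGam_pow b ha φ hord]
    exact semiFun_sqGam_pow_fix b hF ha φ hφ v hv
  have hle : LinearMap.range (M - 1).mulVecLin ≤ Submodule.span F {(M - 1) *ᵥ e} := by
    rintro _ ⟨v, rfl⟩
    rw [Submodule.mem_span_singleton]
    refine ⟨v (Sum.inr 1), ?_⟩
    have h1 := hfix (v - v (Sum.inr 1) • e) (by simp [he])
    rw [Matrix.mulVecLin_apply, Matrix.sub_mulVec, Matrix.sub_mulVec, Matrix.one_mulVec,
      Matrix.one_mulVec]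
    rw [Matrix.mulVec_sub, Matrix.mulVec_smul] at h1
    rw [smul_sub]
    have h2 : M *ᵥ v = v - v (Sum.inr 1) • e + v (Sum.inr 1) • M *ᵥ e := by
      rw [← h1]; abel
    rw [h2]; abel
  have h1 : (M - 1).rank ≤ 1 := by
    unfold Matrix.rank
    refine (Submodule.finrank_mono hle).trans ?_
    have := finrank_span_le_card (R := F) ({(M - 1) *ᵥ e} : Set ((Fin n ⊕ Fin n) ⊕ Fin 2 → F))
    simpa using this
  have h0 : (M - 1).rank ≠ 0 := by
    intro h0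
    unfold Matrix.rank at h0
    rw [Submodule.finrank_eq_zero, LinearMap.range_eq_bot] at h0
    obtain ⟨v, hv⟩ := exists_semiFun_sqGam_pow_ne (n := n) b hF ha φ hφ hab
    apply hv
    rw [semiFun_sqGam_pow b ha φ hord, ← hM]
    have := congrArg (fun L => L v) h0
    simp only [Matrix.mulVecLin_apply, Matrix.sub_mulVec, Matrix.one_mulVec,
      LinearMap.zero_apply] at this
    exact sub_eq_zero.1 this
  omega

end fin

theorem sigHom_eq_one_of_outHom {ι : Type} [Fintype ι] [DecidableEq ι] [Fintype F]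
    (Q : QuadraticForm F (ι → F)) (hQ : (polarBilin Q).Nondegenerate) (hd : 7 ≤ Fintype.card ι)
    (x : ↥(GamO ⇑Q)) (hx : outHom ⇑Q x = 1) : sigHom ⇑Q x = 1 := by
  obtain ⟨c, ω, rfl⟩ := (outHom_eq_one_iff' Q hQ hd x).1 hx
  rw [map_mul]
  have h4 : sigHom ⇑Q (scalHom Q c) = 1 := rfl
  have h5 : sigHom ⇑Q (isoIncl ⇑Q ω.1) = 1 := rfl
  rw [h4, h5, one_mul]

theorem mem_Omega_of_outHom_char_two {ι : Type} [Fintype ι] [DecidableEq ι] [Fintype F]
    (Q : QuadraticForm F (ι → F)) (hQ : (polarBilin Q).Nondegenerate) (hd : 7 ≤ Fintype.card ι)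
    (h2 : (2 : F) = 0) (x : ↥(GamO ⇑Q)) (hx : outHom ⇑Q x = 1)
    (hiso : x.1.left ∈ Cfsg.isometryGroup F ⇑Q) :
    (⟨x.1.left, hiso⟩ : ↥(Cfsg.isometryGroup F ⇑Q)) ∈ Cfsg.Omega F ⇑Q := by
  obtain ⟨c, ω, h⟩ := (outHom_eq_one_iff' Q hQ hd x).1 hx
  have hl : ((x.1.left : GL ι F) : Matrix ι ι F) = (c : F) • ((ω.1.1 : GL ι F) : Matrix ι ι F) := by
    rw [h, Subgroup.coe_mul, SemidirectProduct.mul_left, Units.val_mul, scalHom_left,
      scalHom_right, map_one, MulAut.one_apply, isoIncl_left]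
    simp
  obtain ⟨v, hv⟩ := exists_nonsing Q hQ (by omega)
  have e1 : Q (((x.1.left : GL ι F) : Matrix ι ι F) *ᵥ v) = Q v := hiso v v
  have e2 : Q (((ω.1.1 : GL ι F) : Matrix ι ι F) *ᵥ v) = Q v := ω.1.2 v v
  rw [hl, Matrix.smul_mulVec, QuadraticMap.map_smul, e2, smul_eq_mul] at e1
  have e3 : (c : F) * c = 1 := mul_right_cancel₀ hv (by rw [e1, one_mul])
  have e4 : (c : F) = 1 := by
    have : ((c : F) - 1) ^ 2 = 0 := by linear_combination e3 + (1 - c) * h2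
    exact sub_eq_zero.1 (pow_eq_zero_iff two_ne_zero |>.1 this)
  rw [e4, one_smul] at hl
  have : (⟨x.1.left, hiso⟩ : ↥(Cfsg.isometryGroup F ⇑Q)) = ω.1 := Subtype.ext (Units.ext hl)
  rw [this]
  exact ω.2

theorem isCyclic_of_pow_ne {G : Type*} [Group G] {f : ℕ} (hf : 1 ≤ f) (hcard : Nat.card G = 2 * f)
    (ξ : G) (hdvd : f ∣ orderOf ξ) (hne : ξ ^ f ≠ 1) : IsCyclic G := by
  have hdvd2 : orderOf ξ ∣ 2 * f := by
    rw [← hcard]
    exact orderOf_dvd_natCard _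
  have : Finite G := Nat.finite_of_card_ne_zero (by omega)
  apply isCyclic_of_orderOf_eq_card ξ
  rw [hcard]
  obtain ⟨k, hk⟩ := hdvd
  rw [hk, mul_comm 2 f] at hdvd2
  have hk2 : k ∣ 2 := Nat.dvd_of_mul_dvd_mul_left (by omega) hdvd2
  rcases (Nat.dvd_prime Nat.prime_two).1 hk2 with rfl | rfl
  · exfalso
    apply hne
    rw [mul_one] at hk
    rw [← hk]
    exact pow_orderOf_eq_one _
  · rw [hk, mul_comm]

theorem out_minus_char_two [Fintype F] {f m : ℕ} (hf : 1 ≤ f) (hF : Fintype.card F = 2 ^ f)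
    (hm : 4 ≤ m) (a b : F)
    (hab : ∀ z₁ z₂ : F, z₁ ^ 2 + a * z₁ * z₂ + b * z₂ ^ 2 = 0 → z₁ = 0 ∧ z₂ = 0)
    (htop : Cfsg.gammaPOmega F (Cfsg.quadFormMinus (m - 1) F a b) = ⊤) :
    IsCyclic (Cfsg.Out (Cfsg.POmega F (Cfsg.quadFormMinus (m - 1) F a b))) ∧
      Nat.card (Cfsg.Out (Cfsg.POmega F (Cfsg.quadFormMinus (m - 1) F a b))) = 2 * f := by
  have : Fact (Nat.Prime 2) := ⟨Nat.prime_two⟩
  have hchar : CharP F 2 := charP_of_card_eq_prime_pow hF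
  have h2 : (2 : F) = 0 := CharTwo.two_eq_zero
  have hdisc := minus_disc_ne_zero a b hab
  have ha : a ≠ 0 := by
    rintro rfl
    apply hdisc
    linear_combination 2 * b * h2
  have hQ := minusQF_nondegenerate (m - 1) F a b hdisc
  have hAut := card_mulAut_minus 2 f hF m hm a b hab htop
  obtain ⟨φ, hφ, hordφ, -, -⟩ := exists_frob hF
  have hord : φ ^ f = 1 := by rw [← hordφ]; exact pow_orderOf_eq_one φ
  have hmem := sqGam_mem (n := m - 1) b ha φ hφ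
  have hiso := sqGam_pow_left_mem (n := m - 1) b hF ha φ hφ hord
  have hrank := rank_sqGam_pow (n := m - 1) b hF ha φ hφ hord hab
  rw [← minusQF_coe (m - 1) F a b] at hAut htop hmem hiso ⊢
  have h7 : 7 ≤ Fintype.card ((Fin (m - 1) ⊕ Fin (m - 1)) ⊕ Fin 2) := by simp; omega
  have hcard : Nat.card (Cfsg.Out (Cfsg.POmega F ⇑(minusQF (m - 1) F a b))) = 2 * f := by
    have h1 := card_Out_mul (minusQF (m - 1) F a b) hQ h7
    rw [hAut, if_pos rfl] at h1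
    exact Nat.eq_of_mul_eq_mul_right Nat.card_pos h1
  refine ⟨?_, hcard⟩
  have hnot : (⟨_, hiso⟩ : ↥(Cfsg.isometryGroup F ⇑(minusQF (m - 1) F a b))) ∉
      Cfsg.Omega F ⇑(minusQF (m - 1) F a b) := by
    rw [mem_Omega_iff_even_rank (minusQF (m - 1) F a b) h2 hQ (Or.inr (by simp; omega))]
    change ¬ Even (((sqGam (n := m - 1) b ha φ ^ f).left :
      Matrix ((Fin (m - 1) ⊕ Fin (m - 1)) ⊕ Fin 2) ((Fin (m - 1) ⊕ Fin (m - 1)) ⊕ Fin 2) F) - 1).rank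
    rw [hrank]
    decide
  apply isCyclic_of_pow_ne hf hcard (outHom ⇑(minusQF (m - 1) F a b) ⟨sqGam b ha φ, hmem⟩)
  · have h1 := sigHom_eq_one_of_outHom (minusQF (m - 1) F a b) hQ h7
      (⟨sqGam b ha φ, hmem⟩ ^ orderOf (outHom ⇑(minusQF (m - 1) F a b) ⟨sqGam b ha φ, hmem⟩))
      (by rw [map_pow]; exact pow_orderOf_eq_one _)
    rw [map_pow] at h1
    rw [← hordφ]
    exact orderOf_dvd_of_pow_eq_one h1
  · intro h
    rw [← map_pow] at h
    exact hnot (mem_Omega_of_outHom_char_two (minusQF (m - 1) F a b) hQ h7 h2 _ h hiso)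

end Cfsg.Agent.Lib.Helper49
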