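import Cfsg.Agent.Lib.Helper49.GamO13
import Cfsg.Agent.S2621

set_option autoImplicit false
set_option linter.unusedSimpArgs false
set_option linter.unusedSectionVars false

/-! `Out(PΩ⁻_{2m}(q))`, `q` odd, given `Aut = PΓO`. -/

namespace Cfsg.Agent.Lib.Helper49

open QuadraticMap Module Matrix
open scoped MatrixGroups
open Cfsg.Agent.Lib.Helper6.OA
open Cfsg.Agent.Lib.Helper18 Cfsg.Agent.Lib.Helper18.OmegaCenter

variable {F : Type*} [Field F] [Fintype F]

theorem out_minus_odd {p f m : ℕ} [Fact p.Prime] (hf : 1 ≤ f) (hF : Fintype.card F = p ^ f)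
    (hp : p ≠ 2) (hm : 4 ≤ m) (a b : F)
    (hab : ∀ z₁ z₂ : F, z₁ ^ 2 + a * z₁ * z₂ + b * z₂ ^ 2 = 0 → z₁ = 0 ∧ z₂ = 0)
    (htop : Cfsg.gammaPOmega F (Cfsg.quadFormMinus (m - 1) F a b) = ⊤) :
    if p ^ f % 4 = 3 ∧ Odd m then
      Nonempty (Cfsg.Out (Cfsg.POmega F (Cfsg.quadFormMinus (m - 1) F a b)) ≃*
        DihedralGroup 4 × Multiplicative (ZMod f))
    else
      Nonempty (Cfsg.Out (Cfsg.POmega F (Cfsg.quadFormMinus (m - 1) F a b)) ≃*
        Multiplicative (ZMod 2 × ZMod (2 * f))) := by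
  have hpodd : Odd p := (Fact.out : p.Prime).odd_of_ne_two hp
  have hqodd : Odd (p ^ f) := hpodd.pow
  have hodd : Odd (Fintype.card F) := hF ▸ hqodd
  obtain ⟨ν, u₁, u₂, D, -, -, S⟩ := setup_minus hodd (m := m - 1) (by omega) a b hab
  have hnegiff := neg_mem_minus_iff hodd (m := m - 1) a b hab
  have hAut := card_mulAut_minus p f hF m hm a b hab htop
  have hsq := Cfsg.Agent.S2621.result hF hqodd (m := m) (by omega) a b hab
    (Pi.basisFun F ((Fin (m - 1) ⊕ Fin (m - 1)) ⊕ Fin 2))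
  obtain ⟨φ, hφ, hordφ, -, -⟩ := exists_frob hF
  rw [← minusQF_coe (m - 1) F a b] at hAut htop hsq ⊢
  have h7 : 7 ≤ Fintype.card ((Fin (m - 1) ⊕ Fin (m - 1)) ⊕ Fin 2) := by simp; omega
  have hd2 : Fintype.card ((Fin (m - 1) ⊕ Fin (m - 1)) ⊕ Fin 2) = 2 * ((m - 1) + 1) := by
    simp; omega
  have hOut := card_Out_mul (minusQF (m - 1) F a b) S.nd h7
  rw [hAut, if_neg hp] at hOut
  have hiff1 := pow_mod_four_eq_three_iff (Nat.odd_iff.1 hqodd) m
  have hiff2 := pow_mod_four_eq_three (p ^ f) m hqodd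
  split_ifs with h
  · have hneg : negIso (minusQF (m - 1) F a b) ∈ Cfsg.Omega F ⇑(minusQF (m - 1) F a b) := by
      rw [hnegiff, hF]
      refine ⟨?_, h.1⟩
      obtain ⟨c, hc⟩ := h.2
      exact ⟨c, by omega⟩
    have hne : ¬ Even (m * (p ^ f - 1) / 2) := hiff1.1 (hiff2.2 ⟨h.2, h.1⟩)
    rw [if_neg hne] at hOut
    have hcard : Nat.card (Cfsg.Out (Cfsg.POmega F ⇑(minusQF (m - 1) F a b))) = 8 * f :=
      Nat.eq_of_mul_eq_mul_right Nat.card_pos hOut
    have hfodd : Odd f := ((pow_mod_four_eq_three p f hpodd).1 h.1).1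
    obtain ⟨e⟩ := ker_sigBar_equiv (minusQF (m - 1) F a b) S.nd h7 htop S hneg
    obtain ⟨x, hx⟩ := sigHom_surjective (minusQF (m - 1) F a b) S.nd (m - 1) hd2 φ
    have : Finite (Cfsg.Out (Cfsg.POmega F ⇑(minusQF (m - 1) F a b))) :=
      Nat.finite_of_card_ne_zero (by omega)
    exact prod_of_dihedral_ker (sigBar (minusQF (m - 1) F a b) S.nd h7 htop) f hfodd hcard e
      (outHom _ x) (by rw [sigBar_outHom, hx, hordφ])
  · have hneg : negIso (minusQF (m - 1) F a b) ∉ Cfsg.Omega F ⇑(minusQF (m - 1) F a b) := by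
      rw [hnegiff, hF]
      rintro ⟨⟨c, hc⟩, h2⟩
      exact h ⟨h2, ⟨c, by omega⟩⟩
    have he : Even (m * (p ^ f - 1) / 2) := by
      by_contra hne
      have := hiff2.1 (hiff1.2 hne)
      exact h ⟨this.2, this.1⟩
    rw [if_pos he] at hOut
    have hcard : Nat.card (Cfsg.Out (Cfsg.POmega F ⇑(minusQF (m - 1) F a b))) = 4 * f :=
      Nat.eq_of_mul_eq_mul_right Nat.card_pos hOut
    have hΔ : ¬ IsSquare (gramM (minusQF (m - 1) F a b)).det := by
      intro hs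
      apply hsq.1 _ he
      simp only [Pi.basisFun_apply]
      exact hs
    exact out_caseB S hneg hp hf hF htop hΔ hcard (m - 1) hd2

end Cfsg.Agent.Lib.Helper49
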