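import Cfsg.Agent.Lib.Helper49.GamOMinus
import Cfsg.Agent.Lib.Helper49.GamO12

set_option autoImplicit false
set_option linter.unusedSimpArgs false
set_option linter.unusedSectionVars false

/-! The order of `Aut(PΩ⁺)` given `Aut = PΓO`, and the standard Frobenius semi-isometry. -/

namespace Cfsg.Agent.Lib.Helper49

open Cfsg.Agent.Lib.Helper18 Cfsg.Agent.Lib.Helper18.OmegaCenter
open QuadraticMap Module Matrix
open scoped MatrixGroups

variable {F : Type*} [Field F] [Fintype F]

/-- `|O⁺_{2m}(q)|` in terms of `|PΩ⁺|` -/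
theorem card_isometryGroup_plus (p f : ℕ) [Fact p.Prime] (hF : Fintype.card F = p ^ f) (m : ℕ)
    (hm : 4 ≤ m) :
    Nat.card ↥(Cfsg.isometryGroup F (Cfsg.quadFormPlus m F)) =
      (if p = 2 then 2 else (if Even (m * (p ^ f - 1) / 2) then 8 else 4)) *
        Nat.card (Cfsg.POmega F (Cfsg.quadFormPlus m F)) := by
  have hneg := fun hodd => Cfsg.Agent.S0790.result hF hodd m (by omega)
  rw [← plusQF_coe m F] at hneg ⊢
  have hQ := plusQF_nondegenerate m F
  have hfr : Frame3 (plusQF m F) _ _ := frame_plus m (by omega)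
  have h := card_isometryGroup_eq (plusQF m F)
  have : Nonempty (Fin m ⊕ Fin m) := ⟨Sum.inl ⟨0, by omega⟩⟩
  have hchar : CharP F p := charP_of_card_eq_prime_pow hF
  by_cases hp : p = 2
  · subst hp
    have h2 : (2 : F) = 0 := by
      have := CharP.cast_eq_zero F 2
      exact_mod_cast this
    have hidx : (Cfsg.Omega F ⇑(plusQF m F)).index = 2 :=
      index_Omega_char_two (plusQF m F) h2 hQ (Or.inr (by simp; omega))
    have hZ := card_center_eq_one (plusQF m F) hQ hfr (Or.inl h2)
    rw [hZ, hidx] at h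
    rw [h, if_pos rfl]
    ring
  · have hpodd : Odd p := (Fact.out : p.Prime).odd_of_ne_two hp
    have hodd : Odd (p ^ f) := hpodd.pow
    have h2 : (2 : F) ≠ 0 := Cfsg.Agent.S0790.two_ne_zero_of_odd_card (hF ▸ hodd)
    have hidx : (Cfsg.Omega F ⇑(plusQF m F)).index = 4 :=
      index_commutator (plusQF m F) h2 hQ (by simp; omega)
    rw [if_neg hp]
    have hiff := pow_mod_four_eq_three_iff (Nat.odd_iff.1 hodd) m
    have hodd2 : (p ^ f) ^ m % 2 = 1 := Nat.odd_iff.1 hodd.pow
    by_cases h4 : (p ^ f) ^ m % 4 = 1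
    · have hZ := card_center_eq_two (plusQF m F) hQ hfr h2 ((hneg hodd).2 h4)
      rw [hZ, hidx] at h
      have : Even (m * (p ^ f - 1) / 2) := by
        by_contra hne
        have := hiff.2 hne
        omega
      rw [h, if_pos this]
      ring
    · have hZ := card_center_eq_one (plusQF m F) hQ hfr
        (Or.inr (fun hh => h4 ((hneg hodd).1 hh)))
      rw [hZ, hidx] at h
      have : ¬ Even (m * (p ^ f - 1) / 2) := hiff.1 (by omega)
      rw [h, if_neg this]
      ring

theorem card_mulAut_plus (p f : ℕ) [Fact p.Prime] (hF : Fintype.card F = p ^ f) (m : ℕ)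
    (hm : 4 ≤ m) (htop : Cfsg.gammaPOmega F (Cfsg.quadFormPlus m F) = ⊤) :
    Nat.card (MulAut (Cfsg.POmega F (Cfsg.quadFormPlus m F))) =
      (if p = 2 then 2 else (if Even (m * (p ^ f - 1) / 2) then 8 else 4)) * f *
        Nat.card (Cfsg.POmega F (Cfsg.quadFormPlus m F)) := by
  have h1 := card_isometryGroup_plus p f hF m hm
  obtain ⟨-, -, -, -, hf⟩ := exists_frob hF
  have hQ := plusQF_nondegenerate m F
  rw [← plusQF_coe m F] at h1 htop ⊢
  rw [card_mulAut_of_gamma_top (plusQF m F) hQ (m - 1) (by simp; omega)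
    (by simp; omega) htop, hf, h1]
  ring

omit [Fintype F] in
/-- the standard field automorphism is a semi-isometry of the plus form -/
theorem isSemiIso_inr_plus (m : ℕ) (σ : F ≃+* F) :
    IsSemiIso (Cfsg.quadFormPlus m F) (SemidirectProduct.inr σ : GamL (Fin m ⊕ Fin m) F) := by
  intro v
  unfold semiFun
  simp only [SemidirectProduct.left_inr, SemidirectProduct.right_inr, Units.val_one,
    Matrix.one_mulVec]
  unfold Cfsg.quadFormPlus
  rw [map_sum]
  apply Finset.sum_congr rfl
  intro i _
  rw [map_mul]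

end Cfsg.Agent.Lib.Helper49
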