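import Cfsg.Agent.Lib.Helper49.GamOPlus1
import Cfsg.Agent.Lib.Helper49.GamO14

set_option autoImplicit false
set_option linter.unusedSimpArgs false
set_option linter.unusedSectionVars false

/-! `Out(PΩ⁺_{2m}(q))` given `Aut = PΓO` (so `m ≥ 5`): characteristic two. -/

namespace Cfsg.Agent.Lib.Helper49

open Cfsg.Agent.Lib.Helper18 Cfsg.Agent.Lib.Helper18.OmegaCenter
open QuadraticMap Module Matrix
open scoped MatrixGroups

variable {F : Type*} [Field F] [Fintype F]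

/-- the standard Frobenius as an element of `ΓO⁺` -/
def frobPlus (m : ℕ) (σ : F ≃+* F) : ↥(GamO ⇑(plusQF m F)) :=
  ⟨SemidirectProduct.inr σ, by
    rw [plusQF_coe]
    exact (isSemiIso_inr_plus m σ).mem⟩

theorem frobPlus_pow (m : ℕ) (σ : F ≃+* F) (j : ℕ) : frobPlus m σ ^ j = frobPlus m (σ ^ j) := by
  apply Subtype.ext
  change (SemidirectProduct.inr σ : GamL (Fin m ⊕ Fin m) F) ^ j = SemidirectProduct.inr (σ ^ j)
  rw [map_pow]

theorem frobPlus_one (m : ℕ) : frobPlus m (1 : F ≃+* F) = 1 := by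
  apply Subtype.ext
  change (SemidirectProduct.inr 1 : GamL (Fin m ⊕ Fin m) F) = 1
  rw [map_one]

theorem sigHom_frobPlus (m : ℕ) (σ : F ≃+* F) : sigHom ⇑(plusQF m F) (frobPlus m σ) = σ := rfl

theorem isSemiIso_frobPlus (m : ℕ) (σ : F ≃+* F) : IsSemiIso ⇑(plusQF m F) (frobPlus m σ).1 := by
  change IsSemiIso ⇑(plusQF m F) (SemidirectProduct.inr σ : GamL (Fin m ⊕ Fin m) F)
  rw [plusQF_coe]
  exact isSemiIso_inr_plus m σ

theorem out_plus_char_two_large {f m : ℕ} (hf : 1 ≤ f) (hF : Fintype.card F = 2 ^ f) (hm : 4 ≤ m)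
    (htop : Cfsg.gammaPOmega F (Cfsg.quadFormPlus m F) = ⊤) :
    Nonempty (Cfsg.Out (Cfsg.POmega F (Cfsg.quadFormPlus m F)) ≃*
      Multiplicative (ZMod 2 × ZMod f)) := by
  have : Fact (Nat.Prime 2) := ⟨Nat.prime_two⟩
  have hAut := card_mulAut_plus 2 f hF m hm htop
  obtain ⟨φ, hφ, hordφ, -, hcardA⟩ := exists_frob hF
  have hQ := plusQF_nondegenerate m F
  rw [← plusQF_coe m F] at hAut htop ⊢
  have h7 : 7 ≤ Fintype.card (Fin m ⊕ Fin m) := by simp; omega
  have hd2 : Fintype.card (Fin m ⊕ Fin m) = 2 * ((m - 1) + 1) := by simp; omega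
  have hOut := card_Out_mul (plusQF m F) hQ h7
  rw [hAut, if_pos rfl] at hOut
  have hcard : Nat.card (Cfsg.Out (Cfsg.POmega F ⇑(plusQF m F))) = 2 * f :=
    Nat.eq_of_mul_eq_mul_right Nat.card_pos hOut
  have : Finite (Cfsg.Out (Cfsg.POmega F ⇑(plusQF m F))) :=
    Nat.finite_of_card_ne_zero (by omega)
  have hker : Nat.card ↥(sigBar (plusQF m F) hQ h7 htop).ker = 2 := by
    have h1 := card_eq_card_ker_mul _ (sigBar_surjective (plusQF m F) hQ h7 htop (m - 1) hd2)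
    rw [hcard, hcardA] at h1
    exact (Nat.eq_of_mul_eq_mul_right (by omega) h1).symm
  have e : ↥(sigBar (plusQF m F) hQ h7 htop).ker ≃* Multiplicative (ZMod 2) :=
    mulEquivOfPrimeCardEq (p := 2) hker (by simp)
  obtain ⟨E⟩ := prod_of_central_complement (sigBar (plusQF m F) hQ h7 htop) f hf e
    (by rw [hcard]; simp) (outHom _ (frobPlus m φ))
    (by rw [sigBar_outHom, sigHom_frobPlus, hordφ])
    (by rw [← map_pow, frobPlus_pow, ← hordφ, pow_orderOf_eq_one, frobPlus_one, map_one])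
    (comm_of_card_two _ hker _)
  exact ⟨E.trans (MulEquiv.prodMultiplicative (ZMod 2) (ZMod f)).symm⟩

end Cfsg.Agent.Lib.Helper49
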