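import Cfsg.Agent.Lib.Helper49.GamOPlus2

set_option autoImplicit false
set_option linter.unusedSimpArgs false
set_option linter.unusedSectionVars false

/-! `Out(PΩ⁺_{2m}(q))` given `Aut = PΓO` (so `m ≥ 5`): `q` odd. -/

namespace Cfsg.Agent.Lib.Helper49

open Cfsg.Agent.Lib.Helper18 Cfsg.Agent.Lib.Helper18.OmegaCenter
open Cfsg.Agent.Lib.Helper6.OA
open QuadraticMap Module Matrix
open scoped MatrixGroups

section general

variable {ι : Type} [Fintype ι] [DecidableEq ι] {F : Type*} [Field F]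

/-- a reflection in a vector fixed by `σ` has a `σ`-fixed matrix, when `σ` is a semi-isometry -/
theorem reflectionMatrix_map (Q : (ι → F) → F) (σ : F ≃+* F)
    (hσ : IsSemiIso Q (SemidirectProduct.inr σ : GamL ι F)) (v : ι → F) (hv : ∀ i, σ (v i) = v i) :
    (Cfsg.reflectionMatrix Q v).map σ = Cfsg.reflectionMatrix Q v := by
  have hsemi : ∀ u : ι → F, semiFun (SemidirectProduct.inr σ : GamL ι F) u = fun i => σ (u i) := by
    intro u
    unfold semiFun
    simp
  have hQ : ∀ u : ι → F, Q (fun i => σ (u i)) = σ (Q u) := by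
    intro u
    have := hσ u
    rw [hsemi] at this
    exact this
  have hv' : (fun i => σ (v i)) = v := funext hv
  have hQv : σ (Q v) = Q v := by rw [← hQ, hv']
  have hpol : ∀ j, σ (Cfsg.polarVec Q v j) = Cfsg.polarVec Q v j := by
    intro j
    unfold Cfsg.polarVec QuadraticMap.polar
    have e1 : (fun i => σ ((Pi.single j 1 : ι → F) i)) = Pi.single j 1 := by
      funext i
      by_cases h : i = j
      · subst h; simp
      · simp [Pi.single_eq_of_ne h]
    have e2 : (fun i => σ ((v + Pi.single j 1 : ι → F) i)) = v + Pi.single j 1 := by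
      funext i
      have := congrFun e1 i
      simp only [Pi.add_apply, map_add, hv]
      rw [this]
    rw [map_sub, map_sub, ← hQ, ← hQ, ← hQ, e1, e2, hv']
  ext i j
  unfold Cfsg.reflectionMatrix
  simp only [Matrix.map_apply, Matrix.sub_apply, Matrix.smul_apply, Matrix.vecMulVec_apply,
    smul_eq_mul, map_sub, map_mul, map_inv₀, hQv, hv, hpol]
  congr 1
  by_cases h : i = j
  · subst h; simp
  · simp [Matrix.one_apply_ne h]

variable [Fintype F] (Q : QuadraticForm F (ι → F))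

/-- the kernel of `Out → Aut F` is `PGO / Inn` -/
theorem ker_sigBar_equiv' (hQ : (polarBilin Q).Nondegenerate) (hd : 7 ≤ Fintype.card ι)
    (htop : Cfsg.gammaPOmega F ⇑Q = ⊤) {K : Type*} [Group K]
    (h : ∃ φ : ↥(Cfsg.pgoAut F ⇑Q) →* K, Function.Surjective φ ∧
      φ.ker = (Cfsg.Inn (Cfsg.POmega F ⇑Q)).subgroupOf (Cfsg.pgoAut F ⇑Q)) :
    Nonempty (↥(sigBar Q hQ hd htop).ker ≃* K) := by
  obtain ⟨φ, hφs, hφk⟩ := h
  let ψ : ↥(Cfsg.pgoAut F ⇑Q) →* Cfsg.Out (Cfsg.POmega F ⇑Q) :=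
    (QuotientGroup.mk' (Cfsg.Inn (Cfsg.POmega F ⇑Q))).comp (Cfsg.pgoAut F ⇑Q).subtype
  have hk : ψ.ker = φ.ker := by
    rw [hφk]
    ext x
    rw [MonoidHom.mem_ker, Subgroup.mem_subgroupOf]
    exact QuotientGroup.eq_one_iff _
  have hr : ψ.range = (sigBar Q hQ hd htop).ker := by
    ext y
    rw [mem_ker_sigBar_iff]
    constructor
    · rintro ⟨⟨β, hβ⟩, rfl⟩
      rw [pgoAut_eq] at hβ
      obtain ⟨g, rfl⟩ := hβ
      refine ⟨g, ?_⟩
      unfold outHom
      rw [MonoidHom.comp_apply (QuotientGroup.mk' _) (cGam ⇑Q), cGam_goIncl]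
      rfl
    · rintro ⟨g, rfl⟩
      refine ⟨⟨cG ⇑Q g, by rw [pgoAut_eq]; exact ⟨g, rfl⟩⟩, ?_⟩
      unfold outHom
      rw [MonoidHom.comp_apply (QuotientGroup.mk' _) (cGam ⇑Q), cGam_goIncl]
      rfl
  exact ⟨(MulEquiv.subgroupCongr hr.symm).trans ((QuotientGroup.quotientKerEquivRange ψ).symm.trans
    ((QuotientGroup.quotientMulEquivOfEq hk).trans
      (QuotientGroup.quotientKerEquivOfSurjective φ hφs)))⟩

end general

variable {F : Type*} [Field F] [Fintype F]

theorem out_plus_odd_large {p f m : ℕ} [Fact p.Prime] (hf : 1 ≤ f) (hF : Fintype.card F = p ^ f)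
    (hp : p ≠ 2) (hm : 4 ≤ m) (htop : Cfsg.gammaPOmega F (Cfsg.quadFormPlus m F) = ⊤) :
    if p ^ f % 4 = 3 ∧ Odd m then
      Nonempty (Cfsg.Out (Cfsg.POmega F (Cfsg.quadFormPlus m F)) ≃*
        Multiplicative (ZMod 2 × ZMod 2 × ZMod f))
    else
      Nonempty (Cfsg.Out (Cfsg.POmega F (Cfsg.quadFormPlus m F)) ≃*
        DihedralGroup 4 × Multiplicative (ZMod f)) := by
  have hpodd : Odd p := (Fact.out : p.Prime).odd_of_ne_two hp
  have hqodd : Odd (p ^ f) := hpodd.pow
  have hodd : Odd (Fintype.card F) := hF ▸ hqodd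
  obtain ⟨ν, D, -, S⟩ := setup_plus hodd hm
  have hnegiff := neg_mem_plus_iff hodd hm
  have hAut := card_mulAut_plus p f hF m hm htop
  obtain ⟨φ, hφ, hordφ, -, hcardA⟩ := exists_frob hF
  rw [← plusQF_coe m F] at hAut htop ⊢
  have h7 : 7 ≤ Fintype.card (Fin m ⊕ Fin m) := by simp; omega
  have hOut := card_Out_mul (plusQF m F) S.nd h7
  rw [hAut, if_neg hp] at hOut
  have hiff1 := pow_mod_four_eq_three_iff (Nat.odd_iff.1 hqodd) m
  have hiff2 := pow_mod_four_eq_three (p ^ f) m hqodd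
  have hξ : orderOf (sigBar (plusQF m F) S.nd h7 htop (outHom _ (frobPlus m φ))) = f := by
    rw [sigBar_outHom, sigHom_frobPlus, hordφ]
  have hz : outHom ⇑(plusQF m F) (frobPlus m φ) ^ f = 1 := by
    rw [← map_pow, frobPlus_pow, ← hordφ, pow_orderOf_eq_one, frobPlus_one, map_one]
  split_ifs with h
  · have hneg : negIso (plusQF m F) ∉ Cfsg.Omega F ⇑(plusQF m F) := by
      rw [hnegiff, hF]
      exact fun hh => hh ⟨h.2, h.1⟩
    have hne : ¬ Even (m * (p ^ f - 1) / 2) := hiff1.1 (hiff2.2 ⟨h.2, h.1⟩)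
    rw [if_neg hne] at hOut
    have hcard : Nat.card (Cfsg.Out (Cfsg.POmega F ⇑(plusQF m F))) = 4 * f :=
      Nat.eq_of_mul_eq_mul_right Nat.card_pos hOut
    have : Finite (Cfsg.Out (Cfsg.POmega F ⇑(plusQF m F))) :=
      Nat.finite_of_card_ne_zero (by omega)
    obtain ⟨e⟩ := ker_sigBar_equiv' (plusQF m F) S.nd h7 htop (S.pgo_mod_Inn_of_not hneg)
    obtain ⟨E⟩ := prod_of_central_complement (sigBar (plusQF m F) S.nd h7 htop) f hf e
      (by rw [hcard]; simp [Nat.card_prod]) (outHom _ (frobPlus m φ)) hξ hz (by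
        intro n
        obtain ⟨g, hg⟩ := (mem_ker_sigBar_iff (plusQF m F) S.nd h7 htop n.1).1 n.2
        rw [hg]
        exact (outHom_comm S hneg (frobPlus m φ) (isSemiIso_frobPlus m φ) g).symm)
    exact ⟨E.trans ((MulEquiv.prodMultiplicative (ZMod 2 × ZMod 2) (ZMod f)).symm.trans
      (AddEquiv.toMultiplicative AddEquiv.prodAssoc))⟩
  · have hneg : negIso (plusQF m F) ∈ Cfsg.Omega F ⇑(plusQF m F) := by
      rw [hnegiff, hF]
      exact fun hh => h ⟨hh.2, hh.1⟩
    have he : Even (m * (p ^ f - 1) / 2) := by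
      by_contra hne
      have := hiff2.1 (hiff1.2 hne)
      exact h ⟨this.2, this.1⟩
    rw [if_pos he] at hOut
    have hcard : Nat.card (Cfsg.Out (Cfsg.POmega F ⇑(plusQF m F))) = 8 * f :=
      Nat.eq_of_mul_eq_mul_right Nat.card_pos hOut
    have : Finite (Cfsg.Out (Cfsg.POmega F ⇑(plusQF m F))) :=
      Nat.finite_of_card_ne_zero (by omega)
    obtain ⟨e⟩ := ker_sigBar_equiv (plusQF m F) S.nd h7 htop S hneg
    -- the reflection in `e₀ + f₀`
    set v : Fin m ⊕ Fin m → F :=
      Pi.single (Sum.inl ⟨0, by omega⟩) 1 + Pi.single (Sum.inr ⟨0, by omega⟩) 1 with hv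
    have hQv : plusQF m F v = 1 := by
      rw [plusQF_coe]
      unfold Cfsg.quadFormPlus
      rw [Finset.sum_eq_single ⟨0, by omega⟩]
      · simp [hv]
      · intro i _ hi
        simp [hv, Pi.single_eq_of_ne, hi]
      · simp
    have hQv0 : plusQF m F v ≠ 0 := by rw [hQv]; exact one_ne_zero
    have hvfix : ∀ i, φ (v i) = v i := by
      intro i
      rw [hv]
      simp only [Pi.add_apply, map_add]
      congr 1 <;>
      · rw [Pi.single_apply]
        split_ifs <;> simp
    have hmemB : gOut ⇑(plusQF m F) (iO _ (Cfsg.Agent.Lib.Helper18.refl (plusQF m F) v)) ∈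
        (sigBar (plusQF m F) S.nd h7 htop).ker :=
      (mem_ker_sigBar_iff (plusQF m F) S.nd h7 htop _).2 ⟨_, rfl⟩
    apply prod_of_dihedral_fix (sigBar (plusQF m F) S.nd h7 htop) f hf hcard e
      (outHom _ (frobPlus m φ)) hξ hz ⟨_, hmemB⟩
    · apply Subtype.ext
      change gOut ⇑(plusQF m F) _ * gOut ⇑(plusQF m F) _ = 1
      rw [← map_mul, ← map_mul, Cfsg.Agent.Lib.Helper18.refl_mul_self, map_one, map_one]
    · intro n hn
      obtain ⟨g, hg⟩ := (mem_ker_sigBar_iff (plusQF m F) S.nd h7 htop n.1).1 n.2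
      have h1 := congrArg Subtype.val hn
      change n.1 * n.1 = gOut ⇑(plusQF m F) _ at h1
      rw [hg, ← gOut_apply, ← map_mul] at h1
      have h2 : gOut ⇑(plusQF m F)
          (iO _ (Cfsg.Agent.Lib.Helper18.refl (plusQF m F) v) * (g * g)⁻¹) = 1 := by
        rw [map_mul, map_inv, h1, mul_inv_cancel]
      have h3 := (inv_of_gOut_eq_one S _ h2).2
      rw [map_mul, map_inv, map_mul, S.eps_refl hQv0, Int.units_mul_self, inv_one, mul_one] at h3
      exact absurd h3 (by decide)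
    · change outHom ⇑(plusQF m F) (frobPlus m φ) * outHom ⇑(plusQF m F) (goIncl _ _) =
        outHom ⇑(plusQF m F) (goIncl _ _) * outHom ⇑(plusQF m F) (frobPlus m φ)
      rw [← map_mul, ← map_mul]
      congr 1
      apply Subtype.ext
      change (SemidirectProduct.inr φ : GamL (Fin m ⊕ Fin m) F) *
          SemidirectProduct.inl (Cfsg.Agent.Lib.Helper18.refl (plusQF m F) v).1 =
        SemidirectProduct.inl (Cfsg.Agent.Lib.Helper18.refl (plusQF m F) v).1 *
          SemidirectProduct.inr φ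
      ext1
      · simp only [SemidirectProduct.mul_left, SemidirectProduct.left_inr,
          SemidirectProduct.right_inr, SemidirectProduct.left_inl, one_mul, map_one, mul_one]
        apply Units.ext
        rw [coe_glMap]
        exact reflectionMatrix_map _ φ (isSemiIso_frobPlus m φ) v hvfix
      · simp

end Cfsg.Agent.Lib.Helper49
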