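import Cfsg.Agent.Lib.Helper45.GrSetup

set_option autoImplicit false

/-! Rung FIXB of helper45's ladder GR. -/

namespace Cfsg.Agent.Lib.Helper49

open Cfsg.Lie Matrix Cfsg.Agent.Lib.Helper23 Cfsg.Agent.Lib.Helper22 Cfsg.Agent.Lib.Helper8
  Cfsg.Agent.Lib.Helper45

variable {D : ChevalleyDatum} {F : Type*} [Field F] {b : Bundle D F}
  {σ : GL D.Idx F → GL D.Idx F} {ρ ρ' : ℕ → ℕ} {c : ℕ → F → F} {orbs : List (List ℕ)}
  {cert : List (List ℕ × List (List ℕ))} {G1 : Subgroup (GL D.Idx F)}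

/-- FIXB -/
theorem TwSetup.fix_le (X : TwSetup D F b σ ρ ρ' c orbs cert G1)
    (hN : ∀ n ∈ D.monomialSubgroup F, σ n = n →
      ∃ m ∈ G1, m ∈ D.monomialSubgroup F ∧ m⁻¹ * n ∈ D.diagonalSubgroup F)
    (hH : ∀ h ∈ D.diagonalSubgroup F, σ h = h → h ∈ G1) :
    ∀ g ∈ D.group F, σ g = g → g ∈ G1 := by
  intro g hg hfix
  have hS := X.sharp
  have hσ := X.hσ
  have P := bruhatPack_of_mem F X.hD
  obtain ⟨b0, hb0, n, hn, u, hu, rfl⟩ := P.ex g hg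
  obtain ⟨u1, hu1, h, hh, rfl⟩ := (b.hA.mem_borel_iff b.hT).1 hb0
  -- the new monomial element
  set n0 := h * n with hn0
  have hn0N : n0 ∈ D.monomialSubgroup F := mul_mem (hS.H_le_N hh) hn
  have hh2 : n⁻¹ * h * n ∈ D.diagonalSubgroup F := hS.H_norm' hn hh
  have hu0 : u ∈ Umin D F n0 := by
    have h1 := Umin_mul_diag P (m := n0) (inv_mem hh2)
    have e : n0 * (n⁻¹ * h * n)⁻¹ = n := by rw [hn0]; group
    rw [e] at h1
    exact h1 hu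
  have e0 : u1 * h * n * u = u1 * n0 * u := by rw [hn0]; group
  rw [e0] at hfix ⊢
  have hu1G := b.hA.pos_le_group hu1
  have hn0G := hS.N_le hn0N
  have huU := hS.Um_le n0 hu0
  have huG := b.hA.pos_le_group huU
  rw [hσ.mul _ (mul_mem hu1G hn0G) _ huG, hσ.mul _ hu1G _ hn0G] at hfix
  have hsu1 := hσ.map_pos b u1 hu1
  have hsn0 := hσ.map_mono b n0 hn0N
  have hsu := hσ.map_Umin b n0 hn0N u hu0
  have hk := (hS.uniq u1 (σ u1) n0 (σ n0) u (σ u) (hS.U_le hu1) (hS.U_le hsu1) hn0N hsn0 hu0 hsu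
    hfix.symm).1
  set k := n0⁻¹ * σ n0 with hkdef
  have esn : σ n0 = n0 * k := by rw [hkdef]; group
  have hsu' : σ u ∈ Umin D F n0 := by
    rw [esn] at hsu
    exact Umin_mul_diag P hk hsu
  have hk' : n0 * k * n0⁻¹ ∈ D.diagonalSubgroup F := hS.H_norm n0 hn0N k hk
  have e1 : σ u1 * σ n0 * σ u = (σ u1 * (n0 * k * n0⁻¹)) * n0 * σ u := by rw [esn]; group
  rw [e1] at hfix
  obtain ⟨e2, e3⟩ := (hS.uniq _ _ n0 n0 _ _ (mul_mem (hS.U_le hsu1) (hS.H_le_B hk')) (hS.U_le hu1)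
    hn0N hn0N hsu' hu0 hfix).2 rfl
  have h3 : n0 * k * n0⁻¹ ∈ D.posUnipotent F ⊓ D.diagonalSubgroup F := by
    refine Subgroup.mem_inf.2 ⟨?_, hk'⟩
    have : n0 * k * n0⁻¹ = (σ u1)⁻¹ * u1 := eq_inv_mul_of_mul_eq e2
    rw [this]
    exact mul_mem (inv_mem hsu1) hu1
  rw [P.UH, Subgroup.mem_bot] at h3
  have e4 : σ u1 = u1 := by rwa [h3, mul_one] at e2
  have e5 : σ n0 = n0 := by
    have : n0 * k = (n0 * k * n0⁻¹) * n0 := by group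
    rw [esn, this, h3, one_mul]
  have hF := X.fixBN
  have m1 : u1 ∈ G1 := hF.U_fix u1 hu1 (mem_FixS.2 ⟨hu1G, e4⟩)
  have m2 : u ∈ G1 := hF.U_fix u huU (mem_FixS.2 ⟨huG, e3⟩)
  obtain ⟨m, hm1, hmN, hmH⟩ := hN n0 hn0N e5
  have hmfix : σ m = m := (mem_FixS.1 (hF.G1_fix hm1)).2
  have hmG := hS.N_le hmN
  have e6 : σ (m⁻¹ * n0) = m⁻¹ * n0 := by
    rw [hσ.mul _ (inv_mem hmG) _ hn0G, sigma_inv hσ.mul hmG, hmfix, e5]
  have m3 : n0 ∈ G1 := by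
    have : n0 = m * (m⁻¹ * n0) := by group
    rw [this]
    exact mul_mem hm1 (hH _ hmH e6)
  exact mul_mem (mul_mem m1 m3) m2

end Cfsg.Agent.Lib.Helper49
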