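import Cfsg.Agent.Lib.Helper45.GrSetup
import Cfsg.Agent.Lib.Helper23.TwHD4

set_option autoImplicit false

/-! Rung TORD4 of helper45's ladder GR. -/

namespace Cfsg.Agent.Lib.Helper49

open Cfsg.Lie Matrix Cfsg.Agent.Lib.Helper23 Cfsg.Agent.Lib.Helper22 Cfsg.Agent.Lib.Helper8
  Cfsg.Agent.Lib.Helper45

variable {K : Type*} [Field K]

/-- second half of `thetaD4_range`, from the fixed point property only -/
theorem thetaD4_of_fixed (hA : AddFact chevD4 K) {q : ℕ} (hq : 1 ≤ q) (φ : K →+* K)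
    (h1 : ∀ t, φ t = t ^ q) (G : GraphConj chevD4 K hA rhoD40 gamD40) {g : GL chevD4.Idx K}
    (hgH : g ∈ chevD4.diagonalSubgroup K) (hfix : sigmaT G φ g = g) :
    g ∈ (thetaD4 hA q).range := by
  have hS := torS_of_mem K Cfsg.Agent.Lib.Helper23.memD4
  have hR := rootFacts_of_mem Cfsg.Agent.Lib.Helper23.memD4
  have hr : chevD4.rank = 4 := by decide +kernel
  obtain ⟨c, hc, rfl⟩ := (hGen_of_mem K Cfsg.Agent.Lib.Helper23.memD4).exists_hP hA hgH
  have hrange : List.range chevD4.rank = [0, 1, 2, 3] := by decide +kernel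
  rw [hrange] at hfix ⊢
  have eL : ([0, 1, 2, 3].map fun i => (i, c i)) = L4 (c 0) (c 1) (c 2) (c 3) := rfl
  rw [eL] at hfix ⊢
  have n0 := hc 0 (by rw [hr]; norm_num)
  have n1 := hc 1 (by rw [hr]; norm_num)
  have n2 := hc 2 (by rw [hr]; norm_num)
  have n3 := hc 3 (by rw [hr]; norm_num)
  generalize c 0 = x0 at *
  generalize c 1 = x1 at *
  generalize c 2 = x2 at *
  generalize c 3 = x3 at *
  have p0 := (map_ne_zero φ).2 n0
  have p1 := (map_ne_zero φ).2 n1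
  have p2 := (map_ne_zero φ).2 n2
  have p3 := (map_ne_zero φ).2 n3
  have hok := L4_ok n0 n1 n2 n3
  rw [sigmaT_hP G φ graphFactsD40 hR (fun p hp => (hok p hp).1)] at hfix
  have e1 : hA.hP ((L4 x0 x1 x2 x3).map fun p => ([2, 1, 3, 0].getD p.1 0, φ p.2)) =
      hA.hP (L4 (φ x3) (φ x1) (φ x0) (φ x2)) := by
    apply hA.hP_eq_of hS _ (L4_ok p3 p1 p0 p2)
    · intro s _
      rw [chiP_L4]
      simp only [chiP, L4, List.map_cons, List.map_nil, List.prod_cons, List.prod_nil, List.getD_cons_zero,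
        List.getD_cons_succ]
      ring
    · intro p hp
      simp only [L4, List.map_cons, List.map_nil, List.mem_cons, List.not_mem_nil, or_false, List.getD_cons_zero,
        List.getD_cons_succ] at hp
      rw [hr]
      rcases hp with rfl | rfl | rfl | rfl <;> simp [*]
  rw [e1] at hfix
  have e2 : hA.hP (L4 (φ x3 / x0) (φ x1 / x1) (φ x0 / x2) (φ x2 / x3)) = 1 := by
    have := L4_mul hA (div_ne_zero p3 n0) (div_ne_zero p1 n1) (div_ne_zero p0 n2) (div_ne_zero p2 n3) n0 n1 n2 n3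
    rw [div_mul_cancel₀ _ n0, div_mul_cancel₀ _ n1, div_mul_cancel₀ _ n2, div_mul_cancel₀ _ n3, hfix] at this
    exact (mul_eq_right.1 this.symm)
  obtain ⟨k1, k0, k2, k3, kp⟩ := kerD4 hA (div_ne_zero p3 n0) (div_ne_zero p1 n1) (div_ne_zero p0 n2)
    (div_ne_zero p2 n3) e2
  set z0 := φ x3 / x0 with hz0
  set z2 := φ x0 / x2 with hz2
  set z3 := φ x2 / x3 with hz3
  have m0 : z0 ≠ 0 := div_ne_zero p3 n0
  have m3 : z3 ≠ 0 := div_ne_zero p2 n3
  have f1 : φ x1 = x1 := by rwa [div_eq_one_iff_eq n1] at k1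
  have f0 : φ x0 = z2 * x2 := by rw [hz2, div_mul_cancel₀ _ n2]
  have f2 : φ x2 = z3 * x3 := by rw [hz3, div_mul_cancel₀ _ n3]
  have g2 : z2 = z3 * z0 := by
    calc z2 = (z0 * z2 * z3) * (z0 ^ 2 * z3 ^ 2) * z2 := by rw [kp, k0, k3]; ring
      _ = (z0 * z2 * z3) ^ 2 * (z3 * z0) := by ring
      _ = _ := by rw [kp]; ring
  have e3 : hA.hP (L4 x0 x1 x2 x3) = hA.hP (L4 (x0 * z3) (x1 * 1) (x2 * z0) (x3 * (z3 * z0))) := by
    rw [L4_mul hA n0 n1 n2 n3 m3 one_ne_zero m0 (mul_ne_zero m3 m0), zetaD4 hA k3 k0, mul_one]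
  rw [e3, mul_one]
  refine ⟨(⟨Units.mk0 x1 n1, FixU.mem_of hq (by simpa [h1] using f1)⟩,
    Units.mk0 (x0 * z3) (mul_ne_zero n0 m3)), ?_⟩
  rw [thetaD4_apply]
  simp only [Units.val_mk0]
  have a1 : φ (x0 * z3) = x2 * z0 := by
    rw [map_mul, map_eq_of_sq_eq_one φ k3, f0, g2]
    calc z3 * z0 * x2 * z3 = x2 * z0 * z3 ^ 2 := by ring
      _ = _ := by rw [k3, mul_one]
  have a2 : φ (x2 * z0) = x3 * (z3 * z0) := by
    rw [map_mul, map_eq_of_sq_eq_one φ k0, f2]
    ring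
  rw [← h1, a1, ← h1, a2]

theorem d4_tor
    (G : GraphConj chevD4 K (bundle_of_mem K Cfsg.Agent.Lib.Helper45.memD4).hA rhoD40 gamD40) :
    ∀ h ∈ chevD4.diagonalSubgroup K, twSigma chevD4 G.P (RingHom.id K) h = h →
      h ∈ twistedD4 K 1 := by
  intro h hh hfix
  have h1 : ∀ t : K, RingHom.id K t = t ^ 1 := fun t => by simp
  have h2 : ∀ t : K, (RingHom.id K ^ 3) t = t := fun t => by simp
  have m := thetaD4_of_fixed _ le_rfl (RingHom.id K) h1 G hh hfix
  rw [thetaD4_range _ le_rfl (RingHom.id K) h1 h2] at m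
  exact m.2

theorem d4_card_tor [Fintype K] :
    Nat.card ↥(chevD4.diagonalSubgroup K ⊓ twistedD4 K 1) = (Fintype.card K - 1) ^ 2 := by
  have b := bundle_of_mem K Cfsg.Agent.Lib.Helper45.memD4
  have hA := b.hA
  have h1 : ∀ t : K, RingHom.id K t = t ^ 1 := fun t => by simp
  have h2 : ∀ t : K, (RingHom.id K ^ 3) t = t := fun t => by simp
  rw [← thetaD4_range hA le_rfl (RingHom.id K) h1 h2]
  have hU : Nat.card Kˣ = Fintype.card K - 1 := by
    classical
    rw [Nat.card_eq_fintype_card, Fintype.card_units]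
  have hF : Nat.card (FixU K 1) = Fintype.card K - 1 := by
    have : FixU K 1 = ⊤ := by
      ext a
      simp [MonoidHom.mem_ker]
    rw [this, Nat.card_congr Subgroup.topEquiv.toEquiv, hU]
  rw [Nat.card_congr (MonoidHom.ofInjective (thetaD4_injective hA (RingHom.id K) h1)).symm.toEquiv,
    Nat.card_prod, hF, hU]
  ring

end Cfsg.Agent.Lib.Helper49
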