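import Cfsg.Agent.Lib.Helper45.GrSetup
import Cfsg.Agent.Lib.Helper23.TwHE6c

set_option autoImplicit false

/-! Rung TORE6 of helper45's ladder GR. -/

namespace Cfsg.Agent.Lib.Helper49

open Cfsg.Lie Matrix Cfsg.Agent.Lib.Helper23 Cfsg.Agent.Lib.Helper22 Cfsg.Agent.Lib.Helper8
  Cfsg.Agent.Lib.Helper45

variable {K : Type*} [Field K]

/-- second half of `thetaE6_range`, from the fixed point property only -/
theorem thetaE6_of_fixed (hA : AddFact chevE6 K) {q : ℕ} (hq : 1 ≤ q) (φ : K →+* K)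
    (h1 : ∀ t, φ t = t ^ q) (h2 : ∀ t, (φ ^ 2) t = t)
    (G : GraphConj chevE6 K hA rhoE60 gamE60) {g : GL chevE6.Idx K}
    (hgH : g ∈ chevE6.diagonalSubgroup K) (hfix : sigmaT G φ g = g) :
    g ∈ (thetaE6 hA q).range := by
  have hS := torS_of_mem K Cfsg.Agent.Lib.Helper23.memE6
  have hR := rootFacts_of_mem Cfsg.Agent.Lib.Helper23.memE6
  have hφ2 : ∀ t, φ (φ t) = t := fun t => by
    have := h2 t
    rwa [pow_two, RingHom.mul_def, RingHom.comp_apply] at this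
  obtain ⟨c, hc, rfl⟩ := (hGen_of_mem K Cfsg.Agent.Lib.Helper23.memE6).exists_hP hA hgH
  have hrange : List.range chevE6.rank = [0, 1, 2, 3, 4, 5] := by decide +kernel
  have hr : chevE6.rank = 6 := by decide +kernel
  rw [hrange] at hfix ⊢
  have eL : ([0, 1, 2, 3, 4, 5].map fun i => (i, c i)) = L6 (c 0) (c 1) (c 2) (c 3) (c 4) (c 5) := rfl
  rw [eL] at hfix ⊢
  have n0 := hc 0 (by rw [hr]; norm_num)
  have n1 := hc 1 (by rw [hr]; norm_num)
  have n2 := hc 2 (by rw [hr]; norm_num)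
  have n3 := hc 3 (by rw [hr]; norm_num)
  have n4 := hc 4 (by rw [hr]; norm_num)
  have n5 := hc 5 (by rw [hr]; norm_num)
  generalize c 0 = x0 at *
  generalize c 1 = x1 at *
  generalize c 2 = x2 at *
  generalize c 3 = x3 at *
  generalize c 4 = x4 at *
  generalize c 5 = x5 at *
  have p0 := (map_ne_zero φ).2 n0
  have p1 := (map_ne_zero φ).2 n1
  have p2 := (map_ne_zero φ).2 n2
  have p3 := (map_ne_zero φ).2 n3
  have p4 := (map_ne_zero φ).2 n4
  have p5 := (map_ne_zero φ).2 n5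
  have hok := L6_ok n0 n1 n2 n3 n4 n5
  rw [sigmaT_hP G φ graphFactsE60 hR (fun p hp => (hok p hp).1)] at hfix
  have e1 : hA.hP ((L6 x0 x1 x2 x3 x4 x5).map fun p => ([5, 1, 4, 3, 2, 0].getD p.1 0, φ p.2)) =
      hA.hP (L6 (φ x5) (φ x1) (φ x4) (φ x3) (φ x2) (φ x0)) := by
    apply hA.hP_eq_of hS _ (L6_ok p5 p1 p4 p3 p2 p0)
    · intro s _
      rw [chiP_L6]
      simp only [chiP, L6, List.map_cons, List.map_nil, List.prod_cons, List.prod_nil, List.getD_cons_zero,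
        List.getD_cons_succ]
      ring
    · intro p hp
      simp only [L6, List.map_cons, List.map_nil, List.mem_cons, List.not_mem_nil, or_false, List.getD_cons_zero,
        List.getD_cons_succ] at hp
      rw [hr]
      rcases hp with rfl | rfl | rfl | rfl | rfl | rfl <;> simp [*]
  rw [e1] at hfix
  -- the quotient lies in the kernel
  have e2 : hA.hP (L6 (φ x5 / x0) (φ x1 / x1) (φ x4 / x2) (φ x3 / x3) (φ x2 / x4) (φ x0 / x5)) = 1 := by
    have := L6_mul hA (div_ne_zero p5 n0) (div_ne_zero p1 n1) (div_ne_zero p4 n2) (div_ne_zero p3 n3)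
      (div_ne_zero p2 n4) (div_ne_zero p0 n5) n0 n1 n2 n3 n4 n5
    rw [div_mul_cancel₀ _ n0, div_mul_cancel₀ _ n1, div_mul_cancel₀ _ n2, div_mul_cancel₀ _ n3,
      div_mul_cancel₀ _ n4, div_mul_cancel₀ _ n5, hfix] at this
    exact (mul_eq_right.1 this.symm)
  obtain ⟨k1, k3, k0, k2, k4, k5⟩ := kerE6 hA (div_ne_zero p5 n0) (div_ne_zero p1 n1) (div_ne_zero p4 n2)
    (div_ne_zero p3 n3) (div_ne_zero p2 n4) (div_ne_zero p0 n5) e2
  set z := φ x5 / x0 with hz
  have hz0 : z ≠ 0 := div_ne_zero p5 n0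
  have f1 : φ x1 = x1 := by rwa [div_eq_one_iff_eq n1] at k1
  have f3 : φ x3 = x3 := by rwa [div_eq_one_iff_eq n3] at k3
  have f2 : φ x2 = z * x4 := by rw [← k4, div_mul_cancel₀ _ n4]
  have f0 : φ x0 = z ^ 2 * x5 := by rw [← k5, div_mul_cancel₀ _ n5]
  have fz : φ z = z := by
    have : φ z * z ^ 2 = z * z ^ 2 := by
      rw [hz, map_div₀, hφ2, f0, ← hz]
      have : z * z ^ 2 = 1 := by rw [← k0]; ring
      rw [this]
      field_simp
    exact mul_right_cancel₀ (pow_ne_zero 2 hz0) this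
  have hw : (z ^ 2) ^ 3 = 1 := by rw [← pow_mul, mul_comm, pow_mul, k0, one_pow]
  have e3 : hA.hP (L6 x0 x1 x2 x3 x4 x5) =
      hA.hP (L6 (x0 * z ^ 2) (x1 * 1) (x2 * (z ^ 2) ^ 2) (x3 * 1) (x4 * z ^ 2) (x5 * (z ^ 2) ^ 2)) := by
    rw [L6_mul hA n0 n1 n2 n3 n4 n5 (pow_ne_zero 2 hz0) one_ne_zero (pow_ne_zero 2 (pow_ne_zero 2 hz0)) one_ne_zero
      (pow_ne_zero 2 hz0) (pow_ne_zero 2 (pow_ne_zero 2 hz0)), zetaE6 hA hw, mul_one]
  have hz4 : (z ^ 2) ^ 2 = z := by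
    calc (z ^ 2) ^ 2 = z ^ 3 * z := by ring
      _ = z := by rw [k0, one_mul]
  rw [e3, hz4, mul_one, mul_one]
  refine ⟨(⟨Units.mk0 x1 n1, FixU.mem_of hq (by simpa [h1] using f1)⟩,
    ⟨Units.mk0 x3 n3, FixU.mem_of hq (by simpa [h1] using f3)⟩,
    Units.mk0 (x0 * z ^ 2) (mul_ne_zero n0 (pow_ne_zero 2 hz0)), Units.mk0 (x2 * z) (mul_ne_zero n2 hz0)), ?_⟩
  rw [thetaE6_apply]
  simp only [Units.val_mk0]
  rw [← h1, ← h1, map_mul, map_mul, map_pow, fz, f2, f0]
  congr 2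
  · ring
  · calc z ^ 2 * x5 * z ^ 2 = x5 * (z ^ 3 * z) := by ring
      _ = x5 * z := by rw [k0, one_mul]

theorem e6_tor
    (G : GraphConj chevE6 K (bundle_of_mem K Cfsg.Agent.Lib.Helper45.memE6).hA rhoE60 gamE60) :
    ∀ h ∈ chevE6.diagonalSubgroup K, twSigma chevE6 G.P (RingHom.id K) h = h →
      h ∈ twistedE6 K 1 := by
  intro h hh hfix
  have h1 : ∀ t : K, RingHom.id K t = t ^ 1 := fun t => by simp
  have h2 : ∀ t : K, (RingHom.id K ^ 2) t = t := fun t => by simp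
  have m := thetaE6_of_fixed _ le_rfl (RingHom.id K) h1 h2 G hh hfix
  rw [thetaE6_range _ le_rfl (RingHom.id K) h1 h2] at m
  exact m.2

theorem e6_card_tor [Fintype K] :
    Nat.card ↥(chevE6.diagonalSubgroup K ⊓ twistedE6 K 1) = (Fintype.card K - 1) ^ 4 := by
  have b := bundle_of_mem K Cfsg.Agent.Lib.Helper45.memE6
  have hA := b.hA
  have h1 : ∀ t : K, RingHom.id K t = t ^ 1 := fun t => by simp
  have h2 : ∀ t : K, (RingHom.id K ^ 2) t = t := fun t => by simp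
  rw [← thetaE6_range hA le_rfl (RingHom.id K) h1 h2]
  have hU : Nat.card Kˣ = Fintype.card K - 1 := by
    classical
    rw [Nat.card_eq_fintype_card, Fintype.card_units]
  have hF : Nat.card (FixU K 1) = Fintype.card K - 1 := by
    have : FixU K 1 = ⊤ := by
      ext a
      simp [MonoidHom.mem_ker]
    rw [this, Nat.card_congr Subgroup.topEquiv.toEquiv, hU]
  have hinj : Function.Injective (thetaE6 hA 1) := by
    rw [injective_iff_map_eq_one]
    intro x hx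
    obtain ⟨e1, e2, e3, e4⟩ := (thetaE6_ker_iff hA x).1 hx
    have e5 : x.2.2.1 = 1 := by
      have : Nat.gcd 3 (1 + 1) = 1 := by norm_num
      rwa [this, pow_one] at e4
    rw [e5, one_pow] at e3
    exact Prod.ext e1 (Prod.ext e2 (Prod.ext e5 e3))
  rw [Nat.card_congr (MonoidHom.ofInjective hinj).symm.toEquiv,
    Nat.card_prod, Nat.card_prod, Nat.card_prod, hF, hU]
  ring

end Cfsg.Agent.Lib.Helper49
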