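import Cfsg.Agent.Lib.Helper45.GrSetup
import Cfsg.Agent.Lib.Helper22.GenSimple
import Cfsg.Agent.Lib.Helper22.ChevGr5
import Cfsg.Agent.Lib.Helper23.AutStd
import Cfsg.Agent.Lib.Helper23.AutG

set_option autoImplicit false
set_option maxRecDepth 1000000

/-! Rung TRD4 of helper45's ladder GR. -/

namespace Cfsg.Agent.Lib.Helper49

open Cfsg.Lie Matrix Cfsg.Agent.Lib.Helper23 Cfsg.Agent.Lib.Helper22 Cfsg.Agent.Lib.Helper45

section generic

variable {D : ChevalleyDatum} {K : Type*} [Field K]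

theorem twSigma_id (P g : GL D.Idx K) : twSigma D P (RingHom.id K) g = P * g * P⁻¹ := by
  unfold twSigma
  congr 2

/-- what a graph automorphism does on the fundamental root elements, when no root is long -/
theorem graph_XG (b : Bundle D K) (hL : ∀ j < D.rank, D.isLong (D.simple j) = false)
    {τ : ↥(D.group K) ≃* ↥(D.group K)} {π : Equiv.Perm (Fin D.rank)}
    (h : ∀ (g : ↥(D.group K)) (i : Fin D.rank) (t : K),
      (((g : GL D.Idx K) : Matrix D.Idx D.Idx K) = D.x K (D.simple i) t →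
        ((τ g : GL D.Idx K) : Matrix D.Idx D.Idx K) =
          D.x K (D.simple (π i)) (t ^ D.graphExp (ringChar K) i (π i))) ∧
      (((g : GL D.Idx K) : Matrix D.Idx D.Idx K) = D.x K (D.neg (D.simple i)) t →
        ((τ g : GL D.Idx K) : Matrix D.Idx D.Idx K) =
          D.x K (D.neg (D.simple (π i))) (t ^ D.graphExp (ringChar K) i (π i))))
    (i : Fin D.rank) (t : K) :
    τ (b.hA.XG (D.simple i) t) = b.hA.XG (D.simple (π i)) t ∧
    τ (b.hA.XG (D.neg (D.simple i)) t) = b.hA.XG (D.neg (D.simple (π i))) t := by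
  have e : D.graphExp (ringChar K) i (π i) = 1 := by
    unfold ChevalleyDatum.graphExp
    rw [hL _ (π i).2]
    simp
  constructor
  · apply Subtype.ext
    apply (b.hA.eq_X_iff _ _ _).1
    rw [(h (b.hA.XG (D.simple i) t) i t).1 (b.hA.coe_X _ _), e, pow_one]
  · apply Subtype.ext
    apply (b.hA.eq_X_iff _ _ _).1
    rw [(h (b.hA.XG (D.neg (D.simple i)) t) i t).2 (b.hA.coe_X _ _), e, pow_one]

/-- an automorphism fixing the fundamental root elements is the identity -/
theorem eq_one_of_XG (b : Bundle D K) {τ : MulAut ↥(D.group K)}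
    (h : ∀ (i : Fin D.rank) (t : K), τ (b.hA.XG (D.simple i) t) = b.hA.XG (D.simple i) t ∧
      τ (b.hA.XG (D.neg (D.simple i)) t) = b.hA.XG (D.neg (D.simple i)) t) : τ = 1 := by
  have h1 := hom_ext_GS b.hA b.hR b.hN τ.toMonoidHom (MonoidHom.id _)
    (fun i hi t => (h ⟨i, hi⟩ t).1) (fun i hi t => (h ⟨i, hi⟩ t).2)
  apply MulEquiv.ext
  intro g
  exact DFunLike.congr_fun h1 g

/-- `τ` and conjugation by `P` agree on the fundamental root elements: they agree. -/
theorem conj_eq_of_XG (b : Bundle D K) (P : GL D.Idx K) {τ : MulAut ↥(D.group K)}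
    (h : ∀ (i : Fin D.rank) (t : K),
      P * b.hA.X (D.simple i) t * P⁻¹ = τ (b.hA.XG (D.simple i) t) ∧
      P * b.hA.X (D.neg (D.simple i)) t * P⁻¹ = τ (b.hA.XG (D.neg (D.simple i)) t))
    (g : ↥(D.group K)) : P * (g : GL D.Idx K) * P⁻¹ = τ g := by
  have h1 := hom_ext_GS b.hA b.hR b.hN
    ((MulAut.conj P).toMonoidHom.comp (D.group K).subtype)
    ((D.group K).subtype.comp τ.toMonoidHom)
    (fun i hi t => (h ⟨i, hi⟩ t).1) (fun i hi t => (h ⟨i, hi⟩ t).2)
  exact DFunLike.congr_fun h1 g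

/-- conjugation by `P` inverts `τ` on the fundamental root elements: it inverts `τ`. -/
theorem conj_inv_of_XG (b : Bundle D K) (P : GL D.Idx K) {τ : MulAut ↥(D.group K)}
    (h : ∀ (i : Fin D.rank) (t : K),
      P * (τ (b.hA.XG (D.simple i) t) : GL D.Idx K) * P⁻¹ = b.hA.X (D.simple i) t ∧
      P * (τ (b.hA.XG (D.neg (D.simple i)) t) : GL D.Idx K) * P⁻¹ = b.hA.X (D.neg (D.simple i)) t)
    (g : ↥(D.group K)) : P * (τ g : GL D.Idx K) * P⁻¹ = g := by
  have h1 := hom_ext_GS b.hA b.hR b.hN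
    ((MulAut.conj P).toMonoidHom.comp ((D.group K).subtype.comp τ.toMonoidHom))
    (D.group K).subtype
    (fun i hi t => (h ⟨i, hi⟩ t).1) (fun i hi t => (h ⟨i, hi⟩ t).2)
  exact DFunLike.congr_fun h1 g

end generic

variable {K : Type*} [Field K]

theorem tabD4_a : ∀ i : Fin chevD4.rank,
    rhoD40 (chevD4.simple i) = chevD4.simple ([2, 1, 3, 0].getD i.val 0) ∧
    gamD40 (chevD4.simple i) = 1 ∧
    rhoD40 (chevD4.neg (chevD4.simple i)) = chevD4.neg (chevD4.simple ([2, 1, 3, 0].getD i.val 0)) ∧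
    gamD40 (chevD4.neg (chevD4.simple i)) = 1 := by decide +kernel

theorem tabD4_b : ∀ i : Fin chevD4.rank,
    rhoD40 (chevD4.simple ([3, 1, 0, 2].getD i.val 0)) = chevD4.simple i ∧
    gamD40 (chevD4.simple ([3, 1, 0, 2].getD i.val 0)) = 1 ∧
    rhoD40 (chevD4.neg (chevD4.simple ([3, 1, 0, 2].getD i.val 0))) = chevD4.neg (chevD4.simple i) ∧
    gamD40 (chevD4.neg (chevD4.simple ([3, 1, 0, 2].getD i.val 0))) = 1 := by decide +kernel

theorem symD4_cases : ∀ p : Equiv.Perm (Fin chevD4.rank), chevD4.IsDiagramSymmetry p →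
    (∀ i, p (p i) = i) ∨ (∀ i, (p i).val = [2, 1, 3, 0].getD i.val 0) ∨
    (∀ i, (p i).val = [3, 1, 0, 2].getD i.val 0) := by
  decide +kernel

theorem d4_transport
    (G : GraphConj chevD4 K (bundle_of_mem K Cfsg.Agent.Lib.Helper45.memD4).hA rhoD40 gamD40)
    (τ : MulAut ↥(chevD4.group K)) (hτ : chevD4.IsGraphAut τ) (hτ3 : orderOf τ = 3)
    (g : ↥(chevD4.group K)) :
    τ g = g ↔ twSigma chevD4 G.P (RingHom.id K) (g : GL chevD4.Idx K) = g := by
  have b := bundle_of_mem K Cfsg.Agent.Lib.Helper45.memD4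
  obtain ⟨π, hπ, h⟩ := hτ
  have hX := graph_XG b notLongD4 h
  rw [twSigma_id]
  have hs : ∀ i : Fin chevD4.rank, chevD4.simple i < chevD4.nroots := fun i => b.hR.simple_lt i.2
  have hn : ∀ i : Fin chevD4.rank, chevD4.neg (chevD4.simple i) < chevD4.nroots :=
    fun i => b.hR.neg_lt (hs i)
  rcases symD4_cases π hπ with h2 | h2 | h2
  · exfalso
    have : τ * τ = 1 := by
      apply eq_one_of_XG b
      intro i t
      rw [MulAut.mul_apply, MulAut.mul_apply, (hX i t).1, (hX i t).2, (hX (π i) t).1,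
        (hX (π i) t).2, h2]
      exact ⟨rfl, rfl⟩
    have h3 : orderOf τ ∣ 2 := orderOf_dvd_of_pow_eq_one (by rw [pow_two, this])
    rw [hτ3] at h3
    omega
  · have key := conj_eq_of_XG b G.P (τ := τ) (by
      intro i t
      obtain ⟨e1, e2, e3, e4⟩ := tabD4_a i
      rw [G.conj _ (hs i), G.conj _ (hn i), (hX i t).1, (hX i t).2, e1, e2, e3, e4, h2 i]
      simp)
    rw [key g]
    exact ⟨fun e => congrArg Subtype.val e, fun e => Subtype.ext e⟩
  · have key := conj_inv_of_XG b G.P (τ := τ) (by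
      intro i t
      obtain ⟨e1, e2, e3, e4⟩ := tabD4_b i
      rw [(hX i t).1, (hX i t).2, AddFact.coe_XG, AddFact.coe_XG, G.conj _ (hs _), G.conj _ (hn _),
        h2 i, e1, e2, e3, e4]
      simp)
    constructor
    · intro e
      have := key g
      rwa [e] at this
    · intro e
      have h4 := key g
      apply Subtype.ext
      have h5 : G.P * (τ g : GL chevD4.Idx K) * G.P⁻¹ = G.P * (g : GL chevD4.Idx K) * G.P⁻¹ := by
        rw [h4, e]
      exact mul_left_cancel (mul_right_cancel h5)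

end Cfsg.Agent.Lib.Helper49
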