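import Cfsg.Agent.Lib.Helper49.GrTRD4

set_option autoImplicit false
set_option maxRecDepth 1000000

/-! Rung TRE6 of helper45's ladder GR. -/

namespace Cfsg.Agent.Lib.Helper49

open Cfsg.Lie Matrix Cfsg.Agent.Lib.Helper23 Cfsg.Agent.Lib.Helper22 Cfsg.Agent.Lib.Helper45

variable {K : Type*} [Field K]

theorem tabE6_a : ∀ i : Fin chevE6.rank,
    rhoE60 (chevE6.simple i) = chevE6.simple ([5, 1, 4, 3, 2, 0].getD i.val 0) ∧
    gamE60 (chevE6.simple i) = 1 ∧
    rhoE60 (chevE6.neg (chevE6.simple i)) =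
      chevE6.neg (chevE6.simple ([5, 1, 4, 3, 2, 0].getD i.val 0)) ∧
    gamE60 (chevE6.neg (chevE6.simple i)) = 1 := by decide +kernel

theorem symE6_cases : ∀ p : Equiv.Perm (Fin chevE6.rank), chevE6.IsDiagramSymmetry p →
    (∀ i, p i = i) ∨ (∀ i, (p i).val = [5, 1, 4, 3, 2, 0].getD i.val 0) := by
  decide +kernel

theorem e6_transport
    (G : GraphConj chevE6 K (bundle_of_mem K Cfsg.Agent.Lib.Helper45.memE6).hA rhoE60 gamE60)
    (φ : MulAut ↥(chevE6.group K)) (hφ : chevE6.IsGraphAut φ) (h1 : φ ≠ 1)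
    (g : ↥(chevE6.group K)) :
    φ g = g ↔ twSigma chevE6 G.P (RingHom.id K) (g : GL chevE6.Idx K) = g := by
  have b := bundle_of_mem K Cfsg.Agent.Lib.Helper45.memE6
  obtain ⟨π, hπ, h⟩ := hφ
  have hX := graph_XG b notLongE6 h
  rw [twSigma_id]
  have hs : ∀ i : Fin chevE6.rank, chevE6.simple i < chevE6.nroots := fun i => b.hR.simple_lt i.2
  have hn : ∀ i : Fin chevE6.rank, chevE6.neg (chevE6.simple i) < chevE6.nroots :=
    fun i => b.hR.neg_lt (hs i)
  rcases symE6_cases π hπ with h2 | h2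
  · exfalso
    apply h1
    apply eq_one_of_XG b
    intro i t
    rw [(hX i t).1, (hX i t).2, h2]
    exact ⟨rfl, rfl⟩
  · have key := conj_eq_of_XG b G.P (τ := φ) (by
      intro i t
      obtain ⟨e1, e2, e3, e4⟩ := tabE6_a i
      rw [G.conj _ (hs i), G.conj _ (hn i), (hX i t).1, (hX i t).2, e1, e2, e3, e4, h2 i]
      simp)
    rw [key g]
    exact ⟨fun e => congrArg Subtype.val e, fun e => Subtype.ext e⟩

end Cfsg.Agent.Lib.Helper49
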