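import Mathlib
import Cfsg.Agent.Lib.Helper49.OmegaTrans
import Cfsg.Agent.Lib.Helper50.QuadIso

set_option autoImplicit false

namespace Cfsg.Agent.Lib.Helper49

open QuadraticMap Module

section

variable {F V : Type*} [Field F] [Fintype F] [AddCommGroup V] [Module F V] [FiniteDimensional F V]
  (Q : QuadraticForm F V)

/-- an even dimensional nondegenerate quadratic space over a finite field has a similitude of
ratio `-1` -/
theorem exists_anti_isometry (hQ : (polarBilin Q).Nondegenerate) (hev : Even (finrank F V)) :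
    ∃ τ : V ≃ₗ[F] V, ∀ v, Q (τ v) = - Q v := by
  obtain ⟨k, hk⟩ := hev
  rcases Nat.eq_zero_or_pos k with rfl | hpos
  · refine ⟨LinearEquiv.refl F V, fun v => ?_⟩
    have : Subsingleton V := Module.finrank_zero_iff.1 (by omega)
    rw [Subsingleton.elim v 0]
    simp
  · obtain ⟨d, rfl⟩ : ∃ d, k = d + 1 := ⟨k - 1, by omega⟩
    have h1 : Cfsg.Agent.Lib.Helper50.Quad.Nondeg Q ⊤ := Cfsg.Agent.Lib.Helper50.Quad.nondeg_top hQ
    have h2 : Cfsg.Agent.Lib.Helper50.Quad.Nondeg (-Q) ⊤ := by
      intro w hw hw0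
      obtain ⟨w', hw', h⟩ := h1 w hw hw0
      refine ⟨w', hw', ?_⟩
      have : polar (⇑(-Q)) w w' = - polar Q w w' := by
        simp only [polar, neg_apply]; ring
      rw [this]
      exact neg_ne_zero.2 h
    obtain ⟨g, hg⟩ := Cfsg.Agent.Lib.Helper50.Quad.iso_of_card_sing (Q := Q) (Q' := -Q) d
      (by omega) (by omega) h1 h2 (by
        apply Nat.card_congr
        exact Equiv.subtypeEquivRight (fun v => by simp))
    refine ⟨g, fun v => ?_⟩
    have := hg v
    rw [neg_apply] at this
    rw [← this]; ring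

/-- if `W` is nondegenerate of even dimension and isometric to a subspace `U` orthogonal to it,
then `W + U` contains a totally singular subspace of dimension `dim W` -/
theorem exists_singular_of_isometric_halves (W U : Submodule F V)
    (hW : W ⊓ LinearMap.BilinForm.orthogonal (polarBilin Q) W = ⊥) (hev : Even (finrank F W))
    (hWU : ∀ w ∈ W, ∀ u ∈ U, polar Q w u = 0) (θ : W ≃ₗ[F] U)
    (hθ : ∀ w : W, Q (θ w : V) = Q (w : V)) :
    ∃ L : Submodule F V, L ≤ W ⊔ U ∧ (∀ x ∈ L, Q x = 0) ∧ finrank F L = finrank F W := by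
  obtain ⟨τ, hτ⟩ := exists_anti_isometry (resQ Q W) (resQ_nondegenerate_of_inf_eq_bot Q W hW) hev
  let φ : W →ₗ[F] V := W.subtype + U.subtype.comp (θ.toLinearMap.comp τ.toLinearMap)
  have hφ : ∀ w : W, φ w = (w : V) + (θ (τ w) : V) := fun w => rfl
  refine ⟨LinearMap.range φ, ?_, ?_, ?_⟩
  · rintro _ ⟨w, rfl⟩
    rw [hφ]
    exact Submodule.add_mem_sup w.2 (θ (τ w)).2
  · rintro _ ⟨w, rfl⟩
    rw [hφ, Q_add_eq, hθ, hWU _ w.2 _ (θ (τ w)).2]
    have := hτ w
    simp only [resQ_apply] at this
    rw [this]; ring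
  · apply LinearMap.finrank_range_of_inj
    intro w w' h
    rw [hφ, hφ] at h
    -- the difference lies in `W ∩ U`, which is orthogonal to `W`
    have h1 : ((w - w' : W) : V) = ((θ (τ w') - θ (τ w) : U) : V) := by
      push_cast
      rw [sub_eq_sub_iff_add_eq_add, h, add_comm]
    have h2 : ((w - w' : W) : V) ∈ W ⊓ LinearMap.BilinForm.orthogonal (polarBilin Q) W := by
      refine ⟨(w - w').2, ?_⟩
      intro n hn
      change polar Q n _ = 0
      rw [h1]
      exact hWU n hn _ (θ (τ w') - θ (τ w)).2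
    rw [hW, Submodule.mem_bot] at h2
    have h3 : w - w' = 0 := Subtype.ext h2
    exact sub_eq_zero.1 h3

end

end Cfsg.Agent.Lib.Helper49
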