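import Mathlib
import Cfsg.Agent.Lib.Helper49.LagrBetween
import Cfsg.Agent.Lib.Helper49.OmegaTrans2

set_option autoImplicit false

namespace Cfsg.Agent.Lib.Helper49

open QuadraticMap Module
open Cfsg.Agent.Lib.Helper95 (stabGrp omG mem_stabGrp_of_forall)

section

variable {F V : Type*} [Field F] [Fintype F] [AddCommGroup V] [Module F V] [FiniteDimensional F V]
  (Q : QuadraticForm F V)

/-- in a space of plus type every totally singular subspace of dimension `n/2 - 1` lies in a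
Lagrangian -/
theorem exists_lagr_ge (hQ : (polarBilin Q).Nondegenerate) (hd : 5 ≤ finrank F V)
    {U₀ : Submodule F V} (hU₀ : IsLagr Q U₀) {W : Submodule F V} (hW : ∀ w ∈ W, Q w = 0)
    (hdim : 2 * (finrank F W + 1) = finrank F V) : ∃ W₁, IsLagr Q W₁ ∧ W ≤ W₁ := by
  have hk := hU₀.finrank_eq hQ
  obtain ⟨e, he, he0⟩ : ∃ e ∈ U₀, e ≠ 0 := by
    have : 0 < finrank F U₀ := by omega
    obtain ⟨e, he⟩ := Module.finrank_pos_iff_exists_ne_zero.1 this
    exact ⟨e, e.2, fun h => he (Subtype.ext h)⟩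
  obtain ⟨z, hz⟩ := exists_polar_eq_one Q hQ he0
  have h1 := finrank_inf_ker_add_one U₀ (polarBilin Q z) ⟨e, he, by
    rw [polarBilin_apply_apply, polar_comm, hz]; exact one_ne_zero⟩
  obtain ⟨g, -, hg⟩ := exists_commutator_map_of_singular Q hQ (Or.inr (by omega))
    (U₀ ⊓ LinearMap.ker (polarBilin Q z)) W (by omega) (by omega)
    (fun u hu => hU₀.1 u hu.1) hW
  refine ⟨U₀.map (g.1 : V →ₗ[F] V), hU₀.map g, ?_⟩
  rw [← hg]
  exact Submodule.map_mono inf_le_left

/-- the stabiliser in `Ω` of a totally singular subspace of dimension `n/2 - 1` (plus type)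
is strictly contained in the stabiliser of a Lagrangian -/
theorem lagr_hyperplane_between (hQ : (polarBilin Q).Nondegenerate) (hd : 5 ≤ finrank F V)
    {W₁ : Submodule F V} (hW₁ : IsLagr Q W₁) {W : Submodule F V} (hWW : W ≤ W₁)
    (hdim : 2 * (finrank F W + 1) = finrank F V) :
    omG Q ⊓ stabGrp W ≤ stabGrp W₁ ∧
    (∃ g ∈ omG Q, g ∈ stabGrp W₁ ∧ g ∉ stabGrp W) ∧
      ∃ g ∈ omG Q, g ∉ stabGrp W₁ := by
  have hk := hW₁.finrank_eq hQ
  have n1 : (1 : F) ≠ 0 := one_ne_zero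
  have h0 := hW₁.1
  obtain ⟨d, hd', hd0⟩ : ∃ e ∈ W, e ≠ 0 := by
    have : 0 < finrank F W := by omega
    obtain ⟨e, he⟩ := Module.finrank_pos_iff_exists_ne_zero.1 this
    exact ⟨e, e.2, fun h => he (Subtype.ext h)⟩
  have hd1 : d ∈ W₁ := hWW hd'
  obtain ⟨w, hw1, hwW⟩ : ∃ w ∈ W₁, w ∉ W := by
    by_contra hcon
    push Not at hcon
    have := Submodule.finrank_mono (show W₁ ≤ W from hcon)
    omega
  have hwd : ∀ c : F, w ≠ c • d := by
    intro c hc
    apply hwW
    rw [hc]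
    exact W.smul_mem _ hd'
  have hw0 : w ≠ 0 := by
    intro h
    apply hwd 0
    rw [h, zero_smul]
  have hdw : ∀ c : F, d ≠ c • w := by
    intro c hc
    by_cases hc0 : c = 0
    · rw [hc0, zero_smul] at hc; exact hd0 hc
    · apply hwd c⁻¹
      rw [hc, smul_smul, inv_mul_cancel₀ hc0, one_smul]
  have hdd : polar Q d d = 0 := polar_eq_zero_of_singular h0 hd1 hd1
  have hww : polar Q w w = 0 := polar_eq_zero_of_singular h0 hw1 hw1
  have hdw' : polar Q d w = 0 := polar_eq_zero_of_singular h0 hd1 hw1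
  obtain ⟨x, hQx, hxd, hxw⟩ : ∃ x, Q x = 1 ∧ polar Q x d = 1 ∧ polar Q x w = 0 := by
    obtain ⟨u, hu1, hu2⟩ := exists_dual_pair Q hQ hd0 hwd 1 0
    refine ⟨u + (1 - Q u) • d, ?_, ?_, ?_⟩
    · rw [Q_add_eq, QuadraticMap.map_smul, h0 _ hd1, polar_smul_right, polar_comm Q u d, hu1]
      simp
    · rw [polar_add_left, polar_smul_left, hdd, polar_comm Q u d, hu1]; simp
    · rw [polar_add_left, polar_smul_left, hdw', polar_comm Q u w, hu2]; simp
  obtain ⟨y, hQy, hyd⟩ : ∃ y, Q y = 1 ∧ polar Q y d = 0 := by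
    obtain ⟨u, hu1, hu2⟩ := exists_dual_pair Q hQ hw0 hdw 1 0
    refine ⟨u + (1 - Q u) • w, ?_, ?_⟩
    · rw [Q_add_eq, QuadraticMap.map_smul, h0 _ hw1, polar_smul_right, polar_comm Q u w, hu1]
      simp
    · rw [polar_add_left, polar_smul_left, polar_comm Q w d, hdw', polar_comm Q u d, hu2]; simp
  refine ⟨?_, ?_, ?_⟩
  · rintro _ ⟨⟨g, hg, rfl⟩, hgW⟩
    apply mem_stabGrp_of_map_eq
    change W₁.map (g.1 : V →ₗ[F] V) = W₁
    have h2 := IsLagr.even_finrank_inf_map_of_mem_commutator Q hQ (Or.inr (by omega)) hW₁ hW₁ hg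
    rw [inf_idem] at h2
    have h3 : W ≤ W₁ ⊓ W₁.map (g.1 : V →ₗ[F] V) := by
      apply le_inf hWW
      have h4 := map_eq_of_mem_stabGrp hgW
      change W.map (g.1 : V →ₗ[F] V) = W at h4
      rw [← h4]
      exact Submodule.map_mono hWW
    have h5 := Submodule.finrank_mono h3
    have h6 := Submodule.finrank_mono (inf_le_left : W₁ ⊓ W₁.map (g.1 : V →ₗ[F] V) ≤ W₁)
    have h7 : finrank F ↥(W₁ ⊓ W₁.map (g.1 : V →ₗ[F] V)) = finrank F W₁ := by
      rw [Nat.even_iff] at h2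
      omega
    have h8 : W₁ ⊓ W₁.map (g.1 : V →ₗ[F] V) = W₁ := Submodule.eq_of_le_of_finrank_eq inf_le_left h7
    exact (hW₁.eq_of_le (hW₁.map g) (inf_eq_left.1 h8)).symm
  · have hQxe : Q (x + w) = 1 := by rw [Q_add_eq, hQx, h0 _ hw1, hxw]; ring
    refine ⟨(refl Q x * refl Q (x + w)).1, ⟨_, refl_mul_refl_mem_commutator_of_eq Q hQ _ _
      (by rw [hQx]; exact n1) (by rw [hQx, hQxe]), rfl⟩, ?_, ?_⟩
    · apply mem_stabGrp_of_forall
      intro v hv
      simp only [Subgroup.coe_mul, LinearEquiv.mul_apply, refl_coe_apply]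
      rw [siegel_apply Q hQx (h0 _ hw1) hxw, polar_eq_zero_of_singular h0 hw1 hv, zero_smul,
        add_zero]
      exact W₁.sub_mem hv (W₁.smul_mem _ hw1)
    · intro hst
      have h2 := (hst d).1 hd'
      simp only [Subgroup.coe_mul, LinearEquiv.mul_apply, refl_coe_apply] at h2
      rw [siegel_apply Q hQx (h0 _ hw1) hxw, polar_comm Q w d, hdw', hxd, zero_smul, add_zero,
        add_zero, one_smul] at h2
      apply hwW
      have h4 : w = d - (d - w) := by abel
      rw [h4]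
      exact W.sub_mem hd' h2
  · refine ⟨(refl Q x * refl Q y).1, ⟨_, refl_mul_refl_mem_commutator_of_eq Q hQ _ _
      (by rw [hQx]; exact n1) (by rw [hQx, hQy]), rfl⟩, ?_⟩
    intro hst
    have h2 := (hst d).1 hd1
    simp only [Subgroup.coe_mul, LinearEquiv.mul_apply, refl_coe_apply] at h2
    rw [reflLin_of_polar_eq_zero Q y d hyd, reflLin_apply, hQx, hxd] at h2
    have h3 : x ∈ W₁ := by
      have h4 : x = d - (d - ((1 : F)⁻¹ * 1) • x) := by
        simp
      rw [h4]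
      exact W₁.sub_mem hd1 h2
    rw [h0 _ h3] at hQx
    exact n1 hQx.symm

end

end Cfsg.Agent.Lib.Helper49
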