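import Mathlib
import Cfsg.Agent.Lib.Helper49.PlusParity
import Cfsg.Agent.Lib.Helper49.WittUse

set_option autoImplicit false

namespace Cfsg.Agent.Lib.Helper49

open QuadraticMap Module Matrix

section SumFormula

variable {F V : Type*} [Field F] [AddCommGroup V] [Module F V] (Q : QuadraticForm F V)

theorem polar_list_sum_right (v : V) (l : List V) :
    polar Q v l.sum = (l.map (fun u => polar Q v u)).sum := by
  induction l with
  | nil => simp
  | cons a l ih => simp [polar_add_right, ih]

/-- explicit formula for a product of pairwise orthogonal reflections -/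
theorem reflProd_apply_of_pairwise (vs : List V) (hp : vs.Pairwise (fun u v => polar Q u v = 0))
    (x : V) : (reflProd Q vs).1 x = x - (vs.map (fun v => ((Q v)⁻¹ * polar Q v x) • v)).sum := by
  induction vs with
  | nil => simp
  | cons v vs ih =>
    rw [List.pairwise_cons] at hp
    rw [reflProd_cons, Subgroup.coe_mul, LinearEquiv.mul_apply, ih hp.2, refl_coe_apply,
      reflLin_apply, polar_sub_right, polar_list_sum_right]
    have h0 : ((vs.map (fun v => ((Q v)⁻¹ * polar Q v x) • v)).map (fun u => polar Q v u)).sum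
        = 0 := by
      apply List.sum_eq_zero
      intro y hy
      simp only [List.map_map, List.mem_map, Function.comp_apply] at hy
      obtain ⟨u, hu, rfl⟩ := hy
      rw [polar_smul_right, hp.1 u hu, smul_zero]
    rw [h0, sub_zero]
    simp only [List.map_cons, List.sum_cons]
    abel

end SumFormula

section PlusDickson

variable {m : ℕ} {F : Type*} [Field F]

theorem finrank_map_inf_map (g : OG (plusQF m F)) (U W : Submodule F (Fin m ⊕ Fin m → F)) :
    finrank F ↥(U.map (g.1 : (Fin m ⊕ Fin m → F) →ₗ[F] (Fin m ⊕ Fin m → F)) ⊓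
      W.map (g.1 : (Fin m ⊕ Fin m → F) →ₗ[F] (Fin m ⊕ Fin m → F))) = finrank F ↥(U ⊓ W) := by
  rw [← Submodule.map_inf _ g.1.injective]
  exact LinearEquiv.finrank_map_eq g.1 _

/-- the Dickson-type homomorphism given by the action on the two families of Lagrangians -/
noncomputable def plusDickson (m : ℕ) (F : Type*) [Field F] :
    OG (plusQF m F) →* Multiplicative (ZMod 2) where
  toFun g := Multiplicative.ofAdd (((m - finrank F ↥(stdLagr m F ⊓ (stdLagr m F).map
    (g.1 : (Fin m ⊕ Fin m → F) →ₗ[F] (Fin m ⊕ Fin m → F))) : ℕ)) : ZMod 2)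
  map_one' := by
    have : (stdLagr m F).map (((1 : OG (plusQF m F))).1 :
        (Fin m ⊕ Fin m → F) →ₗ[F] (Fin m ⊕ Fin m → F)) = stdLagr m F := by
      simp
    rw [this, inf_idem, finrank_stdLagr]
    simp
  map_mul' g h := by
    rw [← ofAdd_add, ← Nat.cast_add]
    congr 1
    have hL := isLagr_stdLagr (m := m) (F := F)
    have e : (stdLagr m F).map ((g * h).1 : (Fin m ⊕ Fin m → F) →ₗ[F] (Fin m ⊕ Fin m → F)) =
        ((stdLagr m F).map (h.1 : (Fin m ⊕ Fin m → F) →ₗ[F] (Fin m ⊕ Fin m → F))).map
          (g.1 : (Fin m ⊕ Fin m → F) →ₗ[F] (Fin m ⊕ Fin m → F)) := by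
      rw [← Submodule.map_comp]
      rfl
    have h1 := even_codim_triangle hL (hL.map g) ((hL.map h).map g)
    rw [finrank_map_inf_map, ← e] at h1
    rw [ZMod.natCast_eq_natCast_iff']
    rw [Nat.even_iff] at h1
    omega

theorem plusDickson_eq_one_iff (g : OG (plusQF m F)) : plusDickson m F g = 1 ↔
    Even (m - finrank F ↥(stdLagr m F ⊓ (stdLagr m F).map
      (g.1 : (Fin m ⊕ Fin m → F) →ₗ[F] (Fin m ⊕ Fin m → F)))) := by
  change Multiplicative.ofAdd _ = Multiplicative.ofAdd 0 ↔ _
  rw [Multiplicative.ofAdd.injective.eq_iff, ZMod.natCast_eq_zero_iff_even]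

/-- elements of the commutator subgroup preserve the two families -/
theorem even_of_mem_commutator (g : OG (plusQF m F)) (hg : g ∈ commutator (OG (plusQF m F))) :
    Even (m - finrank F ↥(stdLagr m F ⊓ (stdLagr m F).map
      (g.1 : (Fin m ⊕ Fin m → F) →ₗ[F] (Fin m ⊕ Fin m → F)))) := by
  rw [← plusDickson_eq_one_iff]
  exact Abelianization.commutator_subset_ker (plusDickson m F) hg

end PlusDickson

end Cfsg.Agent.Lib.Helper49
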