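import Mathlib
import Cfsg.Agent.Lib.Helper49.PlusDickson
import Cfsg.Agent.Lib.Helper49.SpinorMat

set_option autoImplicit false

namespace Cfsg.Agent.Lib.Helper49

open QuadraticMap Module Matrix
open scoped commutatorElement

section Levi

variable {m : ℕ} {F : Type*} [Field F]

theorem quadFormPlus_eq_dotProduct (v : Fin m ⊕ Fin m → F) :
    Cfsg.quadFormPlus m F v = (v ∘ Sum.inl) ⬝ᵥ (v ∘ Sum.inr) := rfl

theorem mulVec_dotProduct_mulVec (A B : Matrix (Fin m) (Fin m) F) (x y : Fin m → F) :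
    (A *ᵥ x) ⬝ᵥ (B *ᵥ y) = x ⬝ᵥ ((Aᵀ * B) *ᵥ y) := by
  rw [Matrix.dotProduct_mulVec, ← Matrix.vecMul_transpose, Matrix.vecMul_vecMul,
    ← Matrix.dotProduct_mulVec]

/-- the matrix `diag(A, A⁻ᵀ)` -/
noncomputable abbrev leviMat (A : Matrix (Fin m) (Fin m) F) :
    Matrix (Fin m ⊕ Fin m) (Fin m ⊕ Fin m) F :=
  Matrix.fromBlocks A 0 0 (A⁻¹)ᵀ

theorem leviMat_mul (A B : Matrix (Fin m) (Fin m) F) :
    leviMat (A * B) = leviMat A * leviMat B := by
  simp [leviMat, Matrix.fromBlocks_multiply, Matrix.mul_inv_rev, Matrix.transpose_mul]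

theorem leviMat_one : leviMat (1 : Matrix (Fin m) (Fin m) F) = 1 := by
  simp [leviMat]

theorem quadFormPlus_leviMat (A : Matrix (Fin m) (Fin m) F) (hA : IsUnit A.det)
    (v : Fin m ⊕ Fin m → F) :
    Cfsg.quadFormPlus m F (leviMat A *ᵥ v) = Cfsg.quadFormPlus m F v := by
  rw [quadFormPlus_eq_dotProduct, quadFormPlus_eq_dotProduct, fromBlocks_diag_mulVec_inl,
    fromBlocks_diag_mulVec_inr, mulVec_dotProduct_mulVec, ← Matrix.transpose_mul,
    Matrix.nonsing_inv_mul A hA, Matrix.transpose_one, Matrix.one_mulVec]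

/-- the Levi embedding `A ↦ diag(A, A⁻ᵀ)` of `GL_m` in the orthogonal group of the hyperbolic
form -/
noncomputable def leviHom (m : ℕ) (F : Type*) [Field F] :
    Matrix.GeneralLinearGroup (Fin m) F →* ↥(Cfsg.isometryGroup F ⇑(plusQF m F)) where
  toFun A := ⟨⟨leviMat (A : Matrix (Fin m) (Fin m) F),
      leviMat ((A⁻¹ : Matrix.GeneralLinearGroup (Fin m) F) : Matrix (Fin m) (Fin m) F),
      by rw [← leviMat_mul, ← Units.val_mul, mul_inv_cancel, Units.val_one, leviMat_one],
      by rw [← leviMat_mul, ← Units.val_mul, inv_mul_cancel, Units.val_one, leviMat_one]⟩, by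
    rw [mem_isometryGroup_iff, plusQF_coe]
    intro v
    exact quadFormPlus_leviMat _ ((Matrix.isUnit_iff_isUnit_det _).1 A.isUnit) v⟩
  map_one' := by
    apply isometryGroup_ext
    exact leviMat_one
  map_mul' A B := by
    apply isometryGroup_ext
    exact leviMat_mul _ _

theorem leviHom_coe (A : Matrix.GeneralLinearGroup (Fin m) F) :
    (((leviHom m F A : ↥(Cfsg.isometryGroup F ⇑(plusQF m F))) :
      Matrix.GeneralLinearGroup (Fin m ⊕ Fin m) F) : Matrix (Fin m ⊕ Fin m) (Fin m ⊕ Fin m) F) =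
      leviMat (A : Matrix (Fin m) (Fin m) F) := rfl

/-- product of the reflections in `e_i - d_i f_i` -/
theorem twist_aux (d : Fin m → F) (hd : ∀ i, d i ≠ 0) :
    ∃ vs : List (Fin m ⊕ Fin m → F), (∀ v ∈ vs, plusQF m F v ≠ 0) ∧ vs.length = m ∧
      (vs.map (plusQF m F)).prod = ∏ i, (-d i) ∧
      ∀ (v : Fin m ⊕ Fin m → F) (j : Fin m),
        (reflProd (plusQF m F) vs).1 v (Sum.inl j) = (d j)⁻¹ * v (Sum.inr j) ∧
        (reflProd (plusQF m F) vs).1 v (Sum.inr j) = d j * v (Sum.inl j) := by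
  classical
  let u : Fin m → (Fin m ⊕ Fin m → F) :=
    fun i => Pi.single (Sum.inl i) 1 - Pi.single (Sum.inr i) (d i)
  have hQ : ∀ i, plusQF m F (u i) = -d i := by
    intro i
    rw [plusQF_coe]
    simp only [Cfsg.quadFormPlus, u, Pi.sub_apply]
    rw [Finset.sum_eq_single i]
    · simp
    · intro b _ hb
      simp [hb]
    · simp
  have hpol : ∀ i v, polar (plusQF m F) (u i) v = v (Sum.inr i) - d i * v (Sum.inl i) := by
    intro i v
    rw [plusQF_coe, polar_quadFormPlus]
    simp only [u, Pi.sub_apply]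
    rw [Finset.sum_eq_single i]
    · simp; ring
    · intro b _ hb
      simp [hb]
    · simp
  refine ⟨List.ofFn u, ?_, by simp, ?_, ?_⟩
  · intro v hv
    obtain ⟨i, rfl⟩ := (List.mem_ofFn' _ _).1 hv
    rw [hQ i]
    exact neg_ne_zero.2 (hd i)
  · rw [List.map_ofFn, List.prod_ofFn]
    simp only [Function.comp_def, hQ]
  · intro v j
    have hp : (List.ofFn u).Pairwise (fun a b => polar (plusQF m F) a b = 0) := by
      rw [List.pairwise_ofFn]
      intro i k hik
      rw [hpol]
      simp [u, (ne_of_lt hik).symm]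
    rw [reflProd_apply_of_pairwise _ _ hp, List.map_ofFn, List.sum_ofFn]
    simp only [Function.comp_def, hQ, hpol, Pi.sub_apply, Finset.sum_apply, Pi.smul_apply, u,
      smul_eq_mul]
    have hdj := hd j
    constructor
    · rw [Finset.sum_eq_single j]
      · simp; field_simp; ring
      · intro b _ hb
        simp [hb]
      · simp
    · rw [Finset.sum_eq_single j]
      · simp; field_simp; ring
      · intro b _ hb
        simp [hb]
      · simp

/-- `diag(D, D⁻¹)` is a product of `2m` reflections with spinor norm `det D` -/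
theorem leviMat_diagonal (d : Fin m → F) (hd : ∀ i, d i ≠ 0) :
    ∃ vs : List (Fin m ⊕ Fin m → F), (∀ v ∈ vs, plusQF m F v ≠ 0) ∧ Even vs.length ∧
      (vs.map (plusQF m F)).prod = ∏ i, d i ∧
      ∀ v, (reflProd (plusQF m F) vs).1 v = leviMat (Matrix.diagonal d) *ᵥ v := by
  obtain ⟨vs₁, h1, l1, p1, a1⟩ := twist_aux (fun _ : Fin m => (1 : F)) (fun _ => one_ne_zero)
  obtain ⟨vs₂, h2, l2, p2, a2⟩ := twist_aux d hd
  refine ⟨vs₁ ++ vs₂, ?_, ?_, ?_, ?_⟩
  · intro v hv
    rcases List.mem_append.1 hv with h | h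
    · exact h1 v h
    · exact h2 v h
  · rw [List.length_append, l1, l2]
    exact ⟨m, rfl⟩
  · rw [List.map_append, List.prod_append, p1, p2, ← Finset.prod_mul_distrib]
    simp
  · intro v
    rw [reflProd_append, Subgroup.coe_mul, LinearEquiv.mul_apply]
    have hinv : (Matrix.diagonal d)⁻¹ = Matrix.diagonal (fun i => (d i)⁻¹) := by
      apply Matrix.inv_eq_right_inv
      rw [Matrix.diagonal_mul_diagonal]
      simp [hd]
    funext k
    rcases k with k | k
    · rw [(a1 _ k).1, (a2 _ k).2]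
      have := congrFun (fromBlocks_diag_mulVec_inl (Matrix.diagonal d) ((Matrix.diagonal d)⁻¹)ᵀ v) k
      simp only [Function.comp_apply] at this
      rw [this, Matrix.mulVec_diagonal]
      simp
    · rw [(a1 _ k).2, (a2 _ k).1]
      have := congrFun (fromBlocks_diag_mulVec_inr (Matrix.diagonal d) ((Matrix.diagonal d)⁻¹)ᵀ v) k
      simp only [Function.comp_apply] at this
      rw [this, hinv, Matrix.diagonal_transpose, Matrix.mulVec_diagonal]
      simp

end Levi

end Cfsg.Agent.Lib.Helper49
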