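import Mathlib
import Cfsg.Agent.Lib.Helper49.Levi
import Cfsg.Agent.S0836

set_option autoImplicit false

namespace Cfsg.Agent.Lib.Helper49

open QuadraticMap Module Matrix
open scoped commutatorElement

section LeviTransv

variable {m : ℕ} {F : Type*} [Field F]

/-- transvections as invertible matrices -/
def transvGL (i j : Fin m) (hij : i ≠ j) (c : F) : Matrix.GeneralLinearGroup (Fin m) F :=
  ⟨Matrix.transvection i j c, Matrix.transvection i j (-c),
    by rw [Matrix.transvection_mul_transvection_same i j hij]; simp,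
    by rw [Matrix.transvection_mul_transvection_same i j hij]; simp⟩

/-- invertible diagonal matrices -/
def diagGL (d : Fin m → F) (hd : ∀ i, d i ≠ 0) : Matrix.GeneralLinearGroup (Fin m) F :=
  ⟨Matrix.diagonal d, Matrix.diagonal (fun i => (d i)⁻¹),
    by rw [Matrix.diagonal_mul_diagonal]; simp [hd],
    by rw [Matrix.diagonal_mul_diagonal]; simp [hd]⟩

theorem transvection_mul_diagonal_update (i j : Fin m) (hij : i ≠ j) (c₀ c' : F) :
    Matrix.transvection i j (c₀ * c') * Matrix.diagonal (Function.update (fun _ => (1 : F)) i c₀) =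
      Matrix.diagonal (Function.update (fun _ => (1 : F)) i c₀) * Matrix.transvection i j c' := by
  ext a b
  rw [Matrix.mul_diagonal, Matrix.diagonal_mul]
  simp only [Matrix.transvection, Matrix.add_apply, Matrix.one_apply, Matrix.single_apply,
    Function.update_apply]
  by_cases hai : a = i <;> by_cases hbj : b = j <;> by_cases hab : a = b <;>
    by_cases hbi : b = i <;> simp_all [eq_comm]

theorem transvGL_mem_commutator_of_exists (i j : Fin m) (hij : i ≠ j) (c : F)
    (h : ∃ c₀ : F, c₀ ≠ 0 ∧ c₀ ≠ 1) :
    transvGL i j hij c ∈ commutator (Matrix.GeneralLinearGroup (Fin m) F) := by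
  obtain ⟨c₀, h0, h1⟩ := h
  have h1' : c₀ - 1 ≠ 0 := sub_ne_zero.2 h1
  let a := diagGL (Function.update (fun _ => (1 : F)) i c₀) (by
    intro k
    by_cases hk : k = i
    · subst hk; simpa using h0
    · simp [Function.update_of_ne hk])
  let b := transvGL i j hij (c / (c₀ - 1))
  have e : transvGL i j hij c * b * a = a * b := by
    apply Units.ext
    change Matrix.transvection i j c * Matrix.transvection i j (c / (c₀ - 1)) *
      Matrix.diagonal _ = Matrix.diagonal _ * Matrix.transvection i j (c / (c₀ - 1))
    rw [Matrix.transvection_mul_transvection_same i j hij,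
      ← transvection_mul_diagonal_update i j hij]
    congr 2
    field_simp
    ring
  have e2 : transvGL i j hij c = ⁅a, b⁆ := by
    rw [commutatorElement_def, ← e]
    group
  rw [e2, commutator_def]
  exact Subgroup.commutator_mem_commutator (Subgroup.mem_top _) (Subgroup.mem_top _)

theorem transvGL_mem_commutator_of_three_le (hm : 3 ≤ m) (i j : Fin m) (hij : i ≠ j) (c : F) :
    transvGL i j hij c ∈ commutator (Matrix.GeneralLinearGroup (Fin m) F) := by
  let t : Matrix.SpecialLinearGroup (Fin m) F :=
    ⟨Matrix.transvection i j c, Matrix.det_transvection_of_ne i j hij c⟩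
  have ht := Cfsg.Agent.S0836.result m (Or.inl hm) i j hij c t rfl
  have h1 : t ∈ commutator (Matrix.SpecialLinearGroup (Fin m) F) := by
    rw [commutator_eq_closure]
    exact Subgroup.subset_closure ht
  have h2 := map_mem_commutator (Matrix.SpecialLinearGroup.toGL (n := Fin m) (R := F)) h1
  have e : Matrix.SpecialLinearGroup.toGL t = transvGL i j hij c := by
    apply Units.ext
    rfl
  rwa [e] at h2

theorem exists_ne_zero_ne_one [Fintype F] (h : Fintype.card F ≠ 2) :
    ∃ c₀ : F, c₀ ≠ 0 ∧ c₀ ≠ 1 := by
  classical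
  by_contra hcon
  push Not at hcon
  apply h
  rw [← Nat.card_eq_fintype_card, Nat.card_eq_two_iff]
  refine ⟨0, 1, zero_ne_one, ?_⟩
  ext x
  simp only [Set.mem_insert_iff, Set.mem_singleton_iff, Set.mem_univ, iff_true]
  by_cases hx : x = 0
  · exact Or.inl hx
  · exact Or.inr (hcon x hx)

theorem transvGL_mem_commutator [Fintype F] (h : Fintype.card F ≠ 2 ∨ m ≠ 2) (i j : Fin m)
    (hij : i ≠ j) (c : F) :
    transvGL i j hij c ∈ commutator (Matrix.GeneralLinearGroup (Fin m) F) := by
  by_cases hF : Fintype.card F = 2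
  · have hm2 : m ≠ 2 := by tauto
    apply transvGL_mem_commutator_of_three_le
    have h1 := i.2
    have h2 := j.2
    have h3 : i.1 ≠ j.1 := fun h => hij (Fin.ext h)
    omega
  · exact transvGL_mem_commutator_of_exists i j hij c (exists_ne_zero_ne_one hF)

theorem leviHom_transvGL_mem_Omega [Fintype F] (h : Fintype.card F ≠ 2 ∨ m ≠ 2) (i j : Fin m)
    (hij : i ≠ j) (c : F) :
    leviHom m F (transvGL i j hij c) ∈ Cfsg.Omega F ⇑(plusQF m F) :=
  map_mem_commutator (leviHom m F) (transvGL_mem_commutator h i j hij c)

end LeviTransv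

end Cfsg.Agent.Lib.Helper49
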