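import Mathlib
import Cfsg.Agent.Lib.Helper49.LeviTransv
import Cfsg.Agent.Lib.Helper49.EvenProd

set_option autoImplicit false

namespace Cfsg.Agent.Lib.Helper49

open QuadraticMap Module Matrix

section LeviOmega

variable {m : ℕ} {F : Type*} [Field F] [Fintype F]

omit [Fintype F] in
theorem isoEquiv_leviHom_eq (A : Matrix.GeneralLinearGroup (Fin m) F)
    (vs : List (Fin m ⊕ Fin m → F))
    (h : ∀ v, (reflProd (plusQF m F) vs).1 v = leviMat (A : Matrix (Fin m) (Fin m) F) *ᵥ v) :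
    isoEquiv (plusQF m F) (leviHom m F A) = reflProd (plusQF m F) vs := by
  apply Subtype.ext
  ext v : 1
  rw [h v]
  rfl

omit [Fintype F] in
theorem GL_eq_mul_of_coe {A : Matrix.GeneralLinearGroup (Fin m) F}
    {M₁ M₂ : Matrix (Fin m) (Fin m) F} (h1 : M₁.det ≠ 0) (h2 : M₂.det ≠ 0)
    (hA : (A : Matrix (Fin m) (Fin m) F) = M₁ * M₂) :
    A = Matrix.GeneralLinearGroup.mkOfDetNeZero M₁ h1 *
      Matrix.GeneralLinearGroup.mkOfDetNeZero M₂ h2 := by
  apply Units.ext
  rw [hA]
  rfl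

/-- in characteristic two the whole Levi subgroup lies in `Ω` -/
theorem leviHom_mem_Omega_char_two (h2 : (2 : F) = 0) (h : Fintype.card F ≠ 2 ∨ m ≠ 2)
    (A : Matrix.GeneralLinearGroup (Fin m) F) : leviHom m F A ∈ Cfsg.Omega F ⇑(plusQF m F) := by
  have key : ∀ (M : Matrix (Fin m) (Fin m) F), M.det ≠ 0 →
      ∀ A : Matrix.GeneralLinearGroup (Fin m) F, (A : Matrix (Fin m) (Fin m) F) = M →
        leviHom m F A ∈ Cfsg.Omega F ⇑(plusQF m F) := by
    intro M hM
    refine Matrix.diagonal_transvection_induction_of_det_ne_zero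
      (fun M => ∀ A : Matrix.GeneralLinearGroup (Fin m) F, (A : Matrix (Fin m) (Fin m) F) = M →
        leviHom m F A ∈ Cfsg.Omega F ⇑(plusQF m F)) M hM ?_ ?_ ?_
    · intro d hd A hA
      rw [Matrix.det_diagonal, Finset.prod_ne_zero_iff] at hd
      obtain ⟨vs, hvs, hlen, _, hact⟩ := leviMat_diagonal d (fun i => hd i (Finset.mem_univ i))
      rw [mem_Omega_iff, isoEquiv_leviHom_eq A vs (by rw [hA]; exact hact)]
      exact reflProd_mem_commutator_of_even_of_isSquare _ (plusQF_nondegenerate m F) vs hvs hlen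
        (isSquare_of_two_eq_zero h2 _)
    · intro t A hA
      have : A = transvGL t.i t.j t.hij t.c := Units.ext hA
      rw [this]
      exact leviHom_transvGL_mem_Omega h _ _ _ _
    · intro M₁ M₂ h1 h2 ih1 ih2 A hA
      rw [GL_eq_mul_of_coe h1 h2 hA, map_mul]
      exact Subgroup.mul_mem _ (ih1 _ rfl) (ih2 _ rfl)
  exact key _ ((Matrix.isUnit_iff_isUnit_det _).1 A.isUnit).ne_zero A rfl

/-- in odd characteristic the spinor norm of `diag(A, A⁻ᵀ)` is `det A` -/
theorem leviHom_spinor (h2 : (2 : F) ≠ 0) (h : Fintype.card F ≠ 2 ∨ m ≠ 2)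
    (A : Matrix.GeneralLinearGroup (Fin m) F) :
    ∃ vs : List (Fin m ⊕ Fin m → F), (∀ v ∈ vs, plusQF m F v ≠ 0) ∧ Even vs.length ∧
      IsSquare ((vs.map (plusQF m F)).prod * (A : Matrix (Fin m) (Fin m) F).det) ∧
      isoEquiv (plusQF m F) (leviHom m F A) = reflProd (plusQF m F) vs := by
  have key : ∀ (M : Matrix (Fin m) (Fin m) F), M.det ≠ 0 →
      ∀ A : Matrix.GeneralLinearGroup (Fin m) F, (A : Matrix (Fin m) (Fin m) F) = M →
        ∃ vs : List (Fin m ⊕ Fin m → F), (∀ v ∈ vs, plusQF m F v ≠ 0) ∧ Even vs.length ∧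
          IsSquare ((vs.map (plusQF m F)).prod * M.det) ∧
          isoEquiv (plusQF m F) (leviHom m F A) = reflProd (plusQF m F) vs := by
    intro M hM
    refine Matrix.diagonal_transvection_induction_of_det_ne_zero
      (fun M => ∀ A : Matrix.GeneralLinearGroup (Fin m) F, (A : Matrix (Fin m) (Fin m) F) = M →
        ∃ vs : List (Fin m ⊕ Fin m → F), (∀ v ∈ vs, plusQF m F v ≠ 0) ∧ Even vs.length ∧
          IsSquare ((vs.map (plusQF m F)).prod * M.det) ∧
          isoEquiv (plusQF m F) (leviHom m F A) = reflProd (plusQF m F) vs) M hM ?_ ?_ ?_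
    · intro d hd A hA
      rw [Matrix.det_diagonal, Finset.prod_ne_zero_iff] at hd
      obtain ⟨vs, hvs, hlen, hprod, hact⟩ := leviMat_diagonal d (fun i => hd i (Finset.mem_univ i))
      refine ⟨vs, hvs, hlen, ?_, isoEquiv_leviHom_eq A vs (by rw [hA]; exact hact)⟩
      rw [hprod, Matrix.det_diagonal]
      exact ⟨_, rfl⟩
    · intro t A hA
      have : A = transvGL t.i t.j t.hij t.c := Units.ext hA
      have h3 := leviHom_transvGL_mem_Omega h t.i t.j t.hij t.c
      rw [← this, mem_Omega_iff] at h3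
      obtain ⟨vs, k1, k2, k3, k4⟩ := commutator_le_spinKer _
        (exists_reflProd_eq _ h2 (plusQF_nondegenerate m F)) h3
      refine ⟨vs, k1, k2, ?_, k4⟩
      rw [Matrix.TransvectionStruct.det, mul_one]
      exact k3
    · intro M₁ M₂ h1 h2 ih1 ih2 A hA
      obtain ⟨vs, a1, a2, a3, a4⟩ := ih1 (Matrix.GeneralLinearGroup.mkOfDetNeZero M₁ h1) rfl
      obtain ⟨ws, b1, b2, b3, b4⟩ := ih2 (Matrix.GeneralLinearGroup.mkOfDetNeZero M₂ h2) rfl
      refine ⟨vs ++ ws, ?_, ?_, ?_, ?_⟩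
      · intro v hv
        rcases List.mem_append.1 hv with h | h
        · exact a1 v h
        · exact b1 v h
      · rw [List.length_append]; exact a2.add b2
      · rw [List.map_append, List.prod_append, Matrix.det_mul]
        have := a3.mul b3
        rw [mul_mul_mul_comm] at this
        exact this
      · rw [GL_eq_mul_of_coe h1 h2 hA, map_mul, map_mul, a4, b4, reflProd_append]
  exact key _ ((Matrix.isUnit_iff_isUnit_det _).1 A.isUnit).ne_zero A rfl

/-- `diag(A, A⁻ᵀ) ∈ Ω` iff `det A` is a square -/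
theorem leviHom_mem_Omega_iff (h : Fintype.card F ≠ 2 ∨ m ≠ 2)
    (A : Matrix.GeneralLinearGroup (Fin m) F) :
    leviHom m F A ∈ Cfsg.Omega F ⇑(plusQF m F) ↔
      IsSquare (A : Matrix (Fin m) (Fin m) F).det := by
  by_cases h2 : (2 : F) = 0
  · exact ⟨fun _ => isSquare_of_two_eq_zero h2 _, fun _ => leviHom_mem_Omega_char_two h2 h A⟩
  · obtain ⟨vs, k1, k2, k3, k4⟩ := leviHom_spinor h2 h A
    rw [mem_Omega_iff, k4, reflProd_mem_commutator_iff _ h2 (plusQF_nondegenerate m F) vs k1]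
    have hP := prod_Q_ne_zero (plusQF m F) vs k1
    have hdet : (A : Matrix (Fin m) (Fin m) F).det ≠ 0 :=
      ((Matrix.isUnit_iff_isUnit_det _).1 A.isUnit).ne_zero
    constructor
    · rintro ⟨_, hs⟩
      exact (isSquare_mul_iff_of_isSquare hs hP).1 k3
    · intro hs
      rw [mul_comm] at k3
      exact ⟨k2, (isSquare_mul_iff_of_isSquare hs hdet).1 k3⟩

end LeviOmega

end Cfsg.Agent.Lib.Helper49
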