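import Cfsg.Agent.Lib.Helper49.MilTABE8D

set_option autoImplicit false
set_option maxRecDepth 1000000
set_option maxHeartbeats 0

namespace Cfsg.Agent.Lib.Lead.Mil
open Cfsg.Lie Cfsg.Agent.Lib.Helper22

theorem mtE8_H5 : ∀ r < 40, ∀ s < tbE8.n, ipF tbE8 (40 * 5 + r) s = dc (ipLook tbE8.n ipTE8 (40 * 5 + r) s) := by
  decide +kernel

end Cfsg.Agent.Lib.Lead.Mil
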