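import Cfsg.Agent.Lib.Helper49.MilTABE8H0
import Cfsg.Agent.Lib.Helper49.MilTABE8H1
import Cfsg.Agent.Lib.Helper49.MilTABE8H2
import Cfsg.Agent.Lib.Helper49.MilTABE8H3
import Cfsg.Agent.Lib.Helper49.MilTABE8H4
import Cfsg.Agent.Lib.Helper49.MilTABE8H5
import Cfsg.Agent.Lib.Helper49.MilTABE8C0
import Cfsg.Agent.Lib.Helper49.MilTABE8C1
import Cfsg.Agent.Lib.Helper49.MilTABE8C2
import Cfsg.Agent.Lib.Helper49.MilTABE8C3
import Cfsg.Agent.Lib.Helper49.MilTABE8X0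
import Cfsg.Agent.Lib.Helper49.MilTABE8X1
import Cfsg.Agent.Lib.Helper49.MilTABE8Y0
import Cfsg.Agent.Lib.Helper49.MilTABE8Y1

set_option autoImplicit false
set_option maxRecDepth 1000000
set_option maxHeartbeats 0

namespace Cfsg.Agent.Lib.Lead.Mil
open Cfsg.Lie Cfsg.Agent.Lib.Helper22

theorem mtE8_H : ∀ r < tbE8.n, ∀ s < tbE8.n, ipF tbE8 r s = dc (ipLook tbE8.n ipTE8 r s) :=
  forall_lt_of_chunks 40 6 (by norm_num) (fun j hj => by
    interval_cases j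
    · exact mtE8_H0
    · exact mtE8_H1
    · exact mtE8_H2
    · exact mtE8_H3
    · exact mtE8_H4
    · exact mtE8_H5)

theorem mtE8_C : ∀ r < tbE8.n, ∀ s < tbE8.n, s ≠ r → s ≠ tbE8.n - 1 - r → commOK tbE8 ipTE8 r s = true :=
  forall_lt_of_chunks 60 4 (by norm_num) (fun j hj => by
    interval_cases j
    · exact mtE8_C0
    · exact mtE8_C1
    · exact mtE8_C2
    · exact mtE8_C3)

theorem mtE8_X : ∀ r < tbE8.n, ∀ s < tbE8.n, ex1OK tbE8.n ipTE8 w1TE8 r s = true :=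
  forall_lt_of_chunks 120 2 (by norm_num) (fun j hj => by
    interval_cases j
    · exact mtE8_X0
    · exact mtE8_X1)

theorem mtE8_Y : ∀ r < tbE8.n, ∀ s < tbE8.n, ex2OK tbE8.n ipTE8 w2TE8 r s = true :=
  forall_lt_of_chunks 120 2 (by norm_num) (fun j hj => by
    interval_cases j
    · exact mtE8_Y0
    · exact mtE8_Y1)

theorem mtE8_vec_neg : ∀ r < tbE8.n, ∀ i < tbE8.l,
    dc (coLook tbE8.l tbE8.CO (tbE8.n - 1 - r) i) = - dc (coLook tbE8.l tbE8.CO r i) := by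
  decide +kernel

theorem mtE8_ip_symm : ∀ r < tbE8.n, ∀ s < tbE8.n,
    ipLook tbE8.n ipTE8 r s = ipLook tbE8.n ipTE8 s r := by
  decide +kernel

theorem mtE8_ip_self : ∀ r < tbE8.n, ipLook tbE8.n ipTE8 r r = 4 := by
  decide +kernel

theorem mtE8_ip_le : ∀ r < tbE8.n, ∀ s < tbE8.n,
    dc (ipLook tbE8.n ipTE8 r s) ≤ 2 ∧ (dc (ipLook tbE8.n ipTE8 r s) = 2 → s = r) := by
  decide +kernel

theorem milTab_E8 : MilTab chevE8 :=
  milTab_of tbE8_valid hszE8 rfl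
    ⟨mtE8_H, mtE8_vec_neg, mtE8_ip_symm, mtE8_ip_self, mtE8_ip_le, mtE8_C, mtE8_X, mtE8_Y⟩

end Cfsg.Agent.Lib.Lead.Mil
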