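import Cfsg.Agent.Lib.Lead.Mil.Root
import Cfsg.Agent.Lib.Helper22.ChevCF2

/-!
# Ladder MIL, table rungs: reduction of `MilTab D` to checks on number-coded tables
-/

set_option autoImplicit false

namespace Cfsg.Agent.Lib.Lead.Mil
open Cfsg.Lie Cfsg.Agent.Lib.Helper22

/-- entry `(r, s)` of a table of 4-bit codes -/
noncomputable def ipLook (n IP r s : ℕ) : ℕ :=
  Nat.land (Nat.shiftRight IP (Nat.mul 4 (Nat.add (Nat.mul r n) s))) 15

/-- entry `(r, s)` of a table of bytes -/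
noncomputable def wLook (n W r s : ℕ) : ℕ :=
  Nat.land (Nat.shiftRight W (Nat.mul 8 (Nat.add (Nat.mul r n) s))) 255

/-- the Cartan integer from the number-coded tables -/
noncomputable def ipF (T : Tb) (r s : ℕ) : ℤ :=
  ((List.range T.l).map fun i => dc (coLook T.l T.CO r i) * (- dc (caLook T.n T.CA i s))).sum

noncomputable def commOK (T : Tb) (IP r s : ℕ) : Bool :=
  match ceF T r s, ceF T s r with
  | [], _ => decide (0 ≤ dc (ipLook T.n IP r s))
  | [(k, c)], [(k', c')] =>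
      decide (dc (ipLook T.n IP r s) = -1 ∧ k < T.n ∧ (c = 1 ∨ c = -1) ∧ k' = k ∧ c' = -c ∧
        ∀ i < T.l, dc (coLook T.l T.CO k i) = dc (coLook T.l T.CO r i) + dc (coLook T.l T.CO s i))
  | _, _ => false

noncomputable def ex1OK (n IP W r s : ℕ) : Bool :=
  decide (0 ≤ dc (ipLook n IP r s) → wLook n W r s < n ∧ dc (ipLook n IP s (wLook n W r s)) = 1 ∧
    0 ≤ dc (ipLook n IP r (wLook n W r s)) ∧ dc (ipLook n IP r (wLook n W r s)) ≤ dc (ipLook n IP r s))

noncomputable def ex2OK (n IP W r s : ℕ) : Bool :=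
  decide (dc (ipLook n IP r s) = -1 → wLook n W r s < n ∧ dc (ipLook n IP s (wLook n W r s)) = 1 ∧
    dc (ipLook n IP r (wLook n W r s)) = 0)

structure MilTabF (T : Tb) (IP W1 W2 : ℕ) : Prop where
  hip : ∀ r < T.n, ∀ s < T.n, ipF T r s = dc (ipLook T.n IP r s)
  vec_neg : ∀ r < T.n, ∀ i < T.l, dc (coLook T.l T.CO (T.n - 1 - r) i) = - dc (coLook T.l T.CO r i)
  ip_symm : ∀ r < T.n, ∀ s < T.n, ipLook T.n IP r s = ipLook T.n IP s r
  ip_self : ∀ r < T.n, ipLook T.n IP r r = 4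
  ip_le : ∀ r < T.n, ∀ s < T.n, dc (ipLook T.n IP r s) ≤ 2 ∧ (dc (ipLook T.n IP r s) = 2 → s = r)
  comm : ∀ r < T.n, ∀ s < T.n, s ≠ r → s ≠ T.n - 1 - r → commOK T IP r s = true
  ex1 : ∀ r < T.n, ∀ s < T.n, ex1OK T.n IP W1 r s = true
  ex2 : ∀ r < T.n, ∀ s < T.n, ex2OK T.n IP W2 r s = true

theorem vec_eq_of {T : Tb} {D : ChevalleyDatum} (V : T.Valid D) {r i : ℕ} (hr : r < T.n) (hi : i < T.l) :
    vec D r i = dc (coLook T.l T.CO r i) := V.co_eq hi hr

theorem ip_eq_of {T : Tb} {D : ChevalleyDatum} (V : T.Valid D) {r s : ℕ} (hr : r < T.n) (hs : s < T.n) :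
    ip D r s = ipF T r s := by
  unfold ip ipF
  rw [← V.hl]
  congr 1
  apply List.map_congr_left
  intro i hi
  have hi' : i < T.l := List.mem_range.1 hi
  rw [vec_eq_of V hr hi']
  congr 1
  exact V.ca_eq hi' hs

theorem commTerms_eq_of {T : Tb} {D : ChevalleyDatum} (V : T.Valid D) (hsz : D.chain.size = T.n)
    (hL : T.L = 1) (r s : ℕ) : D.commTerms r s = (ceF T r s).map fun p => (p.1, p.2, 1, 1) := by
  rw [commTerms_eq, chainEntry_eq_ceF V hsz, ← ct1_eq T hL]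
  rfl

theorem milTab_of {T : Tb} {D : ChevalleyDatum} (V : T.Valid D) (hsz : D.chain.size = T.n)
    (hL : T.L = 1) {IP W1 W2 : ℕ} (M : MilTabF T IP W1 W2) : MilTab D := by
  have hn := V.hn
  have hl := V.hl
  have hneg : ∀ r < T.n, D.neg r = T.n - 1 - r := fun r hr => V.neg_eq hr
  have hI : ∀ r < T.n, ∀ s < T.n, ip D r s = dc (ipLook T.n IP r s) := fun r hr s hs => by
    rw [ip_eq_of V hr hs, M.hip r hr s hs]
  refine ⟨?_, ?_, ?_, ?_, ?_, ?_, ?_, ?_⟩
  · intro r hr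
    rw [← hn] at hr ⊢
    rw [hneg r hr]; omega
  · intro r hr i hi
    rw [← hn] at hr
    rw [← hl] at hi
    rw [hneg r hr, vec_eq_of V (by omega) hi, vec_eq_of V hr hi, M.vec_neg r hr i hi]
  · intro r hr s hs
    rw [← hn] at hr hs
    rw [hI r hr s hs, hI s hs r hr, M.ip_symm r hr s hs]
  · intro r hr
    rw [← hn] at hr
    rw [hI r hr r hr, M.ip_self r hr]
    decide
  · intro r hr s hs
    rw [← hn] at hr hs
    rw [hI r hr s hs]
    exact M.ip_le r hr s hs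
  · intro r hr s hs h1 h2
    rw [← hn] at hr hs
    rw [hneg r hr] at h2
    have h := M.comm r hr s hs h1 h2
    rw [hI r hr s hs, commTerms_eq_of V hsz hL, commTerms_eq_of V hsz hL]
    unfold commOK at h
    split at h
    · rename_i h3
      left
      rw [h3]
      exact ⟨of_decide_eq_true h, rfl⟩
    · rename_i k c k' c' h3 h4
      right
      obtain ⟨a1, a2, a3, a4, a5, a6⟩ := of_decide_eq_true h
      refine ⟨a1, k, c, hn ▸ a2, a3, ?_, ?_, ?_⟩
      · rw [h3]; rfl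
      · rw [h4, a4, a5]; rfl
      · intro i hi
        rw [← hl] at hi
        rw [vec_eq_of V a2 hi, vec_eq_of V hr hi, vec_eq_of V hs hi]
        exact a6 i hi
    · exact absurd h (by simp)
  · intro r hr s hs h0
    rw [← hn] at hr hs
    rw [hI r hr s hs] at h0
    obtain ⟨a1, a2, a3, a4⟩ := of_decide_eq_true (M.ex1 r hr s hs) h0
    refine ⟨wLook T.n W1 r s, hn ▸ a1, ?_, ?_, ?_⟩
    · rw [hI s hs _ a1]; exact a2
    · rw [hI r hr _ a1]; exact a3
    · rw [hI r hr _ a1, hI r hr s hs]; exact a4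
  · intro r hr s hs h0
    rw [← hn] at hr hs
    rw [hI r hr s hs] at h0
    obtain ⟨a1, a2, a3⟩ := of_decide_eq_true (M.ex2 r hr s hs) h0
    refine ⟨wLook T.n W2 r s, hn ▸ a1, ?_, ?_⟩
    · rw [hI s hs _ a1]; exact a2
    · rw [hI r hr _ a1]; exact a3

end Cfsg.Agent.Lib.Lead.Mil
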