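import Cfsg.Agent.Lib.Helper49.MinusNoLagr
import Cfsg.Agent.Lib.Helper49.HypPairs
import Cfsg.Agent.Lib.Helper49.CDEvenMain
import Cfsg.Agent.Lib.Helper49.RankParity

set_option autoImplicit false

/-! Rung STB-GEN24 of helper50's ladder: `O⁻(2m+2, q)` is generated by reflections, including
`O₄⁻(2)`. -/

namespace Cfsg.Agent.Lib.Helper49

open QuadraticMap Module

universe u v

section

variable {F : Type u} {V : Type v} [Field F] [AddCommGroup V] [Module F V] (Q : QuadraticForm F V)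

/-- the auxiliary property used in the transitivity argument -/
def Gen24Aux : Prop := ∀ u v : V, Q u = Q v → Q u ≠ 0 → u ≠ v → polar Q u v = 0 →
  ∃ y, Q y ≠ 0 ∧ polar Q y u ≠ 0 ∧ polar Q y v ≠ 0

theorem gen24_map (h2 : (2 : F) = 0) (h : Gen24Aux Q) (u v : V)
    (huv : Q u = Q v) (hu : Q u ≠ 0) :
    ∃ vs : List V, (∀ z ∈ vs, Q z ≠ 0) ∧ (reflProd Q vs).1 u = v := by
  by_cases hne : u = v
  · exact ⟨[], by simp, by simp [hne]⟩
  by_cases h0 : Q (u - v) = 0
  · have h1 : polar Q u v = 0 := by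
      have := Q_sub_smul Q u v 1
      simp only [one_smul, one_pow, one_mul] at this
      rw [h0, huv, polar_comm] at this
      linear_combination this + Q v * h2
    obtain ⟨y, hy1, hy2, hy3⟩ := h u v huv hu hne h1
    obtain ⟨vs, h3, h4, -⟩ := exists_reflProd_map_aux Q u v y huv h0 hy1 hy2 hy3
    exact ⟨vs, h3, h4⟩
  · refine ⟨[u - v], ?_, ?_⟩
    · intro z hz
      simp only [List.mem_cons, List.not_mem_nil, or_false] at hz
      rw [hz]; exact h0
    · simp [reflLin_sub_apply Q u v huv h0]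

theorem gen24_eq [FiniteDimensional F V] (h2 : (2 : F) = 0)
    (hQ : (polarBilin Q).Nondegenerate) (h : Gen24Aux Q) (g : OG Q) :
    ∃ vs : List V, (∀ z ∈ vs, Q z ≠ 0) ∧ g = reflProd Q vs := by
  by_cases hV : ∃ x : V, x ≠ 0
  · obtain ⟨x, hx⟩ := hV
    obtain ⟨u₀, -, hu₀, -⟩ := exists_nonsingular_pair Q h2 hQ hx
    obtain ⟨vs₁, h11, h12⟩ := gen24_map Q h2 h (g.1 u₀) u₀ (OG_apply Q g u₀)
      (by rw [OG_apply]; exact hu₀)
    obtain ⟨vs₂, h21, h22⟩ := stab_eq_reflProd h2 _ V Q rfl hQ u₀ hu₀ (reflProd Q vs₁ * g)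
      (by rw [Subgroup.coe_mul, LinearEquiv.mul_apply, h12])
    refine ⟨vs₁.reverse ++ vs₂, ?_, ?_⟩
    · intro z hz
      rcases List.mem_append.1 hz with h | h
      · exact h11 z (List.mem_reverse.1 h)
      · exact h21 z h
    · rw [reflProd_append, reflProd_reverse, ← h22]
      group
  · push Not at hV
    refine ⟨[], by simp, ?_⟩
    apply Subtype.ext
    ext x
    rw [hV x, hV (g.1 0)]
    simp

/-- the auxiliary property over the field with two elements in dimension 4 when there is no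
totally singular plane -/
theorem gen24_aux [FiniteDimensional F V] (h01 : ∀ x : F, x = 0 ∨ x = 1) (h2 : (2 : F) = 0)
    (hQ : (polarBilin Q).Nondegenerate) (hd : finrank F V = 4)
    (hL : ∀ L : Submodule F V, ¬ IsLagr Q L) : Gen24Aux Q := by
  intro u v huv hu hne h0
  have hself := polar_self_of_two_eq_zero Q h2
  have hu0 : u ≠ 0 := ne_zero_of_Q_ne_zero' Q hu
  have hv0 : v ≠ 0 := ne_zero_of_Q_ne_zero' Q (huv ▸ hu)
  have hy₀ : ∃ y₀, polar Q y₀ u ≠ 0 ∧ polar Q y₀ v ≠ 0 := by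
    obtain ⟨y₁, hy₁⟩ := exists_polar_ne_zero Q hQ hu0
    obtain ⟨y₂, hy₂⟩ := exists_polar_ne_zero Q hQ hv0
    rw [polar_comm] at hy₁ hy₂
    by_cases h3 : polar Q y₁ v = 0
    · by_cases h4 : polar Q y₂ u = 0
      · refine ⟨y₁ + y₂, ?_, ?_⟩
        · rw [polar_add_left, h4, add_zero]; exact hy₁
        · rw [polar_add_left, h3, zero_add]; exact hy₂
      · exact ⟨y₂, h4, hy₂⟩
    · exact ⟨y₁, hy₁, h3⟩
  obtain ⟨y₀, h5, h6⟩ := hy₀
  by_cases h7 : Q y₀ = 0
  swap
  · exact ⟨y₀, h7, h5, h6⟩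
  exfalso
  have e5 : polar Q y₀ u = 1 := (h01 _).resolve_left h5
  have e6 : polar Q y₀ v = 1 := (h01 _).resolve_left h6
  have eu : Q u = 1 := (h01 _).resolve_left hu
  have ev : Q v = 1 := by rw [← huv, eu]
  have hy0 : y₀ ≠ 0 := by
    rintro rfl
    simp at h5
  have hli : LinearIndependent F ![y₀, u + v] := by
    rw [LinearIndependent.pair_iff' hy0]
    intro c hc
    have h8 : polar Q (c • y₀) u = polar Q (u + v) u := by rw [hc]
    rw [polar_smul_left, e5, polar_add_left, hself, polar_comm Q v u, h0, smul_eq_mul, mul_one,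
      add_zero] at h8
    rw [h8, zero_smul] at hc
    apply hne
    have h9 : u = -v := eq_neg_of_add_eq_zero_left hc.symm
    have h10 : -v = v := by
      have : (2 : F) • v = 0 := by rw [h2, zero_smul]
      rw [two_smul] at this
      exact neg_eq_of_add_eq_zero_left this
    rw [h9, h10]
  obtain ⟨S, hS⟩ : ∃ S : Submodule F V, S = Submodule.span F (Set.range ![y₀, u + v]) := ⟨_, rfl⟩
  have hSfr : finrank F S = 2 := by
    rw [hS, finrank_span_eq_card hli]
    simp
  have hsing : ∀ s ∈ S, Q s = 0 := by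
    intro s hs
    rw [hS, Submodule.mem_span_range_iff_exists_fun] at hs
    obtain ⟨c, rfl⟩ := hs
    simp only [Fin.sum_univ_two, Matrix.cons_val_zero, Matrix.cons_val_one]
    rw [Q_add_eq, QuadraticMap.map_smul, QuadraticMap.map_smul, h7, Q_add_eq Q u v, eu, ev, h0,
      polar_smul_left, polar_smul_right, polar_add_right, e5, e6]
    simp only [smul_eq_mul]
    linear_combination (c 1 * c 1 + c 0 * c 1) * h2
  exact hL S (isLagr_of_finrank hQ hsing (by rw [hSfr, hd]))

end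

theorem minus_gen {F : Type*} [Field F] [Fintype F] (m : ℕ) (a b : F)
    (hab : ∀ z₁ z₂ : F, z₁ ^ 2 + a * z₁ * z₂ + b * z₂ ^ 2 = 0 → z₁ = 0 ∧ z₂ = 0)
    (g : OG (minusQF m F a b)) :
    ∃ vs : List ((Fin m ⊕ Fin m) ⊕ Fin 2 → F), (∀ z ∈ vs, minusQF m F a b z ≠ 0) ∧
      g = reflProd (minusQF m F a b) vs := by
  have hQ := minusQF_nondegenerate m F a b (minus_disc_ne_zero a b hab)
  by_cases h : Fintype.card F ≠ 2 ∨ finrank F ((Fin m ⊕ Fin m) ⊕ Fin 2 → F) ≠ 4
  · exact exists_reflProd_eq_finite _ hQ h g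
  · push Not at h
    obtain ⟨hq, hd⟩ := h
    have h2 : (2 : F) = 0 := by
      have := FiniteField.cast_card_eq_zero F
      rw [hq] at this
      exact_mod_cast this
    have h01 : ∀ x : F, x = 0 ∨ x = 1 := by
      intro x
      have h3 := FiniteField.pow_card x
      rw [hq] at h3
      have h4 : x * (x - 1) = 0 := by linear_combination h3
      rcases mul_eq_zero.1 h4 with h5 | h5
      · exact Or.inl h5
      · exact Or.inr (sub_eq_zero.1 h5)
    exact gen24_eq _ h2 hQ (gen24_aux _ h01 h2 hQ hd (not_isLagr_minusQF a b hab hQ)) g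

end Cfsg.Agent.Lib.Helper49
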