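import Cfsg.Agent.Lib.Helper45.StW4

/-! LADDER W2 (S2400, case B2(3)): rung A45 -/

set_option autoImplicit false

namespace Cfsg.Agent.Lib.Helper45.StW

open Cfsg.Lie Matrix Cfsg.Agent.Lib.Helper22 Cfsg.Agent.Lib.Helper23 Cfsg.Agent.Lib.Helper45
  Cfsg.Agent.Lib.Helper23.StP Cfsg.Agent.Lib.Helper45.StV

variable {K : Type*} [Field K] {hA : AddFact chevB2 K} {E : Type*} [Group E]

theorem a45_tab : ∀ r ∈ L2, ∀ s ∈ S2, r < chevB2.nroots ∧ s < chevB2.nroots ∧ s ≠ r ∧ s ≠ chevB2.neg r := by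
  decide +kernel

section partC
variable (C : CY chevB2 K hA E) (hB : B3 C)
include hB

/-- [A45] -/
theorem b3_45 {r s : ℕ} (hr : r ∈ L2) (hs : s ∈ S2) (h0 : chevB2.commTerms r s = []) {y : E} {t : K}
    (hy : C.ρ y = hA.X r t) (u : K) : y * C.Z s u = C.Z s u * y := by
  obtain ⟨hrl, hsl, h1, h2⟩ := a45_tab r hr s hs
  have hg : C.good s := (hB.good_iff s).2 hs
  have hρ : ∀ u, C.ρ (y * C.Z s u * y⁻¹ * (C.Z s u)⁻¹) = 1 := by
    intro u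
    rw [map_mul, map_mul, map_mul, map_inv, map_inv, C.rho_Z memB2 hg, hy, CExt.conj_eq_G memB2 hrl hsl h1 h2]
    simp [ChevalleyDatum.commWord, h0]
  have hcen : ∀ {z : E}, C.ρ z = 1 → ∀ e : E, e * z * e⁻¹ = z := by
    intro z h e
    rw [Subgroup.mem_center_iff.1 (C.cen (MonoidHom.mem_ker.2 h)) e, mul_inv_cancel_right]
  have := bilin_trivial' (fun (_ : K) u => y * C.Z s u * y⁻¹ * (C.Z s u)⁻¹)
    (fun _ u u' => by
      show y * C.Z s (u + u') * y⁻¹ * (C.Z s (u + u'))⁻¹ = _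
      rw [comm_lift C.ρ C.cen (x' := y) (y' := C.Z s u * C.Z s u') rfl
        (by rw [map_mul, C.rho_Z memB2 hg, C.rho_Z memB2 hg, C.rho_Z memB2 hg, hA.X_add])]
      exact comm_mul_right C.ρ C.cen (hρ u')) C.hc1
    (fun _ u => by
      show y * C.Z s (C.c * u) * y⁻¹ * (C.Z s (C.c * u))⁻¹ = y * C.Z s u * y⁻¹ * (C.Z s u)⁻¹
      rw [← hcen (hρ u) (C.hL s), ← C.conj_hL memB2 hsl hg]
      have e1 : C.hL s * (y * C.Z s u * y⁻¹ * (C.Z s u)⁻¹) * (C.hL s)⁻¹ =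
          (C.hL s * y * (C.hL s)⁻¹) * (C.hL s * C.Z s u * (C.hL s)⁻¹) * (C.hL s * y * (C.hL s)⁻¹)⁻¹ *
            (C.hL s * C.Z s u * (C.hL s)⁻¹)⁻¹ := by group
      rw [e1]
      exact comm_lift C.ρ C.cen
        (by rw [map_mul, map_mul, map_inv, C.rho_hL, hy, hB.hh_long s r hr t]) rfl) 0 u
  have h3 : y * C.Z s u * y⁻¹ * (C.Z s u)⁻¹ = 1 := this
  rwa [mul_inv_eq_one, mul_inv_eq_iff_eq_mul] at h3

end partC

end Cfsg.Agent.Lib.Helper45.StW
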