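import Cfsg.Agent.Lib.Helper49.W2ZC
import Cfsg.Agent.Lib.Helper49.W2A45

/-! LADDER W2 (S2400, case B2(3)): rung BBIL -/

set_option autoImplicit false

namespace Cfsg.Agent.Lib.Helper45.StW

open Cfsg.Lie Matrix Cfsg.Agent.Lib.Helper22 Cfsg.Agent.Lib.Helper23 Cfsg.Agent.Lib.Helper45
  Cfsg.Agent.Lib.Helper23.StP Cfsg.Agent.Lib.Helper45.StV

variable {K : Type*} [Field K] {hA : AddFact chevB2 K} {E : Type*} [Group E]

theorem bbil_tab : ∀ p ∈ S2, ∀ q ∈ S2, p < chevB2.nroots ∧ q < chevB2.nroots ∧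
    ∀ c ∈ chevB2.commTerms p q, q ≠ p ∧ q ≠ chevB2.neg p ∧ c.1 ∈ L2 ∧ chevB2.commTerms c.1 p = [] ∧
      chevB2.commTerms c.1 q = [] := by
  decide +kernel

section partC
variable (C : CY chevB2 K hA E) (hB : B3 C)
include hB

/-- [BBIL] -/
theorem b3_bil {p q r : ℕ} {N : ℤ} (hp : p ∈ S2) (hq : q ∈ S2) (hT : chevB2.commTerms p q = [(r, N, 1, 1)]) :
    (∀ t u, C.ρ (Bc C p q t u) = hA.X r ((N : K) * (-t) * u)) ∧
    (∀ t t' u, Bc C p q (t + t') u = Bc C p q t u * Bc C p q t' u) ∧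
    (∀ t u u', Bc C p q t (u + u') = Bc C p q t u * Bc C p q t u') := by
  obtain ⟨hpl, hql, hc⟩ := bbil_tab p hp q hq
  obtain ⟨h1, h2, hrL, hrp, hrq⟩ := hc (r, N, 1, 1) (by rw [hT]; exact List.mem_singleton.2 rfl)
  have hgp : C.good p := (hB.good_iff p).2 hp
  have hgq : C.good q := (hB.good_iff q).2 hq
  have hρ : ∀ t u, C.ρ (Bc C p q t u) = hA.X r ((N : K) * (-t) * u) := by
    intro t u
    rw [Bc]
    simp only [map_mul, map_inv, C.rho_Z memB2 hgp, C.rho_Z memB2 hgq]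
    rw [comm_G memB2 hA hpl hql h1 h2]
    simp only [ChevalleyDatum.commWord, hT, List.map_cons, List.map_nil, WW_cons, WW_nil, mul_one]
    congr 1
    rw [pow_one, pow_one]
  have cp : ∀ t u s, Bc C p q t u * C.Z p s = C.Z p s * Bc C p q t u := fun t u s =>
    b3_45 C hB hrL hp hrp (hρ t u) s
  have cq : ∀ t u s, Bc C p q t u * C.Z q s = C.Z q s * Bc C p q t u := fun t u s =>
    b3_45 C hB hrL hq hrq (hρ t u) s
  refine ⟨hρ, ?_, ?_⟩
  · have key : ∀ t t' u, Bc C p q (t + t') u = Bc C p q t' u * Bc C p q t u := by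
      intro t t' u
      have e1 : Bc C p q (t + t') u = Bc C p q t' u * ((C.Z p t')⁻¹ * (Bc C p q t u * C.Z p t')) := by
        rw [Bc, Bc, Bc, C.Z_add memB2 hgp (b3_zc C hB hp)]
        group
      rw [e1, cp, inv_mul_cancel_left]
    intro t t' u
    rw [add_comm, key]
  · intro t u u'
    have e1 : Bc C p q t (u + u') = (C.Z q u')⁻¹ * (Bc C p q t u * C.Z q u') * Bc C p q t u' := by
      rw [Bc, Bc, Bc, C.Z_add memB2 hgq (b3_zc C hB hq)]
      group
    rw [e1, cq, inv_mul_cancel_left]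

end partC

end Cfsg.Agent.Lib.Helper45.StW
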