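import Cfsg.Agent.Lib.Helper49.W2BBIL

/-! LADDER W2 (S2400, case B2(3)): rung BZZ -/

set_option autoImplicit false

namespace Cfsg.Agent.Lib.Helper45.StW

open Cfsg.Lie Matrix Cfsg.Agent.Lib.Helper22 Cfsg.Agent.Lib.Helper23 Cfsg.Agent.Lib.Helper45
  Cfsg.Agent.Lib.Helper23.StP Cfsg.Agent.Lib.Helper45.StV

variable {K : Type*} [Field K] {hA : AddFact chevB2 K} {E : Type*} [Group E]

theorem bzz_tab : ∀ p ∈ S2, ∀ q ∈ S2, ∀ c ∈ chevB2.commTerms p q, c.1 ∈ L2 ∧ c.1 ∉ S2 ∧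
    (c.2.1 = 2 ∨ c.2.1 = -2) ∧
    (decB2 c.1 = (p, q, c.2.1) ∨ (decB2 c.1 = (q, p, -c.2.1) ∧ chevB2.commTerms q p = [(c.1, -c.2.1, 1, 1)])) := by
  decide +kernel

section partC
variable (C : CY chevB2 K hA E) (hB : B3 C)
include hB

theorem bzz_neg {p q r : ℕ} {N : ℤ} (hp : p ∈ S2) (hq : q ∈ S2) (hT : chevB2.commTerms p q = [(r, N, 1, 1)])
    (t u : K) : Bc C p q (-t) u = (Bc C p q t u)⁻¹ ∧ Bc C p q t (-u) = (Bc C p q t u)⁻¹ ∧
      Bc C p q 0 u = 1 ∧ Bc C p q t 0 = 1 := by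
  obtain ⟨-, hl, hr⟩ := b3_bil C hB hp hq hT
  have hl0 : ∀ u, Bc C p q 0 u = 1 := by
    intro u
    have := hl 0 0 u
    rw [add_zero] at this
    exact left_eq_mul.mp this
  have hr0 : ∀ t, Bc C p q t 0 = 1 := by
    intro t
    have := hr t 0 0
    rw [add_zero] at this
    exact left_eq_mul.mp this
  refine ⟨?_, ?_, hl0 u, hr0 t⟩
  · have := hl (-t) t u
    rw [neg_add_cancel, hl0] at this
    exact eq_inv_of_mul_eq_one_left this.symm
  · have := hr t (-u) u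
    rw [neg_add_cancel, hr0] at this
    exact eq_inv_of_mul_eq_one_left this.symm

theorem bzz_norm {p q r : ℕ} {N : ℤ} (hp : p ∈ S2) (hq : q ∈ S2) (hT : chevB2.commTerms p q = [(r, N, 1, 1)])
    (t u : K) : Bc C p q t u = Bc C p q (t * u) 1 := by
  rcases hB.h3 u with rfl | rfl | rfl
  · rw [mul_zero, (bzz_neg C hB hp hq hT t 0).2.2.2, (bzz_neg C hB hp hq hT 0 1).2.2.1]
  · rw [mul_one]
  · rw [mul_neg, mul_one, (bzz_neg C hB hp hq hT t 1).1, (bzz_neg C hB hp hq hT t 1).2.1]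

/-- [BZZ] -/
theorem b3_zz {p q r : ℕ} {N : ℤ} (hp : p ∈ S2) (hq : q ∈ S2) (hT : chevB2.commTerms p q = [(r, N, 1, 1)])
    (t u : K) : Bc C p q t u = ZZ C r ((N : K) * (-t) * u) := by
  obtain ⟨hL, hS, hN, hdec⟩ := bzz_tab p hp q hq (r, N, 1, 1) (by rw [hT]; exact List.mem_singleton.2 rfl)
  have h20 : (2 : K) ≠ 0 := by
    intro h
    have h3 := hB.h30
    have : (3 : K) = 2 + 1 := by norm_num
    rw [this, h, zero_add] at h3
    exact one_ne_zero h3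
  have hN0 : (N : K) ≠ 0 := by
    rcases hN with h | h
    · have h' : N = 2 := h
      rw [h']; simpa using h20
    · have h' : N = -2 := h
      rw [h']; simpa using h20
  rw [ZZ, if_neg hS, if_pos hL]
  rcases hdec with hd | ⟨hd, hT'⟩
  · have hd' : decB2 r = (p, q, N) := hd
    rw [hd', bzz_norm C hB hp hq hT t u]
    congr 1
    show t * u = -((N : K)⁻¹ * ((N : K) * (-t) * u))
    field_simp
  · have hd' : decB2 r = (q, p, -N) := hd
    have hT'' : chevB2.commTerms q p = [(r, -N, 1, 1)] := hT'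
    rw [hd']
    have e1 : Bc C p q t u = (Bc C q p u t)⁻¹ := by
      rw [Bc, Bc]; group
    rw [e1, ← (bzz_neg C hB hq hp hT'' u t).1, bzz_norm C hB hq hp hT'' (-u) t]
    congr 1
    show -u * t = -((((-N : ℤ) : K))⁻¹ * ((N : K) * (-t) * u))
    push_cast
    field_simp

end partC

end Cfsg.Agent.Lib.Helper45.StW
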