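import Cfsg.Agent.Lib.Helper45.StW4
import Cfsg.Agent.Lib.Helper3.W3PRIME

/-! LADDER W2 (S2400, case B2(3)): rung ZC -/

set_option autoImplicit false

namespace Cfsg.Agent.Lib.Helper45.StW

open Cfsg.Lie Matrix Cfsg.Agent.Lib.Helper22 Cfsg.Agent.Lib.Helper23 Cfsg.Agent.Lib.Helper45
  Cfsg.Agent.Lib.Helper23.StP Cfsg.Agent.Lib.Helper45.StV

variable {K : Type*} [Field K] {hA : AddFact chevB2 K} {E : Type*} [Group E]

section partC
variable (C : CY chevB2 K hA E) (hB : B3 C)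
include hB

/-- [ZC] -/
theorem b3_zc {r : ℕ} (hr : r ∈ S2) : C.ZC r := by
  have hg : C.good r := (hB.good_iff r).2 hr
  intro t u
  have hρ : ∀ t u, C.ρ (C.Z r t * C.Z r u * (C.Z r t)⁻¹ * (C.Z r u)⁻¹) = 1 := by
    intro t u
    rw [map_mul, map_mul, map_mul, map_inv, map_inv, C.rho_Z memB2 hg, C.rho_Z memB2 hg, ← hA.X_add, add_comm,
      hA.X_add]
    group
  have := bil_prime (fun t u => C.Z r t * C.Z r u * (C.Z r t)⁻¹ * (C.Z r u)⁻¹) hB.h3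
    (fun t t' u => by
      show C.Z r (t + t') * C.Z r u * (C.Z r (t + t'))⁻¹ * (C.Z r u)⁻¹ = _
      rw [comm_lift C.ρ C.cen (x' := C.Z r t * C.Z r t') (y' := C.Z r u)
        (by rw [map_mul, C.rho_Z memB2 hg, C.rho_Z memB2 hg, C.rho_Z memB2 hg, hA.X_add]) rfl]
      exact comm_mul_left C.ρ C.cen (hρ t' u))
    (fun t u u' => by
      show C.Z r t * C.Z r (u + u') * (C.Z r t)⁻¹ * (C.Z r (u + u'))⁻¹ = _
      rw [comm_lift C.ρ C.cen (x' := C.Z r t) (y' := C.Z r u * C.Z r u') rfl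
        (by rw [map_mul, C.rho_Z memB2 hg, C.rho_Z memB2 hg, C.rho_Z memB2 hg, hA.X_add])]
      exact comm_mul_right C.ρ C.cen (hρ t u'))
    hB.h30 (by
      show C.Z r 1 * C.Z r 1 * (C.Z r 1)⁻¹ * (C.Z r 1)⁻¹ * (C.Z r 1 * C.Z r 1 * (C.Z r 1)⁻¹ * (C.Z r 1)⁻¹) = 1
      group) t u
  have h3 : C.Z r t * C.Z r u * (C.Z r t)⁻¹ * (C.Z r u)⁻¹ = 1 := this
  rwa [mul_inv_eq_one, mul_inv_eq_iff_eq_mul] at h3

end partC

end Cfsg.Agent.Lib.Helper45.StW
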