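import Cfsg.Agent.Lib.Helper45.StW4

/-! LADDER W2 (S2400, case B2(3)): rung ZDIAG, as a statement relative to BZZ and ZRHO -/

set_option autoImplicit false

namespace Cfsg.Agent.Lib.Helper45.StW

open Cfsg.Lie Matrix Cfsg.Agent.Lib.Helper22 Cfsg.Agent.Lib.Helper23 Cfsg.Agent.Lib.Helper45
  Cfsg.Agent.Lib.Helper23.StP Cfsg.Agent.Lib.Helper45.StV

variable {K : Type*} [Field K] {hA : AddFact chevB2 K} {E : Type*} [Group E]

theorem zdiag_tab : ∀ r ∈ L2, (decB2 r).1 ∈ S2 ∧ (decB2 r).2.1 ∈ S2 ∧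
    chevB2.commTerms (decB2 r).1 (decB2 r).2.1 = [(r, (decB2 r).2.2, 1, 1)] := by
  decide +kernel

theorem zdiag_lt : ∀ r ∈ S2, r < chevB2.nroots := by decide +kernel

theorem zdiag_cases : ∀ r < chevB2.nroots, r ∈ S2 ∨ (r ∉ S2 ∧ r ∈ L2) := by decide +kernel

section partC
variable (C : CY chevB2 K hA E)

/-- [ZDIAG], relative to [BZZ] and [ZRHO] -/
theorem b3_diag_of
    (hzz : ∀ {p q r : ℕ} {N : ℤ}, p ∈ S2 → q ∈ S2 → chevB2.commTerms p q = [(r, N, 1, 1)] →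
      ∀ t u : K, Bc C p q t u = ZZ C r ((N : K) * (-t) * u))
    (hrho : ∀ (r : ℕ) (t : K), C.ρ (ZZ C r t) = hA.X r t)
    (e : E) (he : C.ρ e ∈ chevB2.diagonalSubgroup K) (r : ℕ) (hr : r < chevB2.nroots) (d : K)
    (h1 : ∀ t, C.ρ e * hA.X r t * (C.ρ e)⁻¹ = hA.X r (d * t)) (t : K) :
    e * ZZ C r t * e⁻¹ = ZZ C r (d * t) := by
  rcases zdiag_cases r hr with hS | ⟨hS, hL⟩
  · rw [ZZ, if_pos hS, ZZ, if_pos hS]
    exact C.conj_Z_diag memB2 he hr h1 t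
  · obtain ⟨hp, hq, hT⟩ := zdiag_tab r hL
    set p := (decB2 r).1 with hpd
    set q := (decB2 r).2.1 with hqd
    set N := (decB2 r).2.2 with hNd
    obtain ⟨dp, -, hdp⟩ := la_diag memB2 hA he p (zdiag_lt p hp)
    obtain ⟨dq, -, hdq⟩ := la_diag memB2 hA he q (zdiag_lt q hq)
    have hZ : ∀ s : K, ZZ C r s = Bc C p q (-((N : K)⁻¹ * s)) 1 := by
      intro s
      rw [ZZ, if_neg hS, if_pos hL]
    have e1 : ∀ a c : K, e * Bc C p q a c * e⁻¹ = Bc C p q (dp * a) (dq * c) := by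
      intro a c
      have e2 : e * Bc C p q a c * e⁻¹ = (e * C.Z q c * e⁻¹)⁻¹ * (e * C.Z p a * e⁻¹)⁻¹ * (e * C.Z q c * e⁻¹) *
          (e * C.Z p a * e⁻¹) := by
        rw [Bc]; group
      rw [e2, C.conj_Z_diag memB2 he (zdiag_lt p hp) hdp, C.conj_Z_diag memB2 he (zdiag_lt q hq) hdq, Bc]
    have e3 : e * ZZ C r t * e⁻¹ = ZZ C r ((N : K) * (-(dp * (-((N : K)⁻¹ * t)))) * (dq * 1)) := by
      rw [hZ t, e1, hzz hp hq hT]
    rw [e3]
    congr 1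
    apply X_inj memB2 hA hr
    rw [← hrho, ← e3, map_mul, map_mul, map_inv, hrho, h1]

end partC

end Cfsg.Agent.Lib.Helper45.StW
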