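import Cfsg.Agent.Lib.Helper49.W2BZZ
import Cfsg.Agent.Lib.Helper49.W2ZDIAG

/-! LADDER W2 (S2400, case B2(3)): rungs ZRHO, ZADD, ZDIAG -/

set_option autoImplicit false

namespace Cfsg.Agent.Lib.Helper45.StW

open Cfsg.Lie Matrix Cfsg.Agent.Lib.Helper22 Cfsg.Agent.Lib.Helper23 Cfsg.Agent.Lib.Helper45
  Cfsg.Agent.Lib.Helper23.StP Cfsg.Agent.Lib.Helper45.StV

variable {K : Type*} [Field K] {hA : AddFact chevB2 K} {E : Type*} [Group E]

theorem zrho_tab : ∀ r ∈ L2, (decB2 r).2.2 = 2 ∨ (decB2 r).2.2 = -2 := by decide +kernel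

section partC
variable (C : CY chevB2 K hA E) (hB : B3 C)
include hB

/-- [ZRHO] -/
theorem b3_rho (r : ℕ) (t : K) : C.ρ (ZZ C r t) = hA.X r t := by
  by_cases hS : r ∈ S2
  · rw [ZZ, if_pos hS]
    exact C.rho_Z memB2 ((hB.good_iff r).2 hS) t
  · by_cases hL : r ∈ L2
    · obtain ⟨hp, hq, hT⟩ := zdiag_tab r hL
      have h20 : (2 : K) ≠ 0 := by
        intro h
        have h3 := hB.h30
        have : (3 : K) = 2 + 1 := by norm_num
        rw [this, h, zero_add] at h3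
        exact one_ne_zero h3
      have hN0 : (((decB2 r).2.2 : ℤ) : K) ≠ 0 := by
        rcases zrho_tab r hL with h | h
        · rw [h]; simpa using h20
        · rw [h]; simpa using h20
      rw [ZZ, if_neg hS, if_pos hL, (b3_bil C hB hp hq hT).1]
      congr 1
      field_simp
    · have hr : ¬ r < chevB2.nroots := by
        intro hr
        rcases zdiag_cases r hr with h | ⟨-, h⟩
        · exact hS h
        · exact hL h
      rw [ZZ, if_neg hS, if_neg hL, map_one]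
      exact (Units.ext (x_of_ge hr t)).symm

/-- [ZADD] -/
theorem b3_add (r : ℕ) (t u : K) : ZZ C r (t + u) = ZZ C r t * ZZ C r u := by
  by_cases hS : r ∈ S2
  · rw [ZZ, if_pos hS, ZZ, if_pos hS, ZZ, if_pos hS]
    exact C.Z_add memB2 ((hB.good_iff r).2 hS) (b3_zc C hB hS) t u
  · by_cases hL : r ∈ L2
    · obtain ⟨hp, hq, hT⟩ := zdiag_tab r hL
      rw [ZZ, if_neg hS, if_pos hL, ZZ, if_neg hS, if_pos hL, ZZ, if_neg hS, if_pos hL,
        ← (b3_bil C hB hp hq hT).2.1]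
      congr 1
      ring
    · rw [ZZ, if_neg hS, if_neg hL, ZZ, if_neg hS, if_neg hL, ZZ, if_neg hS, if_neg hL, one_mul]

/-- [ZDIAG] -/
theorem b3_diag (e : E) (he : C.ρ e ∈ chevB2.diagonalSubgroup K) (r : ℕ) (hr : r < chevB2.nroots) (d : K)
    (h1 : ∀ t, C.ρ e * hA.X r t * (C.ρ e)⁻¹ = hA.X r (d * t)) (t : K) :
    e * ZZ C r t * e⁻¹ = ZZ C r (d * t) :=
  b3_diag_of C (fun hp hq hT => b3_zz C hB hp hq hT) (b3_rho C hB) e he r hr d h1 t

end partC

end Cfsg.Agent.Lib.Helper45.StW
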